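/-
Alternating sections of `E₆`, `E₇`, `E₈`: shared definitions.
-/
import Cfsg.Agent.H7.Alt4
import Cfsg.Agent.H7.Sec1

set_option autoImplicit false

namespace CfsgAE

open Matrix

/-- `s`-subgroups are (subgroup of a rank `l` torus)-by-(subgroup of `GL_l(2)`) -/
def TorRep (K : Type*) [Field K] (H : Type*) [Group H] (s l : ℕ) : Prop :=
  ∀ P : Subgroup H, IsPGroup s P →
    ∃ (φ : P →* GL (Fin l) (ZMod 2)) (ψ : φ.ker →* (Fin l → Kˣ)), Function.Injective ψ

/-- dimension of the fixed space -/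
noncomputable def fixd {ι K : Type*} [Fintype ι] [DecidableEq ι] [Field K] (g : GL ι K) : ℕ :=
  Module.finrank K (Module.End.eigenspace (Matrix.toLin' (g : Matrix ι ι K)) 1)

/-- the `s`-elements of the kernel are central -/
def CenK {H Q : Type*} [Group H] [Group Q] (π : H →* Q) (s : ℕ) : Prop :=
  ∀ k : H, π k = 1 → (∃ e, k ^ s ^ e = 1) → ∀ g, g * k = k * g

/-- an invariant subspace of small dimension on which `y` acts without fixed points -/
def SpinSub {K H ι : Type*} [Field K] [Group H] [Fintype ι] [DecidableEq ι] (ρ : H →* GL ι K)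
    (y z : H) (d : ℕ) : Prop :=
  ∃ W : Submodule K (ι → K), W ≠ ⊥ ∧ Module.finrank K W ≤ d ∧
    (∀ h, (h * y = y * h ∨ h * z = z * h) → ∀ v ∈ W, (ρ (h ^ 6) : Matrix ι ι K) *ᵥ v ∈ W) ∧
    ∀ v ∈ W, (ρ y : Matrix ι ι K) *ᵥ ((ρ y : Matrix ι ι K) *ᵥ v) + (ρ y : Matrix ι ι K) *ᵥ v + v = 0

end CfsgAE
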