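/-
Simply laced root systems attached to abstract Chevalley groups.
-/
import Cfsg.Agent.H7.Tor2

set_option autoImplicit false
set_option linter.unusedSectionVars false

namespace CfsgAE

open CfsgH8 CfsgH8.Chev Matrix CfsgH7

variable {ι R l F : Type*} [Fintype ι] [DecidableEq ι] [Fintype l] [DecidableEq l] [Field F]
  (C : Chev ι R l F)

/-- the bilinear form -/
def bf (u : l → ℤ) : (l → ℤ) →+ ℤ where
  toFun v := ∑ i, u i * C.A i v
  map_zero' := by simp
  map_add' a b := by simp [mul_add, Finset.sum_add_distrib]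

theorem bf_apply (u v : l → ℤ) : bf C u v = ∑ i, u i * C.A i v := rfl

/-- simply laced data -/
structure SL (θ : R) : Prop where
  symm : ∀ i j, C.A i (Pi.single j 1) = C.A j (Pi.single i 1)
  idx : ∀ k, (∃ i, k = C.hb i) ∨ ∃ r, k = C.e r
  hb_inj : Function.Injective C.hb
  dom : ∀ r, (∀ i, 0 ≤ C.A i (C.rt r)) → r = θ
  bnd : ∀ r, r ≠ θ → bf C (C.rt θ) (C.rt r) ≤ 1

theorem hom_eq (g : (l → ℤ) →+ ℤ) (v : l → ℤ) : g v = ∑ j, v j * g (Pi.single j 1) := by
  conv_lhs => rw [pi_eq_sum_univ' v]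
  simp only [map_sum, map_zsmul, smul_eq_mul]

theorem hom_ext {M : Type*} [AddCommGroup M] {g g' : (l → ℤ) →+ M}
    (h : ∀ j, g (Pi.single j 1) = g' (Pi.single j 1)) : g = g' := by
  refine AddMonoidHom.ext fun v => ?_
  rw [pi_eq_sum_univ' v]
  simp only [map_sum, map_zsmul, h]

theorem bf_add (u u' v : l → ℤ) : bf C (u + u') v = bf C u v + bf C u' v := by
  simp [bf_apply, add_mul, Finset.sum_add_distrib]

theorem bf_sub (u u' v : l → ℤ) : bf C (u - u') v = bf C u v - bf C u' v := by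
  simp [bf_apply, sub_mul, Finset.sum_sub_distrib]

theorem bf_neg (u v : l → ℤ) : bf C (-u) v = -bf C u v := by simp [bf_apply]

theorem bf_smul (k : ℤ) (u v : l → ℤ) : bf C (k • u) v = k * bf C u v := by
  simp [bf_apply, Finset.mul_sum, mul_assoc]

theorem bf_zero (v : l → ℤ) : bf C 0 v = 0 := by simp [bf_apply]

theorem bf_single (i : l) (v : l → ℤ) : bf C (Pi.single i 1) v = C.A i v := by
  rw [bf_apply, Finset.sum_eq_single i] <;> simp +contextual

theorem wl_append (L L' : List l) (v : l → ℤ) : C.wl (L ++ L') v = C.wl L (C.wl L' v) := by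
  induction L with
  | nil => rfl
  | cons i L ih => exact congrArg (C.sr i) ih

theorem rt_wr (L : List l) (r : R) : C.rt (C.wr L r) = C.wl L (C.rt r) := by
  induction L with
  | nil => rfl
  | cons i L ih => exact (C.rt_w' i _).trans (congrArg (C.sr i) ih)

theorem wl_rev (L : List l) (v : l → ℤ) : C.wl L.reverse (C.wl L v) = v := by
  induction L generalizing v with
  | nil => rfl
  | cons i L ih =>
    rw [List.reverse_cons, wl_append]
    exact (congrArg _ (C.sr_sr i _)).trans (ih v)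

theorem wl_rev' (L : List l) (v : l → ℤ) : C.wl L (C.wl L.reverse v) = v := by
  simpa using wl_rev C L.reverse v

theorem wr_rev (L : List l) (r : R) : C.wr L.reverse (C.wr L r) = r :=
  C.rt_inj (by rw [rt_wr, rt_wr, wl_rev])

theorem wr_rev' (L : List l) (r : R) : C.wr L (C.wr L.reverse r) = r :=
  C.rt_inj (by rw [rt_wr, rt_wr, wl_rev'])

theorem wr_neg (L : List l) (r : R) : C.wr L (C.neg r) = C.neg (C.wr L r) :=
  C.rt_inj (by rw [rt_wr, C.rt_neg, C.rt_neg, rt_wr, map_neg])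

/-- a word as a permutation of the roots -/
def wp (L : List l) : Equiv.Perm R := ⟨C.wr L, C.wr L.reverse, wr_rev C L, wr_rev' C L⟩

theorem wl_congr {L L' : List l} (h : ∀ r, C.wr L r = C.wr L' r) : C.wl L = C.wl L' :=
  hom_ext fun j => by rw [← C.rt_p, ← rt_wr, ← rt_wr, h]

theorem rt_ne (r : R) : C.rt r ≠ 0 := fun h => C.f_ne r (by rw [h, map_zero])

theorem neg_ne (r : R) : C.neg r ≠ r := fun h => C.f_ne r (by
  have := C.f_neg r
  rw [h] at this; omega)

theorem pos_iff (r : R) : 0 < C.f (C.rt r) ↔ 0 ≤ C.rt r := by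
  refine ⟨fun h => (C.sgn r).resolve_right fun h' => ?_, fun h => C.f_pos' h (rt_ne C r)⟩
  have := C.f_nonneg (v := -C.rt r) (by simpa using h')
  rw [map_neg] at this
  omega

theorem exists_simple (r : R) : ∃ L i, r = C.wr L (C.p i) := by
  induction hd : C.dep r using Nat.strong_induction_on generalizing r with
  | _ d ih =>
  rcases C.desc r with ⟨i, -, rfl⟩ | ⟨i, hi⟩
  · exact ⟨[], i, rfl⟩
  · obtain ⟨L, j, e⟩ := ih _ (hd ▸ hi) _ rfl
    exact ⟨i :: L, j, by rw [← C.w_w i r, e]; rfl⟩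

/-- descent to a dominant root for a set of simple reflections -/
theorem descent [Finite R] (J : l → Prop) (r : R) :
    ∃ L : List l, (∀ i ∈ L, J i) ∧ ∀ i, J i → 0 ≤ C.A i (C.rt (C.wr L r)) := by
  obtain ⟨M, hM⟩ := (Set.finite_range fun r => C.f (C.rt r)).bddAbove
  induction hd : (M - C.f (C.rt r)).toNat using Nat.strong_induction_on generalizing r with
  | _ d ih =>
  by_cases h : ∀ i, J i → 0 ≤ C.A i (C.rt r)
  · exact ⟨[], by simp, h⟩
  push Not at h
  obtain ⟨i, hi, h⟩ := h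
  have h1 : C.f (C.rt (C.w i r)) ≤ M := hM ⟨_, rfl⟩
  have h2 : C.f (C.rt r) < C.f (C.rt (C.w i r)) := by
    have := C.f_pos i
    rw [C.rt_w, map_sub, map_zsmul, smul_eq_mul]
    nlinarith
  obtain ⟨L, h3, h4⟩ := ih _ (by omega) (C.w i r) rfl
  refine ⟨L ++ [i], fun j hj => ?_, fun j hj => by rw [wr_append]; exact h4 j hj⟩
  rcases List.mem_append.1 hj with hj | hj
  exacts [h3 j hj, List.mem_singleton.1 hj ▸ hi]

theorem wl_fix {L : List l} {v : l → ℤ} (h : ∀ i ∈ L, C.A i v = 0) : C.wl L v = v := by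
  induction L with
  | nil => rfl
  | cons i L ih =>
    change C.sr i (C.wl L v) = v
    rw [ih fun j hj => h j (List.mem_cons_of_mem _ hj), sr_apply, h i List.mem_cons_self]
    simp

/-- number of positive roots with negative value -/
noncomputable def ngc (g : (l → ℤ) →+ ℤ) : ℕ := Nat.card {r // 0 < C.f (C.rt r) ∧ g (C.rt r) < 0}

theorem ngc_lt [Finite R] {g : (l → ℤ) →+ ℤ} {i : l} (h : g (Pi.single i 1) < 0) :
    ngc C (g.comp (C.sr i)) < ngc C g := by
  have h0 : ∀ r, g (C.sr i (C.rt r)) < 0 → r ≠ C.p i := by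
    rintro r hr rfl
    rw [← C.rt_w', w_p, C.rt_neg, C.rt_p, map_neg] at hr
    omega
  have := Fintype.ofFinite {r // 0 < C.f (C.rt r) ∧ g (C.rt r) < 0}
  have := Fintype.ofFinite {r // 0 < C.f (C.rt r) ∧ g.comp (C.sr i) (C.rt r) < 0}
  rw [ngc, ngc, Nat.card_eq_fintype_card, Nat.card_eq_fintype_card]
  refine Fintype.card_lt_of_injective_not_surjective
    (fun r => ⟨C.w i r.1, C.w_pos i r.2.1 (h0 _ r.2.2), by rw [rt_w']; exact r.2.2⟩)
    (fun r s e => Subtype.ext ((C.w_w i _).symm.trans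
      ((congrArg (C.w i ·.1) e).trans (C.w_w i _)))) fun hs => ?_
  obtain ⟨r, e⟩ := hs ⟨C.p i, C.f_p i, by rwa [C.rt_p]⟩
  have e' : r.1 = C.neg (C.p i) := by
    rw [← C.w_p, ← C.w_w i r.1]; exact congrArg (C.w i ·.1) e
  have := r.2.1
  rw [e', f_neg] at this
  have := C.f_p i
  omega

theorem dominant [Finite R] (g : (l → ℤ) →+ ℤ) : ∃ L, ∀ i, 0 ≤ g (C.wl L (Pi.single i 1)) := by
  induction hd : ngc C g using Nat.strong_induction_on generalizing g with
  | _ d ih =>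
  by_cases h : ∀ i, 0 ≤ g (Pi.single i 1)
  · exact ⟨[], h⟩
  push Not at h
  obtain ⟨i, hi⟩ := h
  obtain ⟨L, hL⟩ := ih _ (hd ▸ ngc_lt C hi) _ rfl
  exact ⟨i :: L, hL⟩

theorem nonneg_of {g : (l → ℤ) →+ ℤ} (h : ∀ i, 0 ≤ g (Pi.single i 1)) {v : l → ℤ} (hv : 0 ≤ v) :
    0 ≤ g v := by
  rw [hom_eq]
  exact Finset.sum_nonneg fun j _ => mul_nonneg (hv j) (h j)

theorem exists_generic (S : Finset (l → ℤ)) (h : ∀ v ∈ S, v ≠ 0) :
    ∃ g : (l → ℤ) →+ ℤ, ∀ v ∈ S, g v ≠ 0 := by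
  classical
  induction S using Finset.induction_on with
  | empty => exact ⟨0, by simp⟩
  | insert v S hv ih =>
    obtain ⟨g, hg⟩ := ih fun u hu => h u (Finset.mem_insert_of_mem hu)
    obtain ⟨j, hj⟩ := Function.ne_iff.1 (h v (Finset.mem_insert_self _ _))
    refine ⟨((∑ u ∈ insert v S, |u j|) + 1) • g + Pi.evalAddMonoidHom _ j, fun u hu e => ?_⟩
    have h1 : |u j| ≤ ∑ u ∈ insert v S, |u j| :=
      Finset.single_le_sum (f := fun u => |u j|) (fun _ _ => abs_nonneg _) hu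
    generalize ∑ u ∈ insert v S, |u j| = M at e h1
    have e' : (M + 1) * g u + u j = 0 := e
    have h2 : g u = 0 := by
      by_contra h2
      have := abs_le.1 h1
      rcases lt_or_gt_of_ne h2 with h | h <;> nlinarith
    rcases Finset.mem_insert.1 hu with rfl | hu
    · exact hj (by simpa [h2] using e')
    · exact hg u hu h2

theorem wr_id [Finite R] (hE : C.Extra) {L : List l} (h : ∀ i, 0 < C.f (C.rt (C.wr L (C.p i)))) :
    C.wr L = id := by
  obtain ⟨χ, e⟩ := hE.mem_H L h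
  exact hE.unique (hE.acts_nw L) Acts.one (one_mem _) (one_mem _) (one_mem _) (one_mem _)
    (χ := 1) (χ' := χ) (by simp [e])

/-- a Weyl group element fixing a regular functional is trivial -/
theorem wr_id_of [Finite R] (hE : C.Extra) {L : List l} {g : (l → ℤ) →+ ℤ}
    (h1 : ∀ v, g (C.wl L v) = g v) (h2 : ∀ r, g (C.rt r) ≠ 0) (r : R) : C.wr L r = r := by
  obtain ⟨L₀, h0⟩ := dominant C g
  have h3 := wr_id C hE (L := L₀.reverse ++ L ++ L₀) fun i => by
    by_contra h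
    have h4 := nonneg_of (g := g.comp (C.wl L₀)) h0 ((pos_iff C (C.neg
      (C.wr (L₀.reverse ++ L ++ L₀) (C.p i)))).1 (by
        rw [f_neg]; have := C.f_ne (C.wr (L₀.reverse ++ L ++ L₀) (C.p i)); omega))
    rw [C.rt_neg, rt_wr, wl_append, wl_append, map_neg, AddMonoidHom.comp_apply, wl_rev', h1,
      C.rt_p] at h4
    have h5 := h2 (C.wr L₀ (C.p i))
    rw [rt_wr, C.rt_p] at h5
    have := h0 i
    omega
  have := congrArg (C.wr L₀) (congrFun h3 (C.wr L₀.reverse r))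
  rwa [wr_append, wr_append, wr_rev', wr_rev', id, wr_rev'] at this

/-- powers of a word -/
def wpow (L : List l) : ℕ → List l
  | 0 => []
  | k + 1 => wpow L k ++ L

theorem wr_wpow (L : List l) (k : ℕ) (r : R) : C.wr (wpow L k) r = (C.wr L)^[k] r := by
  induction k generalizing r with
  | zero => rfl
  | succ k ih => rw [wpow, wr_append, ih]; rfl

theorem exists_sum_zero [Finite R] (hE : C.Extra) {L : List l} {s : ℕ}
    (hs : ∀ r, (C.wr L)^[s] r = r) (h : ∃ r, C.wr L r ≠ r) :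
    ∃ r, ∑ k ∈ Finset.range s, C.rt ((C.wr L)^[k] r) = 0 := by
  classical
  by_contra h0
  push Not at h0
  have := Fintype.ofFinite R
  obtain ⟨g, hg⟩ := exists_generic (Finset.univ.image fun r =>
    ∑ k ∈ Finset.range s, C.rt ((C.wr L)^[k] r)) (by simpa using h0)
  obtain ⟨r, hr⟩ := h
  refine hr (wr_id_of C hE (g := ∑ k ∈ Finset.range s, g.comp (C.wl (wpow L k))) (fun v => ?_)
    (fun r => ?_) r)
  · have h1 : C.wl (wpow L s) = C.wl [] := wl_congr C fun r => by rw [wr_wpow, hs]; rfl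
    have h2 := (Finset.sum_range_succ (fun k => g (C.wl (wpow L k) v)) s).symm.trans
      (Finset.sum_range_succ' (fun k => g (C.wl (wpow L k) v)) s)
    simp only [h1, wpow, wl_append, add_left_inj] at h2
    simpa only [AddMonoidHom.finsetSum_apply, AddMonoidHom.comp_apply] using h2.symm
  · have := hg _ (Finset.mem_image_of_mem _ (Finset.mem_univ r))
    simpa only [AddMonoidHom.finsetSum_apply, AddMonoidHom.comp_apply, map_sum, ← rt_wr,
      wr_wpow] using this

variable {C} {θ : R} (hS : SL C θ)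
include hS

theorem SL.A_eq (i : l) (v : l → ℤ) : C.A i v = bf C v (Pi.single i 1) := by
  rw [hom_eq, bf_apply]
  exact Finset.sum_congr rfl fun j _ => by rw [hS.symm]

theorem SL.comm (u v : l → ℤ) : bf C u v = bf C v u := by
  rw [hom_eq (bf C v), bf_apply]
  exact Finset.sum_congr rfl fun j _ => by rw [hS.A_eq]

theorem SL.bf_sr (i : l) (u v : l → ℤ) : bf C (C.sr i u) (C.sr i v) = bf C u v := by
  rw [sr_apply, sr_apply, bf_sub, bf_smul, map_sub, map_sub, map_zsmul, map_zsmul, bf_single,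
    bf_single, C.A_p, ← hS.A_eq]
  simp only [smul_eq_mul]; ring

theorem SL.bf_wl (L : List l) (u v : l → ℤ) : bf C (C.wl L u) (C.wl L v) = bf C u v := by
  induction L with
  | nil => rfl
  | cons i L ih => exact (hS.bf_sr i _ _).trans ih

theorem SL.bf_wr (L : List l) (r s : R) :
    bf C (C.rt (C.wr L r)) (C.rt (C.wr L s)) = bf C (C.rt r) (C.rt s) := by
  rw [rt_wr, rt_wr, hS.bf_wl]

theorem SL.norm (r : R) : bf C (C.rt r) (C.rt r) = 2 := by
  obtain ⟨L, i, rfl⟩ := exists_simple C r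
  rw [hS.bf_wr, C.rt_p, bf_single, C.A_p]

theorem SL.refl (r : R) : ∃ L, ∀ v, C.wl L v = v - bf C (C.rt r) v • C.rt r := by
  obtain ⟨L, i, rfl⟩ := exists_simple C r
  refine ⟨L ++ i :: L.reverse, fun v => ?_⟩
  rw [wl_append, rt_wr, ← wl_rev' C L v, hS.bf_wl, ← map_zsmul, ← map_sub, C.rt_p, bf_single,
    wl_rev']
  rfl

theorem SL.exists_sub (r s : R) : ∃ k, C.rt k = C.rt s - bf C (C.rt r) (C.rt s) • C.rt r := by
  obtain ⟨L, h⟩ := hS.refl r
  exact ⟨C.wr L s, by rw [rt_wr, h]⟩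

variable [Finite R]

theorem SL.trans (r : R) : ∃ L, C.wr L r = θ := by
  obtain ⟨L, -, h⟩ := descent C (fun _ => True) r
  exact ⟨L, hS.dom _ fun i => h i trivial⟩

theorem SL.θ_dom (i : l) : 0 ≤ C.A i (C.rt θ) := by
  obtain ⟨L, -, h⟩ := descent C (fun _ => True) θ
  rw [hS.dom _ fun i => h i trivial] at h
  exact h i trivial

theorem SL.θ_nonneg {r : R} (h : 0 < C.f (C.rt r)) : 0 ≤ bf C (C.rt θ) (C.rt r) :=
  nonneg_of (fun i => by rw [← hS.A_eq]; exact hS.θ_dom i) ((pos_iff C r).1 h)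

theorem SL.le_one {r s : R} (h : r ≠ s) : bf C (C.rt r) (C.rt s) ≤ 1 := by
  obtain ⟨L, e⟩ := hS.trans r
  rw [← hS.bf_wr L, e]
  exact hS.bnd _ fun e' => h ((wp C L).injective (e.trans e'.symm))

theorem SL.le_two (r s : R) : bf C (C.rt r) (C.rt s) ≤ 2 := by
  by_cases h : r = s
  · rw [h, hS.norm]
  · have := hS.le_one h; omega

theorem SL.neg_one_le {r s : R} (h : r ≠ C.neg s) : -1 ≤ bf C (C.rt r) (C.rt s) := by
  have := hS.le_one h
  rw [C.rt_neg, map_neg] at this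
  omega

theorem SL.neg_two_le (r s : R) : -2 ≤ bf C (C.rt r) (C.rt s) := by
  have := hS.le_two r (C.neg s)
  rw [C.rt_neg, map_neg] at this
  omega

theorem SL.wt_bound (r : R) (k : ι) : |bf C (C.rt r) (C.wt k)| ≤ 2 := by
  rcases hS.idx k with ⟨i, rfl⟩ | ⟨s, rfl⟩
  · simp [C.wt_hb]
  · rw [C.wt_e, abs_le]; exact ⟨hS.neg_two_le _ _, hS.le_two _ _⟩

theorem SL.even (v : l → ℤ) : Even (bf C v v) := by
  induction v using Pi.single_induction with
  | zero => simp
  | single i x =>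
    rw [show Pi.single i x = x • (Pi.single i 1 : l → ℤ) by simp [← Pi.single_smul], bf_smul,
      map_zsmul, bf_single, C.A_p]
    exact ⟨x * x, by simp; ring⟩
  | add u v hu hv =>
    rw [bf_add, map_add, map_add, hS.comm v u]
    obtain ⟨a, ha⟩ := hu
    obtain ⟨b, hb⟩ := hv
    exact ⟨a + b + bf C u v, by rw [ha, hb]; ring⟩

theorem SL.mod_two {r s : R} {v : l → ℤ} (h : C.rt r = C.rt s + (2 : ℤ) • v) :
    r = s ∨ r = C.neg s := by
  by_contra h0
  push Not at h0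
  have h1 := hS.le_one h0.1
  have h2 := hS.neg_one_le h0.2
  obtain ⟨a, ha⟩ := hS.even v
  have h3 : bf C (C.rt r - C.rt s) (C.rt r - C.rt s) = 4 * bf C v v := by
    rw [h, add_sub_cancel_left, bf_smul, map_zsmul, smul_eq_mul]; ring
  rw [bf_sub, map_sub, map_sub, hS.norm, hS.norm, hS.comm (C.rt s)] at h3
  omega

theorem SL.sum_bf [Fintype R] (a : R) (g : (l → ℤ) →+ ℤ) :
    4 * ∑ r, bf C (C.rt a) (C.rt r) * g (C.rt r) =
      2 * (∑ r, bf C (C.rt a) (C.rt r) ^ 2) * g (C.rt a) := by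
  obtain ⟨L, h⟩ := hS.refl a
  have h1 := Equiv.sum_comp (wp C L) fun r => bf C (C.rt a) (C.rt r) * g (C.rt r)
  have h2 : ∀ r, bf C (C.rt a) (C.rt (wp C L r)) * g (C.rt (wp C L r)) =
      bf C (C.rt a) (C.rt r) ^ 2 * g (C.rt a) - bf C (C.rt a) (C.rt r) * g (C.rt r) := fun r => by
    change bf C (C.rt a) (C.rt (C.wr L r)) * g (C.rt (C.wr L r)) = _
    rw [rt_wr, h, map_sub, map_sub, map_zsmul, map_zsmul, hS.norm]
    simp only [smul_eq_mul]; ring
  simp only [h2, Finset.sum_sub_distrib, ← Finset.sum_mul] at h1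
  linear_combination -2 * h1

/-- reduction to the fundamental alcove -/
theorem SL.alcove {s : ℕ} (hs : 0 < s) (g : (l → ℤ) →+ ℤ) :
    ∃ (L : List l) (g' : (l → ℤ) →+ ℤ), (∀ v, (s : ℤ) ∣ g (C.wl L v) - g' v) ∧
      (∀ i, 0 ≤ g' (Pi.single i 1)) ∧ g' (C.rt θ) ≤ s := by
  have := Fintype.ofFinite R
  induction hd : (∑ r, g (C.rt r) ^ 2).toNat using Nat.strong_induction_on generalizing g with
  | _ d ih =>
  obtain ⟨L, hL⟩ := dominant C g
  by_cases h : g (C.wl L (C.rt θ)) ≤ s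
  · exact ⟨L, g.comp (C.wl L), by simp, hL, h⟩
  obtain ⟨L', h'⟩ := hS.refl θ
  have h1 := Equiv.sum_comp (wp C L) fun r => g (C.rt r) ^ 2
  have h2 := hS.sum_bf θ (g.comp (C.wl L))
  have h3 : 0 < ∑ r, bf C (C.rt θ) (C.rt r) ^ 2 :=
    Finset.sum_pos' (fun _ _ => sq_nonneg _) ⟨θ, Finset.mem_univ _, by rw [hS.norm]; norm_num⟩
  obtain ⟨L₁, g', h4, h5⟩ := ih (∑ r, (g.comp (C.wl (L ++ L')) + (s : ℤ) • bf C (C.rt θ))
    (C.rt r) ^ 2).toNat (by
      have h6 : ∀ r, (g.comp (C.wl (L ++ L')) + (s : ℤ) • bf C (C.rt θ)) (C.rt r) ^ 2 =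
          g (C.rt (wp C L r)) ^ 2 - 2 * (g (C.wl L (C.rt θ)) - s) *
            (bf C (C.rt θ) (C.rt r) * g.comp (C.wl L) (C.rt r)) +
          (g (C.wl L (C.rt θ)) - s) ^ 2 * bf C (C.rt θ) (C.rt r) ^ 2 := fun r => by
        change (g (C.wl (L ++ L') _) + s * bf C _ _) ^ 2 = g (C.rt (C.wr L r)) ^ 2 -
          _ * (_ * g (C.wl L _)) + _
        rw [wl_append, h', map_sub, map_sub, map_zsmul, map_zsmul, rt_wr, smul_eq_mul]
        ring
      simp only [h6, Finset.sum_add_distrib, Finset.sum_sub_distrib, ← Finset.mul_sum, h1]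
      have h7 : 0 ≤ ∑ r, g (C.rt r) ^ 2 := Finset.sum_nonneg fun _ _ => sq_nonneg _
      have h8 : 0 ≤ ∑ r, (g.comp (C.wl (L ++ L')) + (s : ℤ) • bf C (C.rt θ)) (C.rt r) ^ 2 :=
        Finset.sum_nonneg fun _ _ => sq_nonneg _
      simp only [h6, Finset.sum_add_distrib, Finset.sum_sub_distrib, ← Finset.mul_sum, h1] at h8
      rw [AddMonoidHom.comp_apply] at h2
      rw [← hd, Int.toNat_lt_toNat] <;>
      · have : (0 : ℤ) < s := by exact_mod_cast hs
        have := mul_pos (mul_pos this h3) (show 0 < g (C.wl L (C.rt θ)) - s by omega)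
        nlinarith) _ rfl
  refine ⟨L ++ L' ++ L₁, g', fun v => ?_, h5⟩
  have := (h4 v).sub (dvd_mul_right (s : ℤ) (bf C (C.rt θ) (C.wl L₁ v)))
  rw [wl_append, show g (C.wl (L ++ L') (C.wl L₁ v)) - g' v = g (C.wl (L ++ L') (C.wl L₁ v)) +
    s * bf C (C.rt θ) (C.wl L₁ v) - g' v - s * bf C (C.rt θ) (C.wl L₁ v) by ring]
  exact this

end CfsgAE
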