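/-
Centralizers of torus elements, parabolic subgroups.
-/
import Cfsg.Agent.AE.Root

set_option autoImplicit false
set_option linter.unusedSectionVars false

namespace CfsgAE

open CfsgH8 CfsgH8.Chev Matrix CfsgH7

theorem conj_into {G : Type*} [Group G] [Finite G] {s : ℕ} [Fact s.Prime] (N A : Subgroup G)
    [N.Normal] (hN : ¬ s ∣ Nat.card N) (h : N ⊔ A = ⊤) {x : G} (hx : x ^ s = 1) :
    ∃ g : G, g * x * g⁻¹ ∈ A := by
  have h1 : A.index ∣ Nat.card N := by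
    have h2 : N.index ∣ Nat.card A := by
      rw [← Subgroup.relIndex_top_right, ← h, Subgroup.relIndex_sup_left]
      exact Subgroup.relIndex_dvd_card N A
    have h3 := (A.index_mul_card.trans N.card_mul_index.symm) ▸ mul_dvd_mul_left (Nat.card N) h2
    exact Nat.dvd_of_mul_dvd_mul_right Nat.card_pos h3
  obtain ⟨P⟩ : Nonempty (Sylow s A) := inferInstance
  let Q := (P.2.map A.subtype).toSylow (by
    rw [Subgroup.index_map_subtype]
    exact fun e => ((Nat.Prime.dvd_mul Fact.out).1 e).elim P.not_dvd_index fun e => hN (e.trans h1))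
  obtain ⟨S, hS⟩ := (Sec.isPGroup_zpowers hx).exists_le_sylow
  obtain ⟨g, e⟩ := MulAction.exists_smul_eq G S Q
  have : g * x * g⁻¹ ∈ (g • S : Sylow s G) := ⟨x, hS (Subgroup.mem_zpowers x), rfl⟩
  rw [e] at this
  exact ⟨g, Subgroup.map_subtype_le _ this⟩

theorem unip_eq_one {A K : Type*} [Field K] [Ring A] [Algebra K A] {s : ℕ} (hs : (s : K) ≠ 0)
    {u : A} (h : u ^ s = 1) {n : ℕ} (hn : (u - 1) ^ n = 0) : u = 1 := by
  induction n with
  | zero => rw [← mul_one u, (pow_zero _).symm.trans hn, mul_zero]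
  | succ n ih =>
    rcases n with _ | n
    · simpa [sub_eq_zero] using hn
    refine ih ?_
    have h1 : u * (u - 1) ^ (n + 1) = (u - 1) ^ (n + 1) := by
      rwa [pow_succ', sub_mul, one_mul, sub_eq_zero] at hn
    have h2 : ∀ k : ℕ, u ^ k * (u - 1) ^ n = (u - 1) ^ n + (k : K) • (u - 1) ^ (n + 1) := fun k => by
      induction k with
      | zero => simp
      | succ k ih =>
        rw [pow_succ', mul_assoc, ih, mul_add, mul_smul_comm, h1, Nat.cast_succ, add_smul, one_smul,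
          pow_succ' (u - 1) n, sub_mul, one_mul]
        abel
    have := h2 s
    rw [h, one_mul, left_eq_add, smul_eq_zero] at this
    exact this.resolve_left hs

variable {ι R l F : Type*} [Fintype ι] [DecidableEq ι] [Fintype l] [DecidableEq l] [Field F]

theorem UT_eq_one {g : ι → ℤ} {u : GL ι F} (hu : u ∈ UT g 1 one_pos) {s : ℕ} (hs : (s : F) ≠ 0)
    (h : u ^ s = 1) : u = 1 := by
  have key : ∀ n : ℕ, ∀ i j, g i < g j + n → (((u : Matrix ι ι F) - 1) ^ n) i j = 0 ∨ n = 0 := by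
    intro n
    induction n with
    | zero => simp
    | succ n ih =>
      refine fun i j hij => .inl ?_
      rcases n with _ | n
      · simpa [sub_eq_zero] using hu.1 i j hij
      rw [pow_succ, mul_apply]
      refine Finset.sum_eq_zero fun k _ => ?_
      by_cases h : g k < g j + 1
      · rw [Matrix.sub_apply, hu.1 k j h, sub_self, mul_zero]
      · rw [(ih i k (by push_cast at hij ⊢; omega)).resolve_right (by simp), zero_mul]
  obtain ⟨M, hM⟩ := (Set.finite_range fun ij : ι × ι => g ij.1 - g ij.2).bddAbove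
  refine Units.ext (unip_eq_one hs (by rw [← Units.val_pow_eq_pow_val, h, Units.val_one])
    (n := M.toNat + 1) (ext fun i j => (key _ i j ?_).resolve_right (by simp)))
  have : g i - g j ≤ M := hM ⟨(i, j), rfl⟩
  omega

variable (C : Chev ι R l F)

/-- monomial form -/
def NW (g : GL ι F) (L : List l) : Prop := ∃ χ, g = C.hh χ * C.nw L

variable {C}

theorem NW.mul {g g' : GL ι F} {L L' : List l} (h : NW C g L) (h' : NW C g' L') :
    NW C (g * g') (L ++ L') := by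
  obtain ⟨χ, rfl⟩ := h
  obtain ⟨ψ, rfl⟩ := h'
  obtain ⟨ψ', e⟩ := C.nw_hh L ψ
  exact ⟨χ * ψ', by rw [_root_.map_mul, nw_append, mul_assoc, ← mul_assoc (C.nw L), e]; group⟩

theorem NW.hh (χ : Ch l F) : NW C (C.hh χ) [] := ⟨χ, by simp [nw]⟩

theorem NW.nw (L : List l) : NW C (C.nw L) L := ⟨1, by simp⟩

theorem NW.inv {g : GL ι F} {L : List l} (h : NW C g L) : NW C g⁻¹ L.reverse := by
  have key : ∀ L : List l, NW C (C.nw L)⁻¹ L.reverse := fun L => by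
    induction L with
    | nil => exact ⟨1, by simp [Chev.nw]⟩
    | cons i L ih =>
      rw [nw_cons, _root_.mul_inv_rev, List.reverse_cons]
      exact ih.mul ⟨pw (-1) (C.A i), by rw [n_inv]; simp [Chev.nw]⟩
  obtain ⟨χ, rfl⟩ := h
  rw [_root_.mul_inv_rev, ← hh_inv]
  simpa using (key L).mul (NW.hh χ⁻¹)

theorem NW.pow {g : GL ι F} {L : List l} (h : NW C g L) (k : ℕ) : NW C (g ^ k) (wpow L k) := by
  induction k with
  | zero => exact ⟨1, by simp [wpow, Chev.nw]⟩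
  | succ k ih => rw [pow_succ]; exact ih.mul h

theorem NW.mem_GG {g : GL ι F} {L : List l} (h : NW C g L) : g ∈ GG C := by
  obtain ⟨χ, rfl⟩ := h
  exact mul_mem (hh_mem_GG C χ) (nw_mem_GG C L)

theorem NW.bru {g : GL ι F} {L : List l} (h : NW C g L) : Bru C g L := by
  obtain ⟨χ, rfl⟩ := h
  exact ⟨1, one_mem _, χ, 1, one_mem _, by simp⟩

theorem Xs_comm {S : Set R} {φ : Ch l F} (h : ∀ r ∈ S, cv φ (C.rt r) = 1) {g : GL ι F}
    (hg : g ∈ C.Xs S) : g * C.hh φ = C.hh φ * g :=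
  Subgroup.mem_centralizer_singleton_iff.1 (C.Xs_le (K := Subgroup.centralizer {C.hh φ})
    (fun r hr t => Subgroup.mem_centralizer_singleton_iff.2 (by rw [hh_x, h r hr, one_mul])) hg)

theorem Xs_GG {S : Set R} {g : GL ι F} (hg : g ∈ C.Xs S) : g ∈ GG C :=
  Xs_le_GG C (C.Xs_mono (Set.subset_univ _) hg)

/-- basis vector of a root space -/
def ev (C : Chev ι R l F) (r : R) : ι → F := Pi.single (C.e r) 1

theorem hh_ev (χ : Ch l F) (r : R) :
    (C.hh χ : Matrix ι ι F) *ᵥ ev C r = cv χ (C.rt r) • ev C r := by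
  ext k
  rw [ev, hh_val, mulVec_diagonal, Pi.smul_apply, smul_eq_mul]
  by_cases h : k = C.e r
  · rw [h, C.wt_e]
  · simp [h]

theorem e_inj : Function.Injective C.e := fun r s h => C.rt_inj (by rw [← C.wt_e, h, C.wt_e])

theorem x_ev (r s : R) (t : F) (k : ι) : ((C.x r t : Matrix ι ι F) *ᵥ ev C s) k =
    ev C s k + ((C.ent r k (C.e s)).map fun km => (km.2 : F) * t ^ km.1).sum := by
  rw [ev, mulVec_single_one, col_apply, C.x_ent, one_apply, Pi.single_apply]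

theorem chm_chm (χ : Ch l F) (L L' : List l) :
    chm (chm χ (C.wl L)) (C.wl L') = chm χ (C.wl (L ++ L')) :=
  ch_ext fun j => by rw [cv_chm, cv_chm, cv_chm, wl_append]

theorem chm_rev (χ : Ch l F) (L : List l) : chm (chm χ (C.wl L.reverse)) (C.wl L) = χ :=
  ch_ext fun j => by rw [cv_chm, cv_chm, wl_rev]

variable [Finite R]

theorem cent_U {χ : Ch l F} {u : GL ι F} (hu : u ∈ C.U C.f 1)
    (h : C.hh χ * u * (C.hh χ)⁻¹ = u) : u ∈ C.Xs {r | 0 < C.f (C.rt r) ∧ cv χ (C.rt r) = 1} := by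
  refine C.level_ind C.f 1 (fun c => ∀ u ∈ C.U C.f c, C.hh χ * u * (C.hh χ)⁻¹ = u →
    u ∈ C.Xs {r | 0 < C.f (C.rt r) ∧ cv χ (C.rt r) = 1})
    (fun c e u hu _ => by rw [e, Subgroup.mem_bot] at hu; exact hu ▸ one_mem _)
    (fun c hc ih u hu h => ?_) u hu h
  by_cases hr : ∃ r, C.f (C.rt r) = c
  swap
  · refine ih u (C.Xs_mono (fun s hs => ?_) hu) h
    have : c ≤ C.f (C.rt s) := hs
    exact lt_of_le_of_ne this fun e => hr ⟨s, e.symm⟩
  obtain ⟨r, rfl⟩ := hr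
  obtain ⟨t, u', hu', rfl⟩ := C.split_one hc rfl (fun s hs => C.f_inj _ _ hs) hu
  have e : C.x r (cv χ (C.rt r) * t) * (C.hh χ * u' * (C.hh χ)⁻¹) = C.x r t * u' := by
    rw [← h, ← C.hh_conj]; group
  have e' : cv χ (C.rt r) * t = t := C.co_cancel r fun i => by
    rw [← C.entry_peel hc (C.hh_conj_mem χ hu') _ i, e, C.entry_peel hc hu']
  rw [e', mul_right_inj] at e
  refine mul_mem ?_ (ih _ hu' e)
  by_cases ht : t = 0
  · rw [ht, x_zero]; exact one_mem _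
  · exact C.x_mem (S := {r | 0 < C.f (C.rt r) ∧ cv χ (C.rt r) = 1})
      ⟨hc, mul_right_cancel₀ ht (e'.trans (one_mul t).symm)⟩ t

variable (hE : C.Extra)
include hE

theorem NW.mul_hh {g : GL ι F} {L : List l} (h : NW C g L) (χ : Ch l F) :
    g * C.hh (chm χ (C.wl L)) = C.hh χ * g := by
  obtain ⟨ψ, rfl⟩ := h
  rw [mul_assoc, (hE.acts_nw L).mul_hh, ← mul_assoc, ← mul_assoc, hh_comm]

theorem NW.conj_x {g : GL ι F} {L : List l} (h : NW C g L) (r : R) :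
    ∃ η : F, η ≠ 0 ∧ ∀ t, g * C.x r t * g⁻¹ = C.x (C.wr L r) (η * t) := by
  obtain ⟨ψ, rfl⟩ := h
  obtain ⟨η, h1, h2, -⟩ := (hE.acts_nw L).conj r
  refine ⟨cv ψ (C.rt (C.wr L r)) * η, mul_ne_zero (cv_ne _ _) (by rintro rfl; simp at h1),
    fun t => ?_⟩
  rw [mul_assoc _ η, ← C.hh_conj, ← h2]; group

theorem NW.conj_mem {g : GL ι F} {L : List l} (h : NW C g L) {S T : Set R}
    (hS : ∀ r ∈ S, C.wr L r ∈ T) {u : GL ι F} (hu : u ∈ C.Xs S) : g * u * g⁻¹ ∈ C.Xs T :=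
  C.conj_mem (fun r hr t => by
    obtain ⟨η, -, e⟩ := h.conj_x hE r
    rw [e]; exact C.x_mem (hS r hr) _) hu

theorem NW.ev {g : GL ι F} {L : List l} (h : NW C g L) (r : R) :
    ∃ κ : F, κ ≠ 0 ∧ (g : Matrix ι ι F) *ᵥ ev C r = κ • ev C (C.wr L r) := by
  obtain ⟨ψ, rfl⟩ := h
  have hA := hE.acts_nw L
  refine ⟨_, mul_ne_zero (hE.diag_ne hA r) (cv_ne ψ (C.rt (C.wr L r))), ?_⟩
  rw [Units.val_mul, ← mulVec_mulVec, mul_smul, ← hh_ev, ← mulVec_smul]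
  congr 1
  ext k
  rw [CfsgAE.ev, CfsgAE.ev, mulVec_single_one, col_apply, Pi.smul_apply, smul_eq_mul]
  by_cases e : k = C.e (C.wr L r)
  · simp [e]
  · rw [Pi.single_eq_of_ne e, mul_zero]
    by_contra h0
    have := hA.wt _ _ h0
    rw [C.wt_e, ← hA.rt] at this
    exact e (hE.mult _ _ this)

theorem NW.unique {g : GL ι F} {L L' : List l} (h : NW C g L) (h' : NW C g L') :
    C.wr L = C.wr L' := by
  obtain ⟨χ, rfl⟩ := h
  obtain ⟨ψ, e⟩ := h'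
  exact hE.unique (hE.acts_nw L) (hE.acts_nw L') (one_mem _) (one_mem _) (one_mem _) (one_mem _)
    (χ := χ) (χ' := ψ) (by simp [e])

theorem NW.mem_T {g : GL ι F} {L : List l} (h : NW C g L) (h1 : ∀ r, C.wr L r = r) :
    ∃ χ, g = C.hh χ := by
  obtain ⟨χ, rfl⟩ := h
  obtain ⟨ψ, e⟩ := hE.mem_H L fun i => by rw [h1]; exact C.f_p i
  exact ⟨χ * ψ, by rw [e, _root_.map_mul]⟩

theorem cent_form {χ : Ch l F} {g : GL ι F} (hg : g ∈ GG C) (h : g * C.hh χ = C.hh χ * g) :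
    ∃ u ∈ C.Xs {r | 0 < C.f (C.rt r) ∧ cv χ (C.rt r) = 1}, ∃ m L,
      ∃ v ∈ C.Xs {r | 0 < C.f (C.rt r) ∧ cv χ (C.rt r) = 1},
        NW C m L ∧ g = u * m * v ∧ chm χ (C.wl L) = χ := by
  obtain ⟨L, hL⟩ := bru_of hE hg
  have h1 := (fusion hE hL (mul_inv_eq_iff_eq_mul.2 h)).symm
  obtain ⟨u, hu, ψ, v, hv, rfl⟩ := hL
  have hm : NW C (C.hh ψ * C.nw L) L := ⟨ψ, rfl⟩
  rw [mul_assoc u] at h ⊢
  generalize C.hh ψ * C.nw L = m at h hm ⊢
  have h2 := hm.mul_hh hE χ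
  rw [h1] at h2
  obtain ⟨v₁, hv₁, v₂, hv₂, rfl⟩ := C.factor {r | 0 < C.f (C.rt (C.wr L r))} hv
  have h3 : u * (m * v₁ * m⁻¹) ∈ C.U C.f 1 :=
    mul_mem hu (hm.conj_mem hE (T := {r | 1 ≤ C.f (C.rt r)}) (fun r hr => hr.2) hv₁)
  have h4 : m * v₂ * m⁻¹ ∈ C.U (-C.f) 1 :=
    hm.conj_mem hE (T := {r | 1 ≤ (-C.f) (C.rt r)}) (fun r hr => by
      have h1 : ¬0 < C.f (C.rt (C.wr L r)) := hr.2
      have := C.f_ne (C.wr L r)
      change 1 ≤ -C.f _
      omega) hv₂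
  have h5 : C.hh χ * m * (C.hh χ)⁻¹ = m := by rw [← h2]; group
  obtain ⟨h6, -, h7⟩ := C.udl_unique (C.hh_conj_mem χ h3) h3 (C.hh_conj_mem χ h4) h4 (χ := 1)
    (χ' := 1) (by
      rw [_root_.map_one, mul_one, mul_one]
      calc _ = C.hh χ * (u * m * (v₁ * v₂)) * (C.hh χ)⁻¹ * (C.hh χ * m * (C.hh χ)⁻¹)⁻¹ := by group
        _ = _ := by rw [← h, h5]; group)
  refine ⟨_, cent_U h3 h6, m, L, v₂, cent_U (C.Xs_mono (fun r hr => hr.1) hv₂) ?_, hm, by group, h1⟩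
  rw [← conj_mul, ← conj_mul, ← conj_inv, h5] at h7
  simpa using h7

theorem cent_act {χ : Ch l F} {g : GL ι F} (hg : g ∈ GG C) (h : g * C.hh χ = C.hh χ * g) :
    ∃ L, chm χ (C.wl L) = χ ∧ ∀ φ, (∀ r, cv χ (C.rt r) = 1 → cv φ (C.rt r) = 1) →
      g * C.hh (chm φ (C.wl L)) = C.hh φ * g := by
  obtain ⟨u, hu, m, L, v, hv, hm, rfl, e⟩ := cent_form hE hg h
  refine ⟨L, e, fun φ hφ => ?_⟩
  rw [mul_assoc, Xs_comm (fun r hr => by
    rw [cv_chm, ← rt_wr]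
    exact hφ _ (by rw [rt_wr, ← cv_chm, e]; exact hr.2)) hv, ← mul_assoc, mul_assoc u,
    hm.mul_hh hE, ← mul_assoc, Xs_comm (fun r hr => hφ r hr.2) hu]
  group

omit hE in
variable (C) in
/-- Levi subgroup -/
def Lv (g : (l → ℤ) →+ ℤ) : Subgroup (GL ι F) :=
  Subgroup.closure {m | (∃ r t, g (C.rt r) = 0 ∧ m = C.x r t) ∨
    ∃ L, NW C m L ∧ ∀ v, g (C.wl L v) = g v}

theorem Lv_le {g : (l → ℤ) →+ ℤ} (c : Fˣ) : Lv C g ≤
    GG C ⊓ Subgroup.normalizer (C.U g 1) ⊓ Subgroup.centralizer {C.hh (pw c g)} := by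
  rw [Lv, Subgroup.closure_le]
  rintro _ (⟨r, t, h, rfl⟩ | ⟨L, h1, h2⟩)
  · refine ⟨⟨Xs_le_GG C (C.x_mem (Set.mem_univ _) _), Subgroup.mem_normalizer_iff.2 fun u =>
      ⟨C.x_conj_U one_pos h.ge t, fun hu => ?_⟩⟩, Subgroup.mem_centralizer_singleton_iff.2 (by
        rw [hh_x, cv_pw, h, zpow_zero, one_mul])⟩
    simpa [x_neg, mul_assoc] using C.x_conj_U one_pos h.ge (-t) hu
  · refine ⟨⟨h1.mem_GG, Subgroup.mem_normalizer_iff.2 fun u =>
      ⟨h1.conj_mem hE fun r hr => ?_, fun hu => ?_⟩⟩,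
      Subgroup.mem_centralizer_singleton_iff.2 ?_⟩
    · change 1 ≤ g _
      rw [rt_wr, h2]; exact hr
    · simpa [mul_assoc, Chev.U] using h1.inv.conj_mem hE (T := {r | 1 ≤ g (C.rt r)}) (fun r hr => by
        change 1 ≤ g _
        rw [rt_wr, ← h2, wl_rev']; exact hr) hu
    · rw [← h1.mul_hh hE]
      congr 2
      exact ch_ext fun j => by rw [cv_chm, cv_pw, cv_pw, h2]

omit hE in
theorem hh_mem_Lv (g : (l → ℤ) →+ ℤ) (χ : Ch l F) : C.hh χ ∈ Lv C g :=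
  Subgroup.subset_closure (.inr ⟨[], NW.hh χ, fun _ => rfl⟩)

/-- parabolic subgroup -/
def Pb (g : (l → ℤ) →+ ℤ) : Subgroup (GL ι F) where
  carrier := {x | ∃ q ∈ C.U g 1, ∃ m ∈ Lv C g, x = q * m}
  one_mem' := ⟨1, one_mem _, 1, one_mem _, by simp⟩
  mul_mem' := by
    rintro _ _ ⟨q, hq, m, hm, rfl⟩ ⟨q', hq', m', hm', rfl⟩
    exact ⟨_, mul_mem hq ((Subgroup.mem_normalizer_iff.1 (Lv_le hE 1 hm).1.2 q').1 hq'), _,
      mul_mem hm hm', by group⟩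
  inv_mem' := by
    rintro _ ⟨q, hq, m, hm, rfl⟩
    exact ⟨_, (Subgroup.mem_normalizer_iff.1 (Lv_le hE 1 (inv_mem hm)).1.2 _).1 (inv_mem hq), _,
      inv_mem hm, by group⟩

theorem Lv_le_Pb (g : (l → ℤ) →+ ℤ) : Lv C g ≤ Pb hE g := fun m hm =>
  ⟨1, one_mem _, m, hm, by simp⟩

theorem Xs_le_Pb (g : (l → ℤ) →+ ℤ) : C.Xs {r | 0 ≤ g (C.rt r)} ≤ Pb hE g :=
  C.Xs_le fun r hr t => by
    rcases (show 0 ≤ g (C.rt r) from hr).eq_or_lt with h | h
    · exact Lv_le_Pb hE g (Subgroup.subset_closure (.inl ⟨r, t, h.symm, rfl⟩))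
    · exact ⟨_, C.x_mem_U h t, 1, one_mem _, by simp⟩

omit hE in
theorem U_cent {g : (l → ℤ) →+ ℤ} {c : Fˣ}
    (hc : ∀ i j, (c : F) ^ g (C.wt i) = c ^ g (C.wt j) → g (C.wt i) = g (C.wt j)) {u : GL ι F}
    (hu : u ∈ C.U g 1) (h : u * C.hh (pw c g) = C.hh (pw c g) * u) : u = 1 := by
  ext i j
  by_cases h1 : g (C.wt i) < g (C.wt j) + 1
  · exact (C.U_le_UT g one_pos hu).1 i j h1
  have e := congrArg (fun g : GL ι F => (g : Matrix ι ι F) i j) h
  simp only [Units.val_mul, hh_val, mul_diagonal, diagonal_mul, cv_pw] at e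
  rw [Units.val_one, one_apply_ne (by rintro rfl; omega)]
  by_contra h0
  have := hc j i (mul_left_cancel₀ h0 (e.trans (mul_comm _ _)))
  omega

omit hE in
variable (C) in
/-- centralizer of a set of characters -/
def CS (S : Set (Ch l F)) : Subgroup (GL ι F) := GG C ⊓ Subgroup.centralizer (C.hh '' S)

omit hE in
theorem mem_CS {S : Set (Ch l F)} {g : GL ι F} :
    g ∈ CS C S ↔ g ∈ GG C ∧ ∀ χ ∈ S, C.hh χ * g = g * C.hh χ := by
  simp [CS, Subgroup.mem_centralizer_iff]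

theorem Pb_split (hF : ∀ S : Set (GL ι F), S.Finite → Finite (Subgroup.closure S)) {s : ℕ}
    [Fact s.Prime] (hs : (s : F) ≠ 0) {g : (l → ℤ) →+ ℤ} {c : Fˣ}
    (hc : ∀ i j, (c : F) ^ g (C.wt i) = c ^ g (C.wt j) → g (C.wt i) = g (C.wt j))
    {S : Set (Ch l F)} {x : GL ι F} (h1 : x ∈ Pb hE g) (h2 : x ∈ CS C S) (h3 : x ^ s = 1) :
    ∃ y ∈ CS C S, y * x * y⁻¹ ∈ CS C (insert (pw c g) S) := by
  obtain ⟨q, hq, m, hm, rfl⟩ := h1
  have h4 : ∀ χ ∈ S, C.hh χ * m = m * C.hh χ := fun χ hχ => by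
    have e := (mem_CS.1 h2).2 χ hχ
    have h5 := mul_mem hm (inv_mem (mul_mem (mul_mem (hh_mem_Lv g χ) hm) (inv_mem (hh_mem_Lv g χ))))
    have h6 : m * (C.hh χ * m * (C.hh χ)⁻¹)⁻¹ = q⁻¹ * (C.hh χ * q * (C.hh χ)⁻¹) := by
      rw [eq_inv_mul_iff_mul_eq, ← mul_assoc, ← mul_inv_eq_iff_eq_mul.2 e]; group
    have h7 := U_cent hc (h6 ▸ mul_mem (inv_mem hq) (C.hh_conj_mem χ hq))
      (Subgroup.mem_centralizer_singleton_iff.1 (Lv_le hE c h5).2)
    rw [mul_inv_eq_one] at h7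
    exact mul_inv_eq_iff_eq_mul.1 h7.symm
  have h5 : m ∈ CS C (insert (pw c g) S) := mem_CS.2 ⟨(Lv_le hE c hm).1.1, by
    rintro χ (rfl | hχ)
    exacts [(Subgroup.mem_centralizer_singleton_iff.1 (Lv_le hE c hm).2).symm, h4 χ hχ]⟩
  have h6 : m ∈ CS C S := mem_CS.2 ⟨(Lv_le hE c hm).1.1, h4⟩
  let Γ := Subgroup.closure {q, m}
  have := hF {q, m} (Set.toFinite _)
  have hq' : q ∈ Γ := Subgroup.subset_closure (by simp)
  have hm' : m ∈ Γ := Subgroup.subset_closure (by simp)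
  have h7 : Γ ≤ Subgroup.normalizer (C.U g 1) := (Subgroup.closure_le _).2 (by
    rintro _ (rfl | rfl)
    exacts [Subgroup.le_normalizer hq, (Lv_le hE c hm).1.2])
  have h8 : Γ ≤ CS C S := (Subgroup.closure_le _).2 (by
    rintro _ (rfl | rfl)
    exacts [by simpa using mul_mem h2 (inv_mem h6), h6])
  have : ((C.U g 1).subgroupOf Γ).Normal :=
    ⟨fun u hu a => (Subgroup.mem_normalizer_iff.1 (h7 a.2) _).1 hu⟩
  obtain ⟨y, hy⟩ := conj_into (s := s) ((C.U g 1).subgroupOf Γ)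
    ((CS C (insert (pw c g) S)).subgroupOf Γ) (fun e => by
      obtain ⟨u, hu⟩ := exists_prime_orderOf_dvd_card' s e
      have h9 : u = 1 := Subtype.ext (Subtype.ext (UT_eq_one (C.U_le_UT g one_pos u.2) hs
        (congrArg (·.1.1) (hu ▸ pow_orderOf_eq_one u))))
      rw [h9, orderOf_one] at hu
      exact (Fact.out : s.Prime).one_lt.ne hu) (by
      refine Subgroup.map_injective Γ.subtype_injective ?_
      rw [← MonoidHom.range_eq_map, Subgroup.range_subtype]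
      refine le_antisymm (Subgroup.map_subtype_le _) ((Subgroup.closure_le _).2 ?_)
      rintro _ (rfl | rfl)
      exacts [⟨⟨_, hq'⟩, Subgroup.mem_sup_left hq, rfl⟩, ⟨⟨_, hm'⟩, Subgroup.mem_sup_right h5, rfl⟩])
    (x := ⟨q * m, mul_mem hq' hm'⟩) (Subtype.ext h3)
  exact ⟨y, h8 y.2, hy⟩

variable {θ : R} (hS : SL C θ)
include hS

omit hE in
theorem SL.ent {r s : R} {k : ι} {km : ℕ × ℤ} (h : km ∈ C.ent r k (C.e s))
    (h1 : -1 ≤ bf C (C.rt r) (C.rt s)) :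
    bf C (C.rt r) (C.rt s) = -1 ∧ km.1 = 1 ∧ C.wt k = C.rt s + C.rt r := by
  obtain ⟨h2, h3⟩ := C.ent_wt r k _ km h
  have h4 : bf C (C.wt k) (C.wt k) ≤ 2 := by
    rcases hS.idx k with ⟨i, rfl⟩ | ⟨s, rfl⟩
    · simp [C.wt_hb]
    · rw [C.wt_e, hS.norm]
  rw [C.wt_e, ← natCast_zsmul] at h3
  rw [h3, bf_add, bf_smul, map_add, map_add, map_zsmul, map_zsmul, hS.norm, hS.norm,
    hS.comm (C.rt s), smul_eq_mul, smul_eq_mul] at h4
  have h2' : (1 : ℤ) ≤ km.1 := by exact_mod_cast h2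
  have h5 : (km.1 : ℤ) = 1 := by nlinarith
  rw [h5] at h3 h4
  exact ⟨by omega, by exact_mod_cast h5, by simpa using h3⟩

omit hE in
theorem SL.x_fix {r s : R} (h : 0 ≤ bf C (C.rt r) (C.rt s)) (t : F) :
    (C.x r t : Matrix ι ι F) *ᵥ ev C s = ev C s := by
  ext k
  rw [x_ev, add_eq_left]
  refine List.sum_eq_zero fun y hy => ?_
  obtain ⟨km, hkm, rfl⟩ := List.mem_map.1 hy
  have := (hS.ent hkm (by omega)).1
  omega

omit hE hS in
theorem Xs_fix {S : Set R} {v : ι → F} (h : ∀ r ∈ S, ∀ t, (C.x r t : Matrix ι ι F) *ᵥ v = v)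
    {g : GL ι F} (hg : g ∈ C.Xs S) : (g : Matrix ι ι F) *ᵥ v = v :=
  C.Xs_le (K := MulAction.stabilizer (GL ι F) v) h hg

theorem SL.refl' (r : R) : ∃ m ∈ C.Xs {r, C.neg r}, ∃ L, NW C m L ∧
    ∀ v, C.wl L v = v - bf C (C.rt r) v • C.rt r := by
  obtain ⟨L, i, rfl⟩ := exists_simple C r
  refine ⟨_, (NW.nw L).conj_mem hE (S := {C.p i, C.neg (C.p i)}) (by simp [wr_neg]) (u := C.n i)
    (mul_mem (mul_mem (C.x_mem (by simp) _) (C.x_mem (by simp) _)) (C.x_mem (by simp) _)), _,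
    ((NW.nw L).mul (L' := [i]) ⟨1, by simp [Chev.nw]⟩).mul (NW.nw L).inv, fun v => ?_⟩
  rw [wl_append, wl_append, rt_wr, ← wl_rev' C L v, hS.bf_wl, ← map_zsmul, ← map_sub, C.rt_p,
    bf_single, wl_rev']
  rfl

theorem SL.x_col {r s k : R} (h : bf C (C.rt r) (C.rt s) = -1) (hk : C.rt k = C.rt s + C.rt r) :
    ∃ N : F, N ≠ 0 ∧ ∀ t, (C.x r t : Matrix ι ι F) *ᵥ ev C s = ev C s + (N * t) • ev C k := by
  have key : ∀ t, (C.x r t : Matrix ι ι F) *ᵥ ev C s =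
      ev C s + (((C.ent r (C.e k) (C.e s)).map fun km => (km.2 : F)).sum * t) • ev C k := by
    intro t
    ext j
    rw [x_ev, Pi.add_apply, Pi.smul_apply, smul_eq_mul, add_right_inj]
    by_cases e : j = C.e k
    · rw [e, ev, Pi.single_eq_same, mul_one, ← List.sum_map_mul_right]
      congr 1
      exact List.map_congr_left fun km hkm => by rw [(hS.ent hkm h.ge).2.1, pow_one]
    · rw [ev, Pi.single_eq_of_ne e, mul_zero]
      refine List.sum_eq_zero fun y hy => ?_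
      obtain ⟨km, hkm, rfl⟩ := List.mem_map.1 hy
      exact absurd (hE.mult _ _ ((hS.ent hkm h.ge).2.2.trans hk.symm)) e
  refine ⟨_, fun h0 => ?_, key⟩
  obtain ⟨m, hm, L, h1, h2⟩ := hS.refl' hE r
  obtain ⟨κ, h3, h4⟩ := h1.ev hE s
  rw [Xs_fix (by
    rintro _ (rfl | rfl) t
    · rw [key, h0, zero_mul, zero_smul, add_zero]
    · exact hS.x_fix (by rw [C.rt_neg, bf_neg]; omega) t) hm] at h4
  have h5 := congrFun h4 (C.e s)
  rw [Pi.smul_apply, ev, ev, Pi.single_eq_same, Pi.single_eq_of_ne (fun e => rt_ne C r (by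
    have := congrArg C.rt (e_inj e)
    rw [rt_wr, h2, h] at this
    simpa using this)), smul_zero] at h5
  exact one_ne_zero h5

theorem SL.stab {χ : Ch l F} {x : GL ι F} (hx : x ∈ GG C) (h : x * C.hh χ = C.hh χ * x) {γ : R}
    {μ : F} (h1 : (x : Matrix ι ι F) *ᵥ ev C γ = μ • ev C γ) {g : (l → ℤ) →+ ℤ}
    (h2 : ∀ r, cv χ (C.rt r) = 1 → 0 ≤ bf C (C.rt γ) (C.rt r) → 0 ≤ g (C.rt r))
    (h3 : ∀ L, chm χ (C.wl L) = χ → C.wr L γ = γ → ∀ v, g (C.wl L v) = g v) : x ∈ Pb hE g := by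
  obtain ⟨L₀, e₀⟩ := hS.trans γ
  have hn := NW.nw (C := C) L₀
  generalize C.nw L₀ = n at hn
  have e1 := hn.mul_hh hE (chm χ (C.wl L₀.reverse))
  rw [chm_rev] at e1
  obtain ⟨u, hu, m, L, v, hv, hm, e2, e3⟩ := cent_form hE (χ := chm χ (C.wl L₀.reverse))
    (mul_mem (mul_mem hn.mem_GG hx) (inv_mem hn.mem_GG)) (by
      rw [← mul_inv_eq_iff_eq_mul.2 e1, conj_mul, conj_mul, h])
  have key : ∀ u ∈ C.Xs {r | 0 < C.f (C.rt r) ∧ cv (chm χ (C.wl L₀.reverse)) (C.rt r) = 1},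
      n⁻¹ * u * n⁻¹⁻¹ ∈ Pb hE g := fun u hu => Xs_le_Pb hE g (hn.inv.conj_mem hE (fun r hr =>
        h2 _ (by rw [rt_wr]; exact hr.2) (by
          rw [← hS.bf_wr L₀, wr_rev', e₀]; exact hS.θ_nonneg hr.1)) hu)
  have e4 : C.wr L θ = θ := by
    obtain ⟨κ, a1, a2⟩ := hn.ev hE γ
    obtain ⟨κ', a3, a4⟩ := hm.ev hE θ
    have a5 : ((u * m * v : GL ι F) : Matrix ι ι F) *ᵥ ev C θ = μ • ev C θ := by
      refine smul_right_injective _ a1 ?_
      beta_reduce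
      rw [← mulVec_smul, ← e2, ← e₀, ← a2, mulVec_mulVec, ← Units.val_mul, inv_mul_cancel_right,
        Units.val_mul, ← mulVec_mulVec, h1, mulVec_smul, a2, smul_comm]
    rw [Units.val_mul, Units.val_mul, ← mulVec_mulVec, ← mulVec_mulVec, Xs_fix (fun r hr t =>
      hS.x_fix (by rw [hS.comm]; exact hS.θ_nonneg hr.1) t) hv, a4, mulVec_smul] at a5
    have a6 := congrFun a5 (C.e (C.wr L θ))
    by_contra a7
    rw [Pi.smul_apply, Pi.smul_apply, ev, ev, mulVec_single_one, col_apply,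
      (C.U_le_UT C.f one_pos (C.Xs_mono (fun r hr => hr.1) hu)).1 _ _ (by omega), one_apply_eq,
      Pi.single_eq_of_ne fun e => a7 (e_inj e)] at a6
    exact a3 (by simpa using a6)
  have e5 : x = n⁻¹ * u * n⁻¹⁻¹ * (n⁻¹ * m * n) * (n⁻¹ * v * n⁻¹⁻¹) := by
    calc x = n⁻¹ * (n * x * n⁻¹) * n := by group
      _ = _ := by rw [e2]; group
  rw [e5]
  refine mul_mem (mul_mem (key u hu) (Lv_le_Pb hE g (Subgroup.subset_closure
    (.inr ⟨_, (hn.inv.mul hm).mul hn, h3 _ ?_ ?_⟩)))) (key v hv)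
  · rw [← chm_chm, ← chm_chm, e3, chm_rev]
  · rw [wr_append, wr_append, e₀, e4, ← e₀, wr_rev]

end CfsgAE
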