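/-
Elements of order `s` are conjugate into the torus.
-/
import Cfsg.Agent.AE.Grp

set_option autoImplicit false
set_option linter.unusedSectionVars false

namespace CfsgAE

open CfsgH8 CfsgH8.Chev Matrix CfsgH7

theorem exists_prim (F : Type*) [Field F] [IsAlgClosed F] {n : ℕ} (hn : (n : F) ≠ 0) :
    ∃ c : Fˣ, orderOf c = n := by
  have : NeZero (n : F) := ⟨hn⟩
  have : NeZero n := ⟨fun h => hn (by simp [h])⟩
  obtain ⟨z, hz⟩ := IsAlgClosed.exists_root (Polynomial.cyclotomic n F)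
    (Polynomial.degree_cyclotomic_pos n F (NeZero.pos n)).ne'
  have h := Polynomial.isRoot_cyclotomic_iff.1 hz
  exact ⟨(h.isUnit (NeZero.ne n)).unit, (h.isUnit_unit (NeZero.ne n)).eq_orderOf.symm⟩

theorem exists_gen (F : Type*) [Field F] [IsAlgClosed F] {s : ℕ} (h1 : 1 < s) (hs : (s : F) ≠ 0)
    (M : ℕ) : ∃ c : Fˣ, ∀ m : ℤ, |m| ≤ M → (c : F) ^ m = 1 → m = 0 := by
  obtain ⟨c, hc⟩ := exists_prim F (n := s ^ M) (by simpa using fun h => absurd h hs)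
  refine ⟨c, fun m hm h => Int.eq_zero_of_abs_lt_dvd ((orderOf_dvd_iff_zpow_eq_one (x := c)).2
    (Units.ext (by simpa using h))) (hm.trans_lt ?_)⟩
  rw [hc]
  exact_mod_cast Nat.lt_pow_self h1

variable {ι R l F : Type*} [Fintype ι] [DecidableEq ι] [Fintype l] [DecidableEq l] [Field F]
  (C : Chev ι R l F)

/-- frames -/
def Fr (s : ℕ) (γ : ℕ → R) : Prop :=
  γ s = γ 0 ∧ ∀ i < s, ∀ j < s, i ≠ j → bf C (C.rt (γ i)) (C.rt (γ j)) = 1

/-- existence of rotated frames -/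
def FR (s : ℕ) : Prop :=
  ∀ L, (∀ r, (C.wr L)^[s] r = r) → (∃ r, C.wr L r ≠ r) → ∃ j, j.Coprime s ∧ ∃ γ, Fr C s γ ∧
    (∀ k < s, C.wl (wpow L j) (C.rt (γ k) - C.rt (γ 0)) = C.rt (γ (k + 1)) - C.rt (γ 1)) ∧
    (s = 3 ∨ ∀ χ : Ch l F, chm χ (C.wl (wpow L j)) = χ → cv χ (C.rt (γ 1) - C.rt (γ 0)) = 1)

/-- local finiteness -/
def LF (ι F : Type*) [Fintype ι] [DecidableEq ι] [Field F] : Prop :=
  ∀ S : Set (GL ι F), S.Finite → Finite (Subgroup.closure S)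

variable {C} [Finite R] (hE : C.Extra) (hF : LF ι F) [IsAlgClosed F] {s : ℕ} [Fact s.Prime]
  (hs : (s : F) ≠ 0)

section
include hE hF hs

theorem conj_NW {S : Set (Ch l F)} (P : Subgroup (GL ι F)) [Finite P] (hP : IsPGroup s P)
    (h : P ≤ CS C S) : ∃ g ∈ CS C S, ∀ x ∈ P, ∃ L, NW C (g * x * g⁻¹) L := by
  obtain ⟨M, hM⟩ := (Set.finite_range fun r => (ht (C.rt r)).natAbs).bddAbove
  obtain ⟨c, hc⟩ := exists_prim F (n := s ^ (Nat.card (Equiv.Perm R) * (M + 1)))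
    (by simpa using fun h => absurd h hs)
  let Γ := Subgroup.closure (insert (C.hh (pw c ht)) (P : Set (GL ι F)))
  have := hF _ ((Set.toFinite (P : Set (GL ι F))).insert (C.hh (pw c ht)))
  have h1 : Γ ≤ CS C S := (Subgroup.closure_le _).2 (by
    rintro _ (rfl | hx)
    exacts [mem_CS.2 ⟨hh_mem_GG _ _, fun χ _ => hh_comm _ _ _⟩, h hx])
  have hW : WExp C Γ (Nat.card (Equiv.Perm R)) := ⟨h1.trans inf_le_left, fun _ _ L _ i => by
    have := DFunLike.congr_fun (pow_card_eq_one' (x := wp C L)) (C.p i)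
    rwa [Equiv.Perm.coe_pow] at this⟩
  obtain ⟨g, hg⟩ := hW.conj_N hE (Subgroup.subset_closure (Set.mem_insert _ _))
    (pw_pow (hc ▸ pow_orderOf_eq_one c) _) (SR_ht (Fact.out : s.Prime).one_lt Nat.card_pos
      (fun r => by
        have : (ht (C.rt r)).natAbs ≤ M := hM ⟨r, rfl⟩
        rw [Int.abs_eq_natAbs]
        exact_mod_cast Nat.lt_succ_of_le this) hc) (P.subgroupOf Γ) hP.comap_subtype
  refine ⟨g, h1 g.2, fun x hx => ?_⟩
  obtain ⟨χ, L, e⟩ := hg ⟨x, Subgroup.subset_closure (Set.mem_insert_of_mem _ hx)⟩ hx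
  exact ⟨L, χ, e⟩

end

variable {θ : R} (hS : SL C θ)

/-- roots of the subsystem of a frame -/
def FA (C : Chev ι R l F) (s : ℕ) (γ : ℕ → R) : Set R :=
  {r | ∃ i < s, ∃ j < s, C.rt r = C.rt (γ i) - C.rt (γ j)}

/-- the functional of a frame -/
def lam (C : Chev ι R l F) (s : ℕ) (γ : ℕ → R) : l → ℤ :=
  (s : ℤ) • C.rt (γ 0) - ∑ k ∈ Finset.range s, C.rt (γ k)

section fr
variable {γ : ℕ → R} (hγ : Fr C s γ)
include hS hγ

theorem Fr.bf_eq {i j : ℕ} (hi : i < s) (hj : j < s) :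
    bf C (C.rt (γ i)) (C.rt (γ j)) = if i = j then 2 else 1 := by
  split_ifs with h
  · rw [h, hS.norm]
  · exact hγ.2 i hi j hj h

theorem Fr.exists_del {k : ℕ} (h0 : 0 < k) (hk : k < s) :
    ∃ d, C.rt d = C.rt (γ k) - C.rt (γ 0) := by
  obtain ⟨d, e⟩ := hS.exists_sub (γ 0) (γ k)
  exact ⟨d, by rw [e, hγ.2 0 (by omega) k hk (by omega), one_smul]⟩

theorem Fr.rot (hE : C.Extra) (k : ℕ) (hk : k < s) : ∃ m ∈ C.Xs (FA C s γ), ∃ L, NW C m L ∧
    (∀ i < k, C.wr L (γ i) = γ (i + 1)) ∧ C.wr L (γ k) = γ 0 ∧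
      ∀ i < s, k < i → C.wr L (γ i) = γ i := by
  induction k with
  | zero => exact ⟨1, one_mem _, [], ⟨1, by simp [nw]⟩, by simp, rfl, fun _ _ _ => rfl⟩
  | succ k ih =>
    obtain ⟨m, hm, L, h1, h2, h3, h4⟩ := ih (by omega)
    obtain ⟨d, e⟩ := hγ.exists_del hS k.succ_pos hk
    obtain ⟨m', hm', L', h5, h6⟩ := hS.refl' hE d
    have h7 : ∀ i < s, C.rt (C.wr L' (γ i)) = C.rt (γ i) - ((if k + 1 = i then 2 else 1) -
        (if 0 = i then 2 else 1) : ℤ) • (C.rt (γ (k + 1)) - C.rt (γ 0)) := fun i hi => by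
      rw [rt_wr, h6, e, bf_sub, hγ.bf_eq hS hk hi, hγ.bf_eq hS (by omega) hi]
    have h8 : ∀ i < s, i ≠ 0 → i ≠ k + 1 → C.wr L' (γ i) = γ i := fun i hi a b =>
      C.rt_inj (by rw [h7 i hi, if_neg b.symm, if_neg a.symm]; simp)
    refine ⟨_, mul_mem (C.Xs_mono ?_ hm') hm, _, h5.mul h1, fun i hi => ?_, ?_, fun i hi a => ?_⟩
    · rintro _ (rfl | rfl)
      · exact ⟨_, hk, 0, by omega, e⟩
      · exact ⟨0, by omega, _, hk, by rw [C.rt_neg, e, neg_sub]⟩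
    · rw [wr_append]
      rcases (Nat.lt_succ_iff.1 hi).eq_or_lt with rfl | hi
      · rw [h3]
        exact C.rt_inj (by rw [h7 0 (by omega)]; simp)
      · rw [h2 i hi, h8 _ (by omega) (by omega) (by omega)]
    · rw [wr_append, h4 _ hk (by omega)]
      exact C.rt_inj (by rw [h7 _ hk]; simp)
    · rw [wr_append, h4 _ hi (by omega), h8 _ hi (by omega) (by omega)]

theorem Fr.move (hE : C.Extra) (v : ℕ → F) (k : ℕ) (hk : k < s) :
    ∃ g ∈ C.Xs {r | ∃ i < s, 0 < i ∧ C.rt r = C.rt (γ i) - C.rt (γ 0)},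
      (g : Matrix ι ι F) *ᵥ ev C (γ 0) =
        ev C (γ 0) + ∑ i ∈ Finset.range k, v (i + 1) • ev C (γ (i + 1)) := by
  induction k with
  | zero => exact ⟨1, one_mem _, by simp⟩
  | succ k ih =>
    obtain ⟨g, hg, h1⟩ := ih (by omega)
    obtain ⟨d, e⟩ := hγ.exists_del hS k.succ_pos hk
    obtain ⟨N, h2, h3⟩ := hS.x_col hE (r := d) (s := γ 0) (k := γ (k + 1)) (by
      rw [e, bf_sub, hγ.2 _ hk 0 (by omega) (by omega), hS.norm]; rfl) (by rw [e]; simp)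
    refine ⟨_, mul_mem (C.x_mem (r := d) (by exact ⟨_, hk, by omega, e⟩) (N⁻¹ * v (k + 1))) hg, ?_⟩
    rw [Units.val_mul, ← mulVec_mulVec, h1, mulVec_add, h3, mul_inv_cancel_left₀ h2,
      Finset.sum_range_succ, mulVec_sum, Finset.sum_congr rfl fun i hi => by
        have := Finset.mem_range.1 hi
        rw [mulVec_smul, hS.x_fix (by
          rw [e, bf_sub, hγ.2 _ hk _ (by omega) (by omega), hγ.2 0 (by omega) _ (by omega)
            (by omega)]; rfl)]]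
    abel

theorem Fr.sum_bf {i : ℕ} (hi : i < s) :
    bf C (∑ k ∈ Finset.range s, C.rt (γ k)) (C.rt (γ i)) = s + 1 := by
  rw [hS.comm, map_sum, Finset.sum_congr rfl fun k hk => (hγ.bf_eq hS hi (Finset.mem_range.1 hk)
    ).trans (show _ = 1 + if i = k then 1 else 0 by split_ifs <;> rfl), Finset.sum_add_distrib]
  simp [hi]

omit hγ in
theorem sum_bound (γ : ℕ → R) (k : ι) :
    |bf C (∑ k ∈ Finset.range s, C.rt (γ k)) (C.wt k)| ≤ 2 * s := by
  rw [hS.comm, map_sum]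
  refine (Finset.abs_sum_le_sum_abs _ _).trans ((Finset.sum_le_card_nsmul _ _ 2 fun i _ => by
    rw [hS.comm]; exact hS.wt_bound _ _).trans (by simp [mul_comm]))

omit hγ in
theorem lam_bound (γ : ℕ → R) (k : ι) : |bf C (lam C s γ) (C.wt k)| ≤ 4 * s := by
  have h1 := abs_le.1 (sum_bound hS γ k (s := s))
  have h2 := abs_le.1 (hS.wt_bound (γ 0) k)
  rw [lam, bf_sub, bf_smul, abs_le]
  constructor <;> nlinarith

include hE hF hs

theorem Fr.step {c : Fˣ} (hc : ∀ m : ℤ, |m| ≤ (12 * s : ℕ) → (c : F) ^ m = 1 → m = 0)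
    {S : Set (Ch l F)} {x : GL ι F} {L : List l} (h1 : NW C x L) (h2 : x ∈ CS C S) (h3 : x ^ s = 1)
    (h4 : ∀ k < s, C.wl L (C.rt (γ k) - C.rt (γ 0)) = C.rt (γ (k + 1)) - C.rt (γ 1))
    (h5 : ∀ χ ∈ S, ∀ r ∈ FA C s γ, cv χ (C.rt r) = 1) :
    ∃ y ∈ CS C S, y * x * y⁻¹ ∈ CS C (insert (pw c (bf C (lam C s γ))) S) := by
  have hs0 : 0 < s := (Fact.out : s.Prime).pos
  have hc' : ∀ a b : ℤ, |a| ≤ 4 * s → |b| ≤ 4 * s → (c : F) ^ a = c ^ b → a = b :=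
    fun a b ha hb e => sub_eq_zero.1 (hc _ (by
      rw [abs_le] at ha hb ⊢; push_cast; constructor <;> omega)
      (by rw [zpow_sub₀ c.ne_zero, e, div_self (zpow_ne_zero _ c.ne_zero)]))
  obtain ⟨m, hm, Lc, a1, a2, a3, -⟩ := hγ.rot hS hE (s - 1) (by omega)
  have a4 : ∀ i < s, C.wr Lc (γ i) = γ (i + 1) := fun i hi => by
    rcases (show i ≤ s - 1 by omega).eq_or_lt with rfl | h
    · rw [a3, Nat.sub_add_cancel hs0, hγ.1]
    · exact a2 i h
  have a5 : ∀ k < s, C.wl (L ++ Lc.reverse) (C.rt (γ k) - C.rt (γ 0)) =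
      C.rt (γ k) - C.rt (γ 0) := by
    have : ∀ k < s, C.wl (L ++ Lc.reverse) (C.rt (γ (k + 1)) - C.rt (γ 1)) =
        C.rt (γ (k + 1)) - C.rt (γ 1) := fun k hk => by
      conv_lhs => rw [wl_append, ← a4 k hk, ← a4 0 hs0, rt_wr, rt_wr, ← map_sub, wl_rev]
      exact h4 k hk
    have h0 := this (s - 1) (by omega)
    rw [Nat.sub_add_cancel hs0, hγ.1] at h0
    rintro (_ | k) hk
    · simp
    · rw [← sub_sub_sub_cancel_right _ _ (C.rt (γ 1)), map_sub, h0, this k (by omega)]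
  obtain ⟨χ₀, a6⟩ : ∃ χ₀ : Ch l F, ∀ i < s, 0 < i → ∀ r, C.rt r = C.rt (γ i) - C.rt (γ 0) → ∀ t,
      x * m⁻¹ * C.x r t * (x * m⁻¹)⁻¹ = C.x r (cv χ₀ (C.rt r) * t) := by
    choose η b1 b2 using (h1.mul a1.inv).conj_x hE
    have : ∀ i, ∃ e : Fˣ, ∀ r, C.rt r = C.rt (γ i) - C.rt (γ 0) → η r = e := fun i => by
      by_cases h : ∃ r, C.rt r = C.rt (γ i) - C.rt (γ 0)
      · obtain ⟨r, h⟩ := h
        exact ⟨Units.mk0 _ (b1 r), fun r' h' => by rw [C.rt_inj (h'.trans h.symm)]; rfl⟩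
      · exact ⟨1, fun r h' => absurd ⟨r, h'⟩ h⟩
    choose e b3 using this
    refine ⟨∏ j ∈ Finset.Ico 1 s, pw (e j) (bf C (C.rt (γ j))), fun i hi h0 r hr t => ?_⟩
    rw [b2, C.rt_inj (r := C.wr _ r) (s := r) (by rw [rt_wr, hr, a5 i hi]), b3 i r hr]
    congr 2
    rw [cv, MonoidHom.finsetProd_apply, Finset.prod_eq_single i]
    · change _ = cv _ _
      rw [cv_pw, hr, map_sub, hS.norm, hγ.2 i hi 0 hs0 h0.ne']; simp
    · intro j hj hji
      have := Finset.mem_Ico.1 hj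
      refine Units.ext ?_
      change cv _ _ = 1
      rw [cv_pw, hr, map_sub, hγ.2 j this.2 i hi hji, hγ.2 j this.2 0 hs0 (by omega)]; simp
    · exact fun h => absurd (Finset.mem_Ico.2 ⟨h0, hi⟩) h
  have a7 : NW C (C.hh χ₀ * m) Lc := (NW.hh χ₀).mul a1
  choose κ b1 b2 using fun k => a7.ev hE (γ k)
  obtain ⟨μ, b3⟩ := IsAlgClosed.exists_pow_nat_eq (∏ i ∈ Finset.range s, κ i) hs0
  have b4 : μ ≠ 0 := by
    rintro rfl
    rw [zero_pow hs0.ne'] at b3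
    exact Finset.prod_ne_zero_iff.2 (fun i _ => b1 i) b3.symm
  let v : ℕ → F := fun k => (∏ i ∈ Finset.range k, κ i) / μ ^ k
  obtain ⟨g, hg, b5⟩ := hγ.move hS hE v (s - 1) (by omega)
  have b6 : (g : Matrix ι ι F) *ᵥ ev C (γ 0) = ∑ i ∈ Finset.range s, v i • ev C (γ i) := by
    rw [b5, ← Nat.sub_add_cancel hs0, Finset.sum_range_succ', add_comm]
    simp [v]
  have b7 : ((C.hh χ₀ * m : GL ι F) : Matrix ι ι F) *ᵥ ∑ i ∈ Finset.range s, v i • ev C (γ i) =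
      μ • ∑ i ∈ Finset.range s, v i • ev C (γ i) := by
    have := (Finset.sum_range_succ (fun i => v i • ev C (γ i)) s).symm.trans
      (Finset.sum_range_succ' (fun i => v i • ev C (γ i)) s)
    rw [hγ.1, show v s = v 0 by simp [v, ← b3, b4], add_left_inj] at this
    rw [mulVec_sum]
    conv_rhs => rw [this, Finset.smul_sum]
    refine Finset.sum_congr rfl fun i hi => ?_
    rw [mulVec_smul, b2, a4 i (Finset.mem_range.1 hi), smul_smul, smul_smul]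
    congr 1
    simp only [v, Finset.prod_range_succ, pow_succ]
    field_simp
  have hg' : g ∈ C.Xs (FA C s γ) := C.Xs_mono (by
    rintro r ⟨i, hi, -, e⟩; exact ⟨i, hi, 0, hs0, e⟩) hg
  have b8 : ∀ r ∈ FA C s γ, cv (pw c (bf C (∑ k ∈ Finset.range s, C.rt (γ k)))) (C.rt r) = 1 := by
    rintro r ⟨i, hi, j, hj, e⟩
    rw [cv_pw, e, map_sub, hγ.sum_bf hS hi, hγ.sum_bf hS hj, sub_self, zpow_zero]
  have b9 : ∀ r, |bf C (∑ k ∈ Finset.range s, C.rt (γ k)) (C.rt r)| ≤ 4 * s := fun r => by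
    have := sum_bound hS γ (C.e r) (s := s)
    rw [C.wt_e] at this
    omega
  have c1 : g⁻¹ * (C.hh χ₀ * m) * g ∈ Pb hE (bf C (lam C s γ)) := by
    refine hS.stab hE (χ := pw c (bf C (∑ k ∈ Finset.range s, C.rt (γ k))))
      (mul_mem (mul_mem (inv_mem (Xs_GG hg')) a7.mem_GG) (Xs_GG hg')) ?_ (γ := γ 0) (μ := μ) ?_
      (fun r d1 d2 => ?_) fun L d1 d2 => ?_
    · rw [mul_assoc, Xs_comm b8 hg', ← mul_assoc, mul_assoc g⁻¹, mul_assoc (C.hh χ₀),
        Xs_comm b8 hm, ← mul_assoc (C.hh χ₀), hh_comm, mul_assoc (C.hh _), ← mul_assoc g⁻¹,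
        Xs_comm b8 (inv_mem hg')]
      group
    · rw [Units.val_mul, Units.val_mul, ← mulVec_mulVec, ← mulVec_mulVec, b6, b7, ← b6, mulVec_smul,
        mulVec_mulVec, ← Units.val_mul, inv_mul_cancel, Units.val_one, one_mulVec]
    · rw [cv_pw] at d1
      rw [lam, bf_sub, bf_smul, hc' _ 0 (b9 r) (by simp) (by simpa using d1), sub_zero]
      positivity
    · have d3 : (bf C (∑ k ∈ Finset.range s, C.rt (γ k))).comp (C.wl L) =
          bf C (∑ k ∈ Finset.range s, C.rt (γ k)) := hom_ext fun j => by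
        have := congrArg (cv · (C.rt (C.p j))) d1
        simp only [cv_chm, cv_pw, ← rt_wr] at this
        rw [← C.rt_p, AddMonoidHom.comp_apply, ← rt_wr]
        exact hc' _ _ (b9 _) (b9 _) this
      intro u
      rw [lam, bf_sub, bf_sub, bf_smul, bf_smul, ← hS.bf_wl L (C.rt (γ 0)) u, ← rt_wr, d2,
        ← DFunLike.congr_fun d3 u]
      rfl
  have c2 : NW C (x * m⁻¹ * (C.hh χ₀)⁻¹) (L ++ Lc.reverse) := by
    simpa using (h1.mul a1.inv).mul (NW.hh χ₀).inv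
  have c3 : x * m⁻¹ * (C.hh χ₀)⁻¹ ∈ Lv C (bf C (lam C s γ)) :=
    Subgroup.subset_closure (.inr ⟨_, c2, fun u => by
      rw [← hS.bf_wl (L ++ Lc.reverse) _ u]
      congr 2
      have : lam C s γ = -∑ k ∈ Finset.range s, (C.rt (γ k) - C.rt (γ 0)) := by simp [lam]
      rw [this, map_neg, map_sum, Finset.sum_congr rfl fun k hk => a5 k (Finset.mem_range.1 hk)]⟩)
  have c4 : g * (x * m⁻¹ * (C.hh χ₀)⁻¹) = x * m⁻¹ * (C.hh χ₀)⁻¹ * g :=
    Subgroup.mem_centralizer_singleton_iff.1 (C.Xs_le (K := Subgroup.centralizer {_}) (by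
      rintro r ⟨i, hi, h0, e⟩ t
      have d1 := a6 i hi h0 r e ((cv χ₀ (C.rt r))⁻¹ * t)
      rw [mul_inv_cancel_left₀ (cv_ne χ₀ (C.rt r)), ← inv_mul_eq_iff_eq_mul.2 (C.x_hh χ₀ r t)] at d1
      rw [Subgroup.mem_centralizer_singleton_iff]
      conv_lhs => rw [← d1]
      group) hg)
  have c5 : g ∈ CS C S := mem_CS.2 ⟨Xs_GG hg', fun χ hχ => (Xs_comm (h5 χ hχ) hg').symm⟩
  obtain ⟨y, hy, c6⟩ := Pb_split hE hF hs (c := c) (fun i j => hc' _ _ (lam_bound hS γ i)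
    (lam_bound hS γ j)) (x := g⁻¹ * x * g) (by
      convert mul_mem (Lv_le_Pb hE _ c3) c1 using 1
      rw [← mul_assoc, ← mul_assoc, ← inv_mul_eq_iff_eq_mul.2 c4.symm]
      group) (mul_mem (mul_mem (inv_mem c5) h2) c5) (by
      rw [← inv_inv g, inv_inv g⁻¹, conj_pow, h3]; group)
  exact ⟨y * g⁻¹, mul_mem hy (inv_mem c5), by convert c6 using 1; group⟩

end fr

include hE hF hs hS

theorem toral (hs2 : s ≠ 2) (hFR : FR C s) {S : Set (Ch l F)}
    (h3 : s = 3 → ∀ r, (∀ χ ∈ S, cv χ (C.rt r) ^ 3 = 1) → ∀ χ ∈ S, cv χ (C.rt r) = 1)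
    {x : GL ι F} (hx : x ∈ CS C S) (h1 : x ^ s = 1) :
    ∃ g ∈ CS C S, ∃ χ, g * x * g⁻¹ = C.hh χ := by
  have hs1 := (Fact.out : s.Prime).one_lt
  obtain ⟨c, hc⟩ := exists_gen F hs1 hs (12 * s)
  have hΛ : {u | ∃ γ, u = lam C s γ}.Finite := (Set.finite_range fun γ : Fin (s + 1) → R =>
    lam C s fun k => γ (Fin.ofNat _ k)).subset (by
      rintro _ ⟨γ, rfl⟩
      refine ⟨fun k => γ k, ?_⟩
      simp only [lam]
      congr 1
      exact Finset.sum_congr rfl fun k hk => by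
        rw [Fin.val_ofNat, Nat.mod_eq_of_lt (by have := Finset.mem_range.1 hk; omega)])
  induction hd : {u | (∃ γ, u = lam C s γ) ∧ pw c (bf C u) ∉ S}.ncard using Nat.strong_induction_on
    generalizing S x with
  | _ d ih =>
  have := Set.finite_coe_iff.2 (finite_zpowers.2 (isOfFinOrder_iff_pow_eq_one.2 ⟨s, by omega, h1⟩))
  obtain ⟨g, hg, h2⟩ := conj_NW hE hF hs (Subgroup.zpowers x) (Sec.isPGroup_zpowers h1)
    (Subgroup.zpowers_le.2 hx)
  obtain ⟨L, hL⟩ := h2 x (Subgroup.mem_zpowers x)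
  by_cases h4 : ∀ r, C.wr L r = r
  · exact ⟨g, hg, hL.mem_T hE h4⟩
  have h5 : (g * x * g⁻¹) ^ s = 1 := by rw [conj_pow, h1]; group
  obtain ⟨j, hj, γ, hγ, h6, h7⟩ := hFR L (fun r => by
    rw [← wr_wpow, (hL.pow s).unique hE (L' := []) (by rw [h5]; exact NW.nw [])]; rfl) (by simpa using h4)
  have h8 := pow_mem (mul_mem (mul_mem hg hx) (inv_mem hg)) j
  have h9 : ∀ χ ∈ S, chm χ (C.wl (wpow L j)) = χ := fun χ hχ => hh_inj C (mul_left_cancel
    (((hL.pow j).mul_hh hE χ).trans ((mem_CS.1 h8).2 χ hχ)))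
  have b1 : ∀ χ ∈ S, ∀ k ≤ s, cv χ (C.rt (γ k) - C.rt (γ 0)) =
      cv χ (C.rt (γ 1) - C.rt (γ 0)) ^ k := fun χ hχ k hk => by
    induction k with
    | zero => simp [cv_zero]
    | succ k ih =>
      rw [← sub_add_sub_cancel _ (C.rt (γ 1)), cv_add, ← h6 k hk, ← cv_chm, h9 χ hχ,
        ih (by omega), pow_succ]
  have b2 : ∀ χ ∈ S, cv χ (C.rt (γ 1) - C.rt (γ 0)) = 1 := by
    rcases h7 with rfl | h7
    · obtain ⟨d, e⟩ := hγ.exists_del hS one_pos hs1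
      rw [← e]
      exact h3 rfl d fun χ hχ => by rw [e, ← b1 χ hχ 3 le_rfl, hγ.1, sub_self, cv_zero]
    · exact fun χ hχ => h7 χ (h9 χ hχ)
  obtain ⟨y, hy, b3⟩ := hγ.step hE hF hs hS hc (hL.pow j) h8
    (by rw [← pow_mul, mul_comm, pow_mul, h5, one_pow]) h6 (by
      rintro χ hχ r ⟨a, ha, b, hb, e⟩
      rw [e, ← sub_sub_sub_cancel_right _ _ (C.rt (γ 0)), sub_eq_add_neg, cv_add, cv_neg,
        b1 χ hχ a ha.le, b1 χ hχ b hb.le, b2 χ hχ]
      simp)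
  obtain ⟨i, hi⟩ := exists_pow_eq_self_of_coprime (x := g * x * g⁻¹)
    (hj.coprime_dvd_right (orderOf_dvd_of_pow_eq_one h5))
  have b4 : y * (g * x * g⁻¹) * y⁻¹ ∈ CS C (insert (pw c (bf C (lam C s γ))) S) := by
    rw [← hi, ← conj_pow]; exact pow_mem b3 i
  have b5 : pw c (bf C (lam C s γ)) ∉ S := fun h => by
    have := b2 _ h
    rw [cv_pw, lam, bf_sub, bf_smul, map_sub, map_sub, hγ.sum_bf hS hs1, hγ.sum_bf hS (by omega),
      hS.norm, hγ.2 0 (by omega) 1 hs1 (by omega)] at this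
    have := hc _ (by rw [abs_le]; push_cast; constructor <;> omega) this
    omega
  obtain ⟨z, hz, χ, e⟩ := ih _ (hd ▸ Set.ncard_lt_ncard ⟨fun u hu => ⟨hu.1, fun h =>
    hu.2 (Set.mem_insert_of_mem _ h)⟩, fun h => (h ⟨⟨γ, rfl⟩, b5⟩).2 (Set.mem_insert _ _)⟩
    (hΛ.subset fun u hu => hu.1)) (fun e r h => by
      rintro χ (rfl | hχ)
      · have h' := h _ (Set.mem_insert _ _)
        have := lam_bound hS γ (C.e r) (s := s)
        rw [cv_pw, ← zpow_natCast, ← _root_.zpow_mul] at h'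
        have := hc _ (by rw [C.wt_e, abs_le] at this; rw [abs_le]; push_cast; omega) h'
        rw [cv_pw, show bf C (lam C s γ) (C.rt r) = 0 by omega, zpow_zero]
      · exact h3 e r (fun χ hχ => h χ (Set.mem_insert_of_mem _ hχ)) χ hχ) b4
    (by rw [conj_pow, h5]; group) rfl
  exact ⟨z * y * g, mul_mem (mul_mem (mem_CS.2 ⟨hz.1, fun χ hχ => (mem_CS.1 hz).2 χ
    (Set.mem_insert_of_mem _ hχ)⟩) hy) hg, χ, by rw [← e]; group⟩

end CfsgAE
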