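/-
Existence of frames.
-/
import Cfsg.Agent.AE.Toral

set_option autoImplicit false
set_option linter.unusedSectionVars false

namespace CfsgAE

open CfsgH8 CfsgH8.Chev Matrix CfsgH7

variable {ι R l F : Type*} [Fintype ι] [DecidableEq ι] [Fintype l] [DecidableEq l] [Field F]
  (C : Chev ι R l F)

/-- matrix of a word -/
def wm (L : List l) : Matrix l l ℤ := LinearMap.toMatrix' (C.wl L).toIntLinearMap

theorem wm_nil : wm C [] = 1 := LinearMap.toMatrix'_id

theorem wm_append (L L' : List l) : wm C (L ++ L') = wm C L * wm C L' := by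
  rw [wm, wm, wm, ← LinearMap.toMatrix'_comp]
  exact congrArg _ (LinearMap.ext (wl_append C L L'))

theorem wm_pow (L : List l) (k : ℕ) : wm C (wpow L k) = wm C L ^ k := by
  induction k with
  | zero => exact wm_nil C
  | succ k ih => rw [wpow, wm_append, ih, pow_succ]

theorem wm_congr {L L' : List l} (h : C.wr L = C.wr L') : wm C L = wm C L' := by
  rw [wm, wm, wl_congr C (congrFun h)]

theorem wm_apply (L : List l) (i j : l) : wm C L i j = C.wl L (Pi.single j 1) i := by
  simp [wm]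

theorem wr_of_big {s : ℕ} (hs : s.Prime) (h : Fintype.card l + 1 < s) (L : List l)
    (h1 : ∀ r, (C.wr L)^[s] r = r) (r : R) : C.wr L r = r := by
  have h2 : wm C L ^ s = 1 := by
    rw [← wm_pow, wm_congr C (L' := []) (funext fun r => by rw [wr_wpow, h1]; rfl), wm_nil]
  let M := (Int.castRingHom ℚ).mapMatrix (wm C L)
  have h3 : minpoly ℚ M ∣ Polynomial.cyclotomic s ℚ * (Polynomial.X - 1) := by
    have := Fact.mk hs
    rw [Polynomial.cyclotomic_prime_mul_X_sub_one]
    refine minpoly.dvd _ _ ?_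
    rw [map_sub, _root_.map_pow, Polynomial.aeval_X, ← _root_.map_pow, h2, _root_.map_one,
      _root_.map_one, sub_self]
  have h4 := Polynomial.natDegree_le_of_dvd M.minpoly_dvd_charpoly M.charpoly_monic.ne_zero
  rw [charpoly_natDegree_eq_dim] at h4
  have h5 := ((Polynomial.cyclotomic.irreducible_rat hs.pos).coprime_iff_not_dvd.2 fun e => by
    have := Polynomial.natDegree_le_of_dvd e (minpoly.ne_zero (isIntegral M))
    rw [Polynomial.natDegree_cyclotomic, Nat.totient_prime hs] at this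
    omega).symm.dvd_of_dvd_mul_left h3
  have h6 : M = 1 := by simpa [sub_eq_zero] using minpoly.dvd_iff.1 h5
  have h7 : C.wl L = C.wl [] := hom_ext fun j => funext fun i => by
    have := congrFun (congrFun h6 i) j
    rw [← wm_apply, ← wm_apply, wm_nil]
    simp only [M, RingHom.mapMatrix_apply, map_apply, one_apply, eq_intCast] at this ⊢
    split_ifs at this ⊢ <;> exact_mod_cast this
  exact C.rt_inj (by rw [rt_wr, h7]; rfl)

theorem FR_big {s : ℕ} (hs : s.Prime) (h : Fintype.card l + 1 < s) : FR C s :=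
  fun L h1 ⟨r, hr⟩ => absurd (wr_of_big C hs h L h1 r) hr

/-- possible next root of a chain -/
def Nxt : List R → R → Prop
  | [], _ => True
  | h :: t, ρ => bf C (C.rt ρ) (C.rt h) = -1 ∧ ∀ p ∈ t, bf C (C.rt ρ) (C.rt p) = 0

/-- chains -/
def Chn : List R → Prop
  | [] => True
  | b :: t => Nxt C t b ∧ Chn t

/-- all extensions of a chain have a good number of continuations -/
def Qp (P : ℕ → Prop) (d : ℕ) (pre : List R) : Prop :=
  ∀ ext : List R, ext.length = d → Chn C (ext ++ pre) → P {ρ | Nxt C (ext ++ pre) ρ}.ncard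

theorem Chn.suffix {a b : List R} (h : Chn C (a ++ b)) : Chn C b := by
  induction a with
  | nil => exact h
  | cons x a ih => exact ih h.2

variable {C} {θ : R} (hS : SL C θ) [Finite R]
include hS

theorem nxt_map (L : List l) (t : List R) (ρ : R) :
    Nxt C (t.map (C.wr L)) (C.wr L ρ) ↔ Nxt C t ρ := by
  cases t <;> simp [Nxt, hS.bf_wr]

theorem chn_map (L : List l) (t : List R) (h : Chn C t) : Chn C (t.map (C.wr L)) := by
  induction t with
  | nil => trivial
  | cons b t ih => exact ⟨(nxt_map hS L t b).2 h.1, ih h.2⟩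

theorem Qp.step {P : ℕ → Prop} {d : ℕ} {pre : List R} (h : ∀ b, Nxt C pre b →
    (∀ i, (∀ p ∈ pre, C.A i (C.rt p) = 0) → 0 ≤ C.A i (C.rt b)) → Qp C P d (b :: pre)) :
    Qp C P (d + 1) pre := fun ext h1 h2 => by
  rcases List.eq_nil_or_concat ext with rfl | ⟨ext, b, rfl⟩
  · simp at h1
  obtain ⟨L, h3, h4⟩ := descent C (fun i => ∀ p ∈ pre, C.A i (C.rt p) = 0) b
  have h5 : pre.map (C.wr L) = pre := by
    conv_rhs => rw [← List.map_id pre]
    exact List.map_congr_left fun p hp => C.rt_inj (by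
      rw [rt_wr, wl_fix C fun i hi => h3 i hi p hp]; rfl)
  have h6 := chn_map hS L _ h2
  have e : (ext.concat b ++ pre).map (C.wr L) = ext.map (C.wr L) ++ C.wr L b :: pre := by
    simp [h5]
  rw [e] at h6
  have := h _ h6.suffix.1 h4 _ (by simpa using h1) h6
  rwa [← e, ← Set.ncard_preimage_of_injective_subset_range (wp C L).injective (by simp),
    show wp C L ⁻¹' {ρ | Nxt C ((ext.concat b ++ pre).map (C.wr L)) ρ} =
      {ρ | Nxt C (ext.concat b ++ pre) ρ} from Set.ext fun ρ => nxt_map hS L _ ρ] at this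

theorem frame_of {s : ℕ} (hs : 2 < s) {L : List l} {a : ℕ → R} (h1 : ∀ k, C.wr L (a k) = a (k + 1))
    (h2 : ∑ k ∈ Finset.range s, C.rt (a k) = 0) (h3 : bf C (C.rt (a 0)) (C.rt (a 1)) = -1)
    (h4 : ∀ k, 2 ≤ k → k + 2 ≤ s → bf C (C.rt (a 0)) (C.rt (a k)) = 0)
    (hQ : Qp C (fun m => m ≠ 0 ∧ (s = 3 ∨ m.Coprime s)) (s - 1) []) : ∃ γ, Fr C s γ ∧
      (∀ k < s, C.wl L (C.rt (γ k) - C.rt (γ 0)) = C.rt (γ (k + 1)) - C.rt (γ 1)) ∧
      (s = 3 ∨ ∀ χ : Ch l F, chm χ (C.wl L) = χ → cv χ (C.rt (γ 1) - C.rt (γ 0)) = 1) := by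
  classical
  have b1 : ∀ i k, bf C (C.rt (a i)) (C.rt (a (i + k))) = bf C (C.rt (a 0)) (C.rt (a k)) := by
    intro i k
    induction i with
    | zero => rw [zero_add]
    | succ i ih => rw [← ih, add_right_comm, ← h1, ← h1, hS.bf_wr]
  have b2 : ∀ i, bf C (C.rt (a i)) (C.rt (a (i + 1))) = -1 := fun i => (b1 i 1).trans h3
  have b3 : ∀ i j, i + 2 ≤ j → j + 2 ≤ i + s → bf C (C.rt (a i)) (C.rt (a j)) = 0 :=
    fun i j c d => by rw [← Nat.add_sub_cancel' (show i ≤ j by omega), b1, h4 _ (by omega) (by omega)]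
  have b4 : ∀ n i ρ, Nxt C ((List.range' i (n + 1)).map a) ρ ↔ bf C (C.rt ρ) (C.rt (a i)) = -1 ∧
      ∀ k, i < k → k ≤ i + n → bf C (C.rt ρ) (C.rt (a k)) = 0 := fun n i ρ => by
    simp only [List.range'_succ, List.map_cons, Nxt, List.forall_mem_map, List.mem_range'_1]
    exact and_congr_right fun _ => forall_congr' fun k =>
      ⟨fun h c d => h ⟨c, by omega⟩, fun h c => h c.1 (by omega)⟩
  have b5 : ∀ n i, i + n < s → Chn C ((List.range' i n).map a) := fun n => by
    induction n with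
    | zero => exact fun _ _ => trivial
    | succ n ih =>
      refine fun i hi => ⟨?_, ih _ (by omega)⟩
      rcases n with _ | n
      · trivial
      · exact (b4 _ _ _).2 ⟨b2 i, fun k c d => b3 _ _ c (by omega)⟩
  obtain ⟨t, rfl⟩ : ∃ t, s = t + 2 := ⟨s - 2, by omega⟩
  obtain ⟨c1, c2⟩ := hQ ((List.range' 0 (t + 1)).map a) (by simp)
    (by simpa using b5 (t + 1) 0 (by omega))
  simp only [List.append_nil, b4, zero_add] at c1 c2
  obtain ⟨ρ, c3, c4⟩ := Set.nonempty_of_ncard_ne_zero c1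
  have c5 : ∀ k ≤ t, bf C (C.rt ρ + ∑ i ∈ Finset.range k, C.rt (a i)) (C.rt (a k)) = -1 := by
    rintro (_ | k) hk
    · simpa using c3
    · rw [bf_add, c4 _ (by omega) hk, hS.comm, map_sum, Finset.sum_range_succ, hS.comm, b2,
        Finset.sum_eq_zero fun i hi => by
          have := Finset.mem_range.1 hi
          rw [hS.comm, b3 _ _ (by omega) (by omega)]]
      rfl
  have c6 : ∀ k, ∃ γ, k ≤ t + 2 → C.rt γ = C.rt ρ + ∑ i ∈ Finset.range k, C.rt (a i) := fun k => by
    induction k with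
    | zero => exact ⟨ρ, by simp⟩
    | succ k ih =>
      by_cases hk : k ≤ t
      · obtain ⟨γ, e⟩ := ih
        obtain ⟨γ', e'⟩ := hS.exists_sub (a k) γ
        exact ⟨γ', fun _ => by
          rw [e', e (by omega), hS.comm, c5 k hk, Finset.sum_range_succ]; simp [add_assoc]⟩
      · exact ⟨ρ, fun h => by rw [show k + 1 = t + 2 by omega, h2, add_zero]⟩
  choose γ c7 using c6
  have c8 : ∀ i j, i < j → j < t + 2 → bf C (C.rt (γ i)) (C.rt (γ j)) = 1 := fun i j hij hj => by
    induction j with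
    | zero => omega
    | succ j ih =>
      rw [c7 _ hj.le, Finset.sum_range_succ, ← add_assoc, ← c7 _ (by omega), map_add]
      rcases (Nat.lt_succ_iff.1 hij).eq_or_lt with rfl | h
      · rw [hS.norm, c7 _ (by omega), c5 _ (by omega)]; rfl
      · rw [ih h (by omega), c7 _ (by omega), bf_add, c4 _ (by omega) (by omega), hS.comm, map_sum,
          Finset.sum_eq_zero fun k hk => by
            have := Finset.mem_range.1 hk
            rw [hS.comm, b3 _ _ (by omega) (by omega)]]
        rfl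
  refine ⟨γ, ⟨C.rt_inj (by rw [c7 _ le_rfl, c7 _ (by omega), h2]; simp), fun i hi j hj hij => ?_⟩,
    fun k hk => ?_, c2.imp_right fun c2 χ hχ => ?_⟩
  · rcases lt_or_gt_of_ne hij with h | h
    · exact c8 i j h hj
    · rw [hS.comm]; exact c8 j i h hi
  · rw [c7 _ hk.le, c7 _ hk, c7 0 (by omega), c7 1 (by omega), Finset.sum_range_succ']
    simp [map_sum, ← rt_wr, h1]
  have d1 : ∀ v, cv χ (C.wl L v) = cv χ v := fun v => by rw [← cv_chm, hχ]
  have d2 : ∀ k, cv χ (∑ i ∈ Finset.range k, C.rt (a i)) = cv χ (C.rt (a 0)) ^ k := fun k => by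
    have : ∀ k, cv χ (C.rt (a k)) = cv χ (C.rt (a 0)) := fun k => by
      induction k with
      | zero => rfl
      | succ k ih => rw [← h1, rt_wr, d1, ih]
    induction k with
    | zero => simp [cv_zero]
    | succ k ih => rw [Finset.sum_range_succ, cv_add, ih, this k, pow_succ]
  obtain ⟨L', d3⟩ := hS.refl (a 0)
  have := Fintype.ofFinite R
  let X := Finset.univ.filter fun ρ => bf C (C.rt ρ) (C.rt (a 0)) = -1 ∧
    ∀ k, 0 < k → k ≤ t → bf C (C.rt ρ) (C.rt (a k)) = 0
  have d4 : ∀ ρ ∈ X, C.wl L (C.rt (wp C (L.reverse ++ L') ρ)) = C.rt ρ + C.rt (a 0) := fun ρ h => by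
    change C.wl L (C.rt (C.wr _ ρ)) = _
    rw [rt_wr, wl_append, wl_rev', d3, hS.comm, (Finset.mem_filter.1 h).2.1]
    simp
  have d5 : ∀ ρ ∈ X, wp C (L.reverse ++ L') ρ ∈ X := fun ρ h => by
    obtain ⟨-, e1, e2⟩ := Finset.mem_filter.1 h
    have e3 : ∀ k, bf C (C.rt (wp C (L.reverse ++ L') ρ)) (C.rt (a k)) =
        bf C (C.rt ρ) (C.rt (a (k + 1))) + bf C (C.rt (a 0)) (C.rt (a (k + 1))) := fun k => by
      rw [← hS.bf_wl L, d4 ρ h, ← rt_wr, h1, bf_add]
    refine Finset.mem_filter.2 ⟨Finset.mem_univ _, by rw [e3, e2 _ (by omega) (by omega), h3]; rfl,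
      fun k c d => ?_⟩
    rw [e3]
    rcases d.eq_or_lt with rfl | d
    · have e4 := congrArg (bf C (C.rt ρ + C.rt (a 0))) h2
      obtain ⟨k, rfl⟩ : ∃ j, k = j + 1 := ⟨k - 1, by omega⟩
      rw [map_sum, Finset.sum_range_succ, Finset.sum_range_succ', Finset.sum_range_succ',
        Finset.sum_eq_zero fun i hi => by
          have := Finset.mem_range.1 hi
          rw [bf_add, e2 _ (by omega) (by omega), h4 _ (by omega) (by omega)]; rfl,
        bf_add, bf_add, bf_add, e1, hS.norm, e2 (0 + 1) (by omega) (by omega), h3, map_zero] at e4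
      simpa using e4
    · rw [e2 _ (by omega) d, h4 _ (by omega) (by omega)]; rfl
  have d6 := Finset.prod_nbij (s := X) (t := X) (f := fun ρ => cv χ (C.rt ρ) * cv χ (C.rt (a 0)))
    (g := fun ρ => cv χ (C.rt ρ)) _ d5 (wp C _).injective.injOn
    (Finset.surjOn_of_injOn_of_card_le _ d5 (wp C _).injective.injOn le_rfl)
    fun ρ h => by rw [← cv_add, ← d4 ρ h, d1]
  rw [Finset.prod_mul_distrib, mul_eq_left₀ (Finset.prod_ne_zero_iff.2 fun _ _ => cv_ne _ _),
    Finset.prod_const] at d6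
  have d7 := d2 (t + 2)
  rw [h2, cv_zero] at d7
  have d8 := pow_gcd_eq_one.2 ⟨d6, d7.symm⟩
  rw [← Set.ncard_coe_finset, Finset.coe_filter_univ, c2, pow_one] at d8
  rw [c7 1 (by omega), c7 0 (by omega)]
  simpa using d8

theorem FR_of (hE : C.Extra) {s : ℕ} (hs : s = 3 ∨ s = 5 ∨ s = 7)
    (hQ : Qp C (fun m => m ≠ 0 ∧ (s = 3 ∨ m.Coprime s)) (s - 1) []) : FR C s := fun L h1 h2 => by
  obtain ⟨r, h3⟩ := exists_sum_zero C hE h1 h2
  let a : ℕ → R := fun k => (C.wr L)^[k] r
  have b0 : ∀ k, a (k + s) = a k := fun k => by simp only [a, Function.iterate_add_apply, h1]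
  have b1 : ∀ i k, bf C (C.rt (a i)) (C.rt (a (i + k))) = bf C (C.rt (a 0)) (C.rt (a k)) := by
    intro i k
    induction i with
    | zero => rw [zero_add]
    | succ i ih =>
      rw [← ih, add_right_comm]
      simp only [a, Function.iterate_succ_apply', hS.bf_wr]
  have b2 : ∀ k, k.Coprime s → a k ≠ a 0 := fun k hk e => by
    have e1 : wp C L r = r := by
      have := ((Function.IsPeriodicPt.gcd (f := C.wr L) (x := r) e (h1 r)))
      rwa [hk] at this
    rw [Finset.sum_congr rfl fun k _ => by rw [Function.iterate_fixed (f := C.wr L) e1]] at h3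
    rw [Finset.sum_const, Finset.card_range, smul_eq_zero] at h3
    exact rt_ne C r (h3.resolve_left (by omega))
  have b3 : ∀ k, (2 * k).Coprime s → -1 ≤ bf C (C.rt (a 0)) (C.rt (a k)) ∧
      bf C (C.rt (a 0)) (C.rt (a k)) ≤ 1 := fun k hk =>
    ⟨hS.neg_one_le fun e => b2 _ hk (by
      have : (C.wr L)^[k] r = C.neg r := (C.neg_neg' _).symm.trans (congrArg C.neg e.symm)
      simp only [a, two_mul, Function.iterate_add_apply, this, Function.iterate_zero_apply]
      rw [← wr_wpow, wr_neg, wr_wpow, this, neg_neg']),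
    hS.le_one (b2 _ (Nat.Coprime.coprime_mul_left hk)).symm⟩
  have b4 : ∀ i j k, bf C (C.rt (a i)) (C.rt (a j)) = -1 → bf C (C.rt (a i)) (C.rt (a k)) = -1 →
      bf C (C.rt (a j)) (C.rt (a k)) = -1 → ∀ m, bf C (C.rt (a m)) (C.rt (a i)) +
        bf C (C.rt (a m)) (C.rt (a j)) + bf C (C.rt (a m)) (C.rt (a k)) = 0 := by
    intro i j k e1 e2 e3 m
    obtain ⟨ρ, e⟩ := hS.exists_sub (a i) (a j)
    rw [e1, neg_smul, one_smul, sub_neg_eq_add] at e
    have : ρ = C.neg (a k) := by
      by_contra h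
      have := hS.neg_one_le h
      rw [e, bf_add] at this
      omega
    rw [← map_add, add_comm (C.rt _), ← e, this, C.rt_neg, map_neg, neg_add_cancel]
  have key : ∀ j, j.Coprime s → ∑ k ∈ Finset.range s, C.rt (a (j * k)) = 0 →
      bf C (C.rt (a 0)) (C.rt (a j)) = -1 →
      (∀ k, 2 ≤ k → k + 2 ≤ s → bf C (C.rt (a 0)) (C.rt (a (j * k))) = 0) → ∃ j, j.Coprime s ∧
      ∃ γ, Fr C s γ ∧ (∀ k < s, C.wl (wpow L j) (C.rt (γ k) - C.rt (γ 0)) =
        C.rt (γ (k + 1)) - C.rt (γ 1)) ∧ (s = 3 ∨ ∀ χ : Ch l F, chm χ (C.wl (wpow L j)) = χ →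
          cv χ (C.rt (γ 1) - C.rt (γ 0)) = 1) := fun j c1 c2 c3 c4 =>
    ⟨j, c1, frame_of hS (by omega) (a := fun k => a (j * k)) (fun k => by
      simp only [a, wr_wpow, mul_add, mul_one, add_comm (j * k), Function.iterate_add_apply]) c2
      (by simpa using c3) c4 hQ⟩
  change ∑ k ∈ Finset.range s, C.rt (a k) = 0 at h3
  have h4 := congrArg (bf C (C.rt (a 0))) h3
  have sy : ∀ k ≤ s, bf C (C.rt (a 0)) (C.rt (a (s - k))) = bf C (C.rt (a 0)) (C.rt (a k)) :=
    fun k hk => by rw [← b1 k, Nat.add_sub_cancel' hk, ← zero_add s, b0, hS.comm]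
  clear_value a
  rcases hs with rfl | rfl | rfl
  · simp only [Finset.sum_range_succ, Finset.sum_range_zero, zero_add, map_add, map_zero,
      hS.norm] at h4
    have := sy 1 (by omega)
    exact key 1 (by decide) (by simpa using h3) (by simp at this; omega) fun k _ _ => by omega
  · simp only [Finset.sum_range_succ, Finset.sum_range_zero, zero_add, map_add, map_zero,
      hS.norm] at h3 h4
    have s1 := sy 1 (by omega)
    have s2 := sy 2 (by omega)
    have t1 := b3 1 (by decide)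
    have t2 := b3 2 (by decide)
    norm_num at s1 s2
    by_cases h : bf C (C.rt (a 0)) (C.rt (a 1)) = -1
    · refine key 1 (by decide) (by simpa [Finset.sum_range_succ] using h3) h fun k _ _ => ?_
      obtain rfl | rfl : k = 2 ∨ k = 3 := by omega
      all_goals norm_num; omega
    · refine key 2 (by decide) ?_ (by omega) fun k _ _ => ?_
      · simp only [Finset.sum_range_succ, Finset.sum_range_zero, zero_add]
        rw [← h3, show a (2 * 3) = a 1 from b0 1, show a (2 * 4) = a 3 from b0 3]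
        norm_num; abel
      obtain rfl | rfl : k = 2 ∨ k = 3 := by omega
      · norm_num; omega
      · rw [show a (2 * 3) = a 1 from b0 1]; omega
  · simp only [Finset.sum_range_succ, Finset.sum_range_zero, zero_add, map_add, map_zero,
      hS.norm] at h3 h4
    have s1 := sy 1 (by omega)
    have s2 := sy 2 (by omega)
    have s3 := sy 3 (by omega)
    have t1 := b3 1 (by decide)
    have t2 := b3 2 (by decide)
    have t3 := b3 3 (by decide)
    have u12 := b1 1 1
    have u13 := b1 1 2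
    have u14 := b1 1 3
    have u23 := b1 2 1
    have u24 := b1 2 2
    have u25 := b1 2 3
    have u35 := b1 3 2
    have v1 := fun x y z => b4 0 1 2 x y z 3
    have v2 := fun x y z => b4 0 1 4 x y z 2
    have v3 := fun x y z => b4 0 2 5 x y z 3
    rw [hS.comm (C.rt (a 3)), hS.comm (C.rt (a 3)), hS.comm (C.rt (a 3))] at v1
    rw [hS.comm (C.rt (a 2)), hS.comm (C.rt (a 2))] at v2
    rw [hS.comm (C.rt (a 3)), hS.comm (C.rt (a 3))] at v3
    norm_num at s1 s2 s3 u12 u13 u14 u23 u24 u25 u35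
    by_cases h : bf C (C.rt (a 0)) (C.rt (a 1)) = -1 ∧ bf C (C.rt (a 0)) (C.rt (a 2)) = 0
    · refine key 1 (by decide) (by simpa [Finset.sum_range_succ] using h3) h.1 fun k _ _ => ?_
      obtain rfl | rfl | rfl | rfl : k = 2 ∨ k = 3 ∨ k = 4 ∨ k = 5 := by omega
      all_goals norm_num; omega
    by_cases h' : bf C (C.rt (a 0)) (C.rt (a 2)) = -1 ∧ bf C (C.rt (a 0)) (C.rt (a 1)) = 0
    · refine key 2 (by decide) ?_ h'.1 fun k _ _ => ?_
      · simp only [Finset.sum_range_succ, Finset.sum_range_zero, zero_add]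
        rw [← h3, show a (2 * 4) = a 1 from b0 1, show a (2 * 5) = a 3 from b0 3,
          show a (2 * 6) = a 5 from b0 5]
        norm_num; abel
      obtain rfl | rfl | rfl | rfl : k = 2 ∨ k = 3 ∨ k = 4 ∨ k = 5 := by omega
      · norm_num; omega
      · norm_num; omega
      · rw [show a (2 * 4) = a 1 from b0 1]; omega
      · rw [show a (2 * 5) = a 3 from b0 3]; omega
    · have w : bf C (C.rt (a 0)) (C.rt (a 3)) = -1 ∧ bf C (C.rt (a 0)) (C.rt (a 1)) = 0 ∧
          bf C (C.rt (a 0)) (C.rt (a 2)) = 0 := by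
        rw [u12, u13, u23] at v1
        rw [u14, u12, u24, s3] at v2
        rw [u25, u23, u35, s2] at v3
        rw [s1, s2, s3] at h4
        clear s1 s2 s3 u12 u13 u14 u23 u24 u25 u35
        omega
      clear v1 v2 v3 h h' t1 t2 t3
      refine key 3 (by decide) ?_ w.1 fun k _ _ => ?_
      · simp only [Finset.sum_range_succ, Finset.sum_range_zero, zero_add]
        rw [← h3, show a (3 * 3) = a 2 from b0 2, show a (3 * 4) = a 5 from b0 5,
          show a (3 * 5) = a 1 from (b0 8).trans (b0 1), show a (3 * 6) = a 4 from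
            (b0 11).trans (b0 4)]
        norm_num; abel
      obtain rfl | rfl | rfl | rfl : k = 2 ∨ k = 3 ∨ k = 4 ∨ k = 5 := by omega
      · norm_num; omega
      · rw [show a (3 * 3) = a 2 from b0 2]; omega
      · rw [show a (3 * 4) = a 5 from b0 5]; omega
      · rw [show a (3 * 5) = a 1 from (b0 8).trans (b0 1)]; omega

end CfsgAE
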