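/-
Consequences of the toral lemma.
-/
import Cfsg.Agent.AE.Frame
import Cfsg.Agent.AE.Defs

set_option autoImplicit false
set_option linter.unusedSectionVars false

namespace CfsgAE

open CfsgH8 CfsgH8.Chev Matrix CfsgH7

section lin
variable {ι F : Type*} [Fintype ι] [DecidableEq ι] [Field F]

/-- coordinate subspaces -/
def Sp (F : Type*) [Field F] (T : Set ι) : Submodule F (ι → F) := Submodule.pi Tᶜ fun _ => ⊥

theorem mem_Sp {T : Set ι} {v : ι → F} : v ∈ Sp F T ↔ ∀ k ∉ T, v k = 0 := Iff.rfl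

theorem finrank_Sp (T : Set ι) : Module.finrank F (Sp F T) = T.ncard := by
  classical
  rw [(LinearEquiv.ofBijective ((LinearMap.funLeft F F (Subtype.val : T → ι)).comp (Sp F T).subtype)
    ⟨fun u v e => Subtype.ext (funext fun k => by
      by_cases h : k ∈ T
      exacts [congrFun e ⟨k, h⟩, (u.2 k h).trans (v.2 k h).symm]),
    fun u => ⟨⟨fun k => if h : k ∈ T then u ⟨k, h⟩ else 0, fun k hk => dif_neg hk⟩,
      funext fun k => dif_pos k.2⟩⟩).finrank_eq, Module.finrank_fintype_fun_eq_card,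
    ← Nat.card_eq_fintype_card, Nat.card_coe_set_eq]

theorem Sp_inv {T : Set ι} {M : Matrix ι ι F} (h : ∀ i j, M i j ≠ 0 → j ∈ T → i ∈ T) {v : ι → F}
    (hv : v ∈ Sp F T) : M *ᵥ v ∈ Sp F T := fun i hi => by
  refine Finset.sum_eq_zero fun j _ => ?_
  change M i j * v j = 0
  by_cases e : M i j = 0
  · rw [e, zero_mul]
  · rw [hv j fun hj => hi (h i j e hj), mul_zero]

theorem fixd_conj (g x : GL ι F) : fixd (g * x * g⁻¹) = fixd x := by
  have key : ∀ g x : GL ι F, fixd x ≤ fixd (g * x * g⁻¹) := fun g x =>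
    finrank_le_of_maps (toLin' (g : Matrix ι ι F)) (GeneralLinearGroup.toLin g).toLinearEquiv.injective
      fun v hv => by
        rw [Module.End.mem_eigenspace_iff, one_smul, toLin'_apply] at hv ⊢
        rw [toLin'_apply, mulVec_mulVec, ← Units.val_mul, inv_mul_cancel_right, Units.val_mul,
          ← mulVec_mulVec, hv]
  exact le_antisymm (by simpa [mul_assoc] using key g⁻¹ (g * x * g⁻¹)) (key g x)

theorem pow_six {α : Type*} {f : α → α} (hf : Function.Injective f) {Y : Set α} (hY : Y.Finite)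
    (h3 : Y.ncard ≤ 3) (h : ∀ y ∈ Y, f y ∈ Y) {y : α} (hy : y ∈ Y) : f^[6] y = y := by
  classical
  have := hY.fintype
  let σ : Equiv.Perm Y := Equiv.ofBijective (Set.MapsTo.restrict f Y Y h)
    (Finite.injective_iff_bijective.1 (Set.MapsTo.restrict_inj h |>.2 hf.injOn))
  have h1 : σ ^ 6 = 1 := orderOf_dvd_iff_pow_eq_one.1 (orderOf_dvd_card.trans (by
    rw [Fintype.card_perm, ← Nat.card_eq_fintype_card, Nat.card_coe_set_eq]
    exact Nat.factorial_dvd_factorial h3))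
  exact congrArg Subtype.val (DFunLike.congr_fun h1 ⟨y, hy⟩)

theorem lf_closure (F : Type*) [Field F] [Finite F] (ι : Type*) [Fintype ι] [DecidableEq ι] :
    LF ι (AlgebraicClosure F) := fun S hS => by
  let E := IntermediateField.adjoin F ((⋃ g ∈ S, ⋃ i, ⋃ j, {(g : Matrix ι ι _) i j,
    ((g⁻¹ : GL ι _) : Matrix ι ι _) i j}) : Set (AlgebraicClosure F))
  have : Finite ((⋃ g ∈ S, ⋃ i, ⋃ j, {(g : Matrix ι ι _) i j,
    ((g⁻¹ : GL ι _) : Matrix ι ι _) i j}) : Set (AlgebraicClosure F)) :=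
    hS.biUnion fun _ _ => Set.finite_iUnion fun _ => Set.finite_iUnion fun _ => Set.toFinite _
  have : FiniteDimensional F E := IntermediateField.finiteDimensional_adjoin fun x _ =>
    Algebra.IsIntegral.isIntegral x
  have : Finite E := Module.finite_of_finite F
  let φ := GeneralLinearGroup.map (n := ι) E.val.toRingHom
  refine Set.finite_coe_iff.2 ((Set.finite_range φ).subset ((Subgroup.closure_le φ.range).2 ?_))
  intro g hg
  have h1 : ∀ i j, (g : Matrix ι ι _) i j ∈ E ∧ ((g⁻¹ : GL ι _) : Matrix ι ι _) i j ∈ E :=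
    fun i j => ⟨IntermediateField.subset_adjoin _ _ (by simp only [Set.mem_iUnion]; exact
      ⟨g, hg, i, j, by simp⟩), IntermediateField.subset_adjoin _ _ (by
        simp only [Set.mem_iUnion]; exact ⟨g, hg, i, j, by simp⟩)⟩
  have h2 := Matrix.map_injective (m := ι) (n := ι) E.val.toRingHom.injective
  refine ⟨⟨of fun i j => ⟨_, (h1 i j).1⟩, of fun i j => ⟨_, (h1 i j).2⟩, h2 ?_, h2 ?_⟩, Units.ext rfl⟩
  · exact (Matrix.map_mul).trans (g.mul_inv.trans (Matrix.map_one _ (map_zero _) (map_one _)).symm)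
  · exact (Matrix.map_mul).trans (g.inv_mul.trans (Matrix.map_one _ (map_zero _) (map_one _)).symm)

end lin

theorem exists_min {H Q : Type*} [Group H] [Finite H] [Group Q] (π : H →* Q)
    (hπ : Function.Surjective π) : ∃ M : Subgroup H, Function.Surjective (π.comp M.subtype) ∧
      ∀ N : Subgroup M, N.map (π.comp M.subtype) = ⊤ → N = ⊤ := by
  obtain ⟨M, h1, h2⟩ := (wellFounded_lt (α := Subgroup H)).has_min {M | M.map π = ⊤}
    ⟨⊤, Subgroup.map_top_of_surjective π hπ⟩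
  refine ⟨M, fun q => ?_, fun N hN => ?_⟩
  · obtain ⟨x, hx, e⟩ : q ∈ M.map π := h1 ▸ Subgroup.mem_top q
    exact ⟨⟨x, hx⟩, e⟩
  · rw [← Subgroup.map_map] at hN
    have := (Subgroup.map_subtype_le N).eq_of_not_lt (h2 _ hN)
    exact Subgroup.map_injective M.subtype_injective (by
      rw [this, ← MonoidHom.range_eq_map, Subgroup.range_subtype])

variable {ι R l F : Type*} [Fintype ι] [DecidableEq ι] [Fintype l] [DecidableEq l] [Field F]
  {C : Chev ι R l F}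

theorem pw_add (c : Fˣ) (g g' : (l → ℤ) →+ ℤ) : pw c (g + g') = (pw c g * pw c g' : Ch l F) :=
  ch_ext fun j => by rw [cv_mul, cv_pw, cv_pw, cv_pw, ← zpow_add₀ c.ne_zero]; rfl

theorem pw_nsmul (c : Fˣ) (g : (l → ℤ) →+ ℤ) (k : ℕ) : pw c (k • g) = (pw c g ^ k : Ch l F) :=
  ch_ext fun j => by
    rw [cv_pow, cv_pw, cv_pw, ← zpow_natCast, ← _root_.zpow_mul, mul_comm]; simp

theorem chm_pw (c : Fˣ) (g : (l → ℤ) →+ ℤ) (a : (l → ℤ) →+ (l → ℤ)) :
    chm (pw c g : Ch l F) a = pw c (g.comp a) := rfl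

theorem cv_pw_eq {c : Fˣ} {s : ℕ} (hc : orderOf c = s) {g g' : (l → ℤ) →+ ℤ} {u v : l → ℤ} :
    cv (pw c g : Ch l F) u = cv (pw c g') v ↔ (g u : ZMod s) = g' v := by
  rw [cv_pw, cv_pw, ← Units.val_zpow_eq_zpow_val, ← Units.val_zpow_eq_zpow_val, Units.val_inj,
    zpow_eq_zpow_iff_modEq, hc, ZMod.intCast_eq_intCast_iff]

theorem cv_pw_one {c : Fˣ} {s : ℕ} (hc : orderOf c = s) {g : (l → ℤ) →+ ℤ} {u : l → ℤ} :
    cv (pw c g : Ch l F) u = 1 ↔ (g u : ZMod s) = 0 := by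
  rw [← cv_zero (pw c g), cv_pw_eq hc, map_zero, Int.cast_zero]

theorem pw_congr {c : Fˣ} {s : ℕ} (hc : orderOf c = s) {g g' : (l → ℤ) →+ ℤ}
    (h : ∀ j, (g (Pi.single j 1) : ZMod s) = g' (Pi.single j 1)) : (pw c g : Ch l F) = pw c g' :=
  ch_ext fun j => (cv_pw_eq hc).2 (h j)

theorem exists_pw {c : Fˣ} {s : ℕ} [NeZero s] (hc : orderOf c = s) {χ : Ch l F}
    (h : C.hh χ ^ s = 1) : ∃ g, χ = pw c g := by
  have h1 : χ ^ s = 1 := hh_inj C (by rw [hh_pow, h, _root_.map_one])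
  have : ∀ j, ∃ m : ℕ, (c : F) ^ m = cv χ (Pi.single j 1) := fun j => by
    obtain ⟨m, -, e⟩ := (IsPrimitiveRoot.coe_units_iff.2 (hc ▸ IsPrimitiveRoot.orderOf c)
      ).eq_pow_of_pow_eq_one (ξ := cv χ (Pi.single j 1)) (by rw [← cv_pow, h1, cv_one])
    exact ⟨m, e⟩
  choose m hm using this
  exact ⟨∑ j, (m j : ℤ) • Pi.evalAddMonoidHom _ j, ch_ext fun j => by
    rw [cv_pw, ← hm, ← zpow_natCast]
    simp [Pi.single_apply]⟩

theorem fixd_hh' (χ : Ch l F) : fixd (C.hh χ) = {k | cv χ (C.wt k) = 1}.ncard := by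
  rw [fixd, ← finrank_Sp (F := F)]
  refine congrArg (fun W : Submodule F (ι → F) => Module.finrank F W) (Submodule.ext fun v => ?_)
  rw [Module.End.mem_eigenspace_iff, one_smul, toLin'_apply, hh_val, mem_Sp, funext_iff]
  refine forall_congr' fun k => ?_
  rw [mulVec_diagonal, mul_left_eq_self₀, or_iff_not_imp_left]
  rfl

theorem ent_of_comm {c : Fˣ} {g : (l → ℤ) →+ ℤ} {x : GL ι F}
    (h : x * C.hh (pw c g) = C.hh (pw c g) * x) {i j : ι} (h0 : (x : Matrix ι ι F) i j ≠ 0) :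
    (c : F) ^ g (C.wt i) = c ^ g (C.wt j) := by
  have e := congrArg (fun g : GL ι F => (g : Matrix ι ι F) i j) h
  simp only [Units.val_mul, hh_val, mul_diagonal, diagonal_mul, cv_pw] at e
  exact (mul_left_cancel₀ h0 (e.trans (mul_comm _ _))).symm

variable {θ : R} (hS : SL C θ) [Finite R]

section
include hS

theorem SL.fixd_hh (χ : Ch l F) :
    fixd (C.hh χ) = Fintype.card l + {r | cv χ (C.rt r) = 1}.ncard := by
  rw [fixd_hh', ← Set.ncard_image_of_injective _ (e_inj (C := C)), ← Nat.card_eq_fintype_card,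
    ← Set.ncard_univ, ← Set.ncard_image_of_injective _ hS.hb_inj, ← Set.ncard_union_eq (by
      rw [Set.disjoint_left]
      rintro _ ⟨i, -, rfl⟩ ⟨r, -, e⟩
      exact C.hb_ne_e i r e.symm)]
  congr 1
  ext k
  rcases hS.idx k with ⟨i, rfl⟩ | ⟨r, rfl⟩
  · simp [C.wt_hb, cv_zero]
  · simp [C.wt_e, (C.hb_ne_e _ r), (e_inj (C := C)).eq_iff]

theorem SL.pd {v : l → ℤ} (h : bf C v v = 0) (r : R) : bf C v (C.rt r) = 0 := by
  have := Fintype.ofFinite R
  have h1 : ∀ a, ∑ r, bf C (C.rt a) (C.rt r) ^ 2 = ∑ r, bf C (C.rt θ) (C.rt r) ^ 2 := fun a => by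
    obtain ⟨L, e⟩ := hS.trans a
    rw [← Equiv.sum_comp (wp C L) fun r => bf C (C.rt θ) (C.rt r) ^ 2, ← e]
    exact Finset.sum_congr rfl fun r _ => by rw [← hS.bf_wr L]; rfl
  have h2 : (4 : ℤ) • ∑ r, bf C v (C.rt r) • bf C (C.rt r) =
      (2 * ∑ r, bf C (C.rt θ) (C.rt r) ^ 2) • bf C v := hom_ext fun j => by
    have := hS.sum_bf (C.p j) (bf C v)
    rw [h1] at this
    rw [← C.rt_p, AddMonoidHom.zsmul_apply, AddMonoidHom.zsmul_apply, smul_eq_mul, smul_eq_mul,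
      ← this, AddMonoidHom.finsetSum_apply]
    exact congrArg _ (Finset.sum_congr rfl fun r _ => by
      rw [AddMonoidHom.zsmul_apply, smul_eq_mul, mul_comm, hS.comm])
  have h3 := DFunLike.congr_fun h2 v
  simp only [AddMonoidHom.zsmul_apply, AddMonoidHom.finsetSum_apply, h, smul_eq_mul, mul_zero,
    hS.comm _ v, mul_eq_zero] at h3
  exact mul_self_eq_zero.1 ((Finset.sum_eq_zero_iff_of_nonneg fun _ _ => mul_self_nonneg _).1
    (h3.resolve_left (by norm_num)) r (Finset.mem_univ _))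

end

variable (hE : C.Extra) (hF : LF ι F) [IsAlgClosed F] {s : ℕ} [Fact s.Prime] (hs : (s : F) ≠ 0)

theorem mem_CS_empty {g : GL ι F} : g ∈ CS C ∅ ↔ g ∈ GG C := by simp [mem_CS]

include hE hF hs

theorem conj_NW' {H : Type*} [Group H] [Finite H] (ρ : H →* GL ι F) (hG : ∀ h, ρ h ∈ GG C)
    (P : Subgroup H) (hP : IsPGroup s P) : ∃ g, ∀ x : P, ∃ L, NW C (g * ρ x * g⁻¹) L ∧
      ∃ k, ∀ r, (C.wr L)^[s ^ k] r = r := by
  have : Finite (P.map ρ) := (Set.toFinite (P : Set H)).image ρ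
  obtain ⟨g, -, h⟩ := conj_NW hE hF hs (S := ∅) (P.map ρ) (hP.map ρ) (by
    rintro _ ⟨x, -, rfl⟩; exact mem_CS_empty.2 (hG x))
  refine ⟨g, fun x => ?_⟩
  obtain ⟨L, hL⟩ := h _ ⟨x, x.2, rfl⟩
  obtain ⟨k, hk⟩ := hP x
  refine ⟨L, hL, k, fun r => ?_⟩
  rw [← wr_wpow, (hL.pow _).unique hE (L' := []) (by
    rw [conj_pow, ← _root_.map_pow, show x.1 ^ s ^ k = 1 from congrArg Subtype.val hk,
      _root_.map_one, mul_one, mul_inv_cancel]
    exact NW.nw [])]
  rfl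

theorem comm_of_big (h : Fintype.card l + 1 < s) {H : Type*} [Group H] [Finite H] (ρ : H →* GL ι F)
    (hρ : Function.Injective ρ) (hG : ∀ h, ρ h ∈ GG C) (P : Subgroup H) (hP : IsPGroup s P) :
    ∀ x ∈ P, ∀ y ∈ P, x * y = y * x := by
  obtain ⟨g, h1⟩ := conj_NW' hE hF hs ρ hG P hP
  have : ∀ x : P, ∃ χ, g * ρ x * g⁻¹ = C.hh χ := fun x => by
    obtain ⟨L, hL, k, hk⟩ := h1 x
    refine hL.mem_T hE ?_
    clear hL
    induction k generalizing L with
    | zero => simpa using hk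
    | succ k ih =>
      exact wr_of_big C Fact.out h L fun r => by
        rw [← wr_wpow]
        exact ih _ (fun r => by
          rw [show C.wr (wpow L s) = (C.wr L)^[s] from funext (wr_wpow C L s),
            ← Function.iterate_mul, ← pow_succ', hk]) r
  intro x hx y hy
  obtain ⟨χ, e⟩ := this ⟨x, hx⟩
  obtain ⟨ψ, e'⟩ := this ⟨y, hy⟩
  have := hh_comm C χ ψ
  rw [← e, ← e', conj_mul, conj_mul, ← _root_.map_mul, ← _root_.map_mul] at this
  exact hρ (by simpa using this)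

include hS

theorem kac (hs2 : s ≠ 2) (hFR : FR C s) {c : Fˣ} (hc : orderOf c = s) {x : GL ι F} (hx : x ∈ GG C)
    (h1 : x ^ s = 1) : ∃ y ∈ GG C, ∃ g : (l → ℤ) →+ ℤ, (∀ i, 0 ≤ g (Pi.single i 1)) ∧
      g (C.rt θ) ≤ s ∧ y * x * y⁻¹ = C.hh (pw c g) := by
  obtain ⟨y, hy, χ, e⟩ := toral hE hF hs hS hs2 hFR (S := ∅) (by simp) (mem_CS_empty.2 hx) h1
  obtain ⟨g, rfl⟩ := exists_pw (C := C) hc (χ := χ) (by rw [← e, conj_pow, h1]; group)
  obtain ⟨L, g', h2, h3, h4⟩ := hS.alcove (Fact.out : s.Prime).pos g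
  refine ⟨_, mul_mem (inv_mem (nw_mem_GG C L)) hy.1, g', h3, h4, ?_⟩
  rw [← pw_congr hc (g := g.comp (C.wl L)) fun j =>
    ((ZMod.intCast_eq_intCast_iff_dvd_sub _ _ _).2 (h2 _)).symm, ← chm_pw,
    ← inv_mul_eq_iff_eq_mul.2 ((NW.nw L).mul_hh hE _).symm, ← e]
  group

omit hF hs [Fact s.Prime] in
theorem inv_of {χ : Ch l F} {Λ : Set ((l → ℤ) →+ ℤ)} (h1 : Λ.Finite) (h2 : Λ.ncard ≤ 3)
    (h3 : ∀ g ∈ Λ, ∀ L, chm χ (C.wl L) = χ → g.comp (C.wl L) ∈ Λ)
    (h4 : ∀ g ∈ Λ, ∀ r, cv χ (C.rt r) = 1 → g (C.rt r) = 0) (h3F : (3 : F) ≠ 0) {x : GL ι F}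
    (hx : x ∈ GG C) (h5 : x * C.hh χ = C.hh χ * x) {g : (l → ℤ) →+ ℤ} (hg : g ∈ Λ) {i j : ι}
    (h6 : ((x ^ 6 : GL ι F) : Matrix ι ι F) i j ≠ 0) : g (C.wt i) = g (C.wt j) := by
  obtain ⟨c, hc⟩ := exists_gen F (s := 3) (by norm_num) (by exact_mod_cast h3F)
    (g (C.wt i) - g (C.wt j)).natAbs
  obtain ⟨L, a1, a2⟩ := cent_act hE hx h5
  have a3 := pow_six (f := MulAut.conj x⁻¹) (MulAut.conj x⁻¹).injective
    (h1.image fun g => C.hh (pw c g)) ((Set.ncard_image_le h1).trans h2) (by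
      rintro _ ⟨g, hg, rfl⟩
      refine ⟨_, h3 g hg L a1, ?_⟩
      beta_reduce
      rw [MulAut.conj_apply, mul_assoc, eq_inv_mul_iff_mul_eq, inv_inv, ← chm_pw]
      exact a2 _ fun r hr => by rw [cv_pw, h4 g hg r hr, zpow_zero]) ⟨g, hg, rfl⟩
  change (MulAut.conj x⁻¹ ^ 6) (C.hh (pw c g)) = C.hh (pw c g) at a3
  rw [← _root_.map_pow, MulAut.conj_apply, inv_pow, inv_inv, mul_assoc,
    inv_mul_eq_iff_eq_mul] at a3
  exact sub_eq_zero.1 (hc _ (by simp) (by
    rw [zpow_sub₀ c.ne_zero, ent_of_comm a3.symm h6, div_self (zpow_ne_zero _ c.ne_zero)]))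

/-- a commuting pair one of whose members is `α^∨(ω)` -/
theorem toral_pair (h3F : ((3 : ℕ) : F) ≠ 0) (hFR : FR C 3) {P : ℕ → Prop} (hP : ∀ m, P m → m ≠ 0)
    (hQ : Qp C P 2 []) {c : Fˣ} (hc : orderOf c = 3) {x : GL ι F} (hx : x ∈ GG C) (h1 : x ^ 3 = 1)
    (a : R) (h2 : x * C.hh (pw c (bf C (C.rt a))) = C.hh (pw c (bf C (C.rt a))) * x) :
    ∃ y ∈ GG C, y * C.hh (pw c (bf C (C.rt a))) * y⁻¹ = C.hh (pw c (bf C (C.rt a))) ∧
      ∃ χ, y * x * y⁻¹ = C.hh χ := by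
  have : Fact (Nat.Prime 3) := ⟨Nat.prime_three⟩
  obtain ⟨d, hd⟩ := exists_gen F (s := 3) (by norm_num) h3F 6
  obtain ⟨L, a1, a2⟩ := cent_act hE hx h2
  have a3 : ∀ r, (bf C (C.rt (C.wr L.reverse a)) (C.rt r) : ZMod 3) = bf C (C.rt a) (C.rt r) :=
    fun r => by
      rw [← hS.bf_wr L, wr_rev', rt_wr]
      exact (cv_pw_eq hc).1 (congrArg (cv · (C.rt r)) a1)
  have a4 : C.wr L.reverse a = a := by
    by_contra h
    have b1 := hS.le_one h
    have b2 := hS.neg_two_le (C.wr L.reverse a) a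
    have b3 := (ZMod.intCast_eq_intCast_iff_dvd_sub _ _ _).1 (a3 a)
    rw [hS.norm] at b3
    obtain ⟨ρ, b4, b5⟩ := Set.nonempty_of_ncard_ne_zero (hP _ (hQ [C.wr L.reverse a, a] rfl
      ⟨⟨by omega, by simp⟩, trivial, trivial⟩))
    have b6 := a3 ρ
    rw [hS.comm, b4, hS.comm, b5 a (by simp)] at b6
    have := (ZMod.intCast_eq_intCast_iff_dvd_sub _ _ _).1 b6
    omega
  have a6 : ∀ r, cv (pw c (bf C (C.rt a)) : Ch l F) (C.rt r) = 1 → bf C (C.rt a) (C.rt r) = 0 :=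
    fun r h => by
      have := (ZMod.intCast_zmod_eq_zero_iff_dvd _ _).1 ((cv_pw_one hc).1 h)
      have := hS.le_two a r
      have := hS.neg_two_le a r
      omega
  have a7 : ∀ r, cv (pw d (bf C (C.rt a)) : Ch l F) (C.rt r) ^ 3 = 1 →
      bf C (C.rt a) (C.rt r) = 0 := fun r h => by
    rw [cv_pw, ← zpow_natCast, ← _root_.zpow_mul] at h
    have := hS.le_two a r
    have := hS.neg_two_le a r
    have := hd _ (by rw [abs_le]; push_cast; omega) h
    omega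
  have a8 : ∀ (e : Fˣ) L, C.wr L.reverse a = a →
      chm (pw e (bf C (C.rt a)) : Ch l F) (C.wl L) = pw e (bf C (C.rt a)) := fun e L h => by
    rw [chm_pw]
    refine congrArg _ (AddMonoidHom.ext fun v => ?_)
    rw [AddMonoidHom.comp_apply, ← hS.bf_wl L.reverse, wl_rev, ← rt_wr, h]
  obtain ⟨y, hy, χ, e⟩ := toral hE hF h3F hS (by norm_num) hFR (S := {pw d (bf C (C.rt a))})
    (fun _ r h χ hχ => by rw [hχ, cv_pw, a7 r (h _ rfl), zpow_zero]) (x := x) (mem_CS.2 ⟨hx, by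
      rintro _ rfl
      rw [← a2 _ fun r hr => by rw [cv_pw, a6 r hr, zpow_zero], a8 _ _ a4]⟩) h1
  refine ⟨y, hy.1, mul_inv_eq_iff_eq_mul.2 ?_, χ, e⟩
  obtain ⟨L', b1, b2⟩ := cent_act hE hy.1 ((mem_CS.1 hy).2 _ rfl).symm
  rw [← b2 _ fun r hr => by rw [cv_pw, a7 r (by rw [hr, one_pow]), zpow_zero], a8]
  by_contra h
  have b3 := congrArg (cv · (C.rt (C.wr L'.reverse a))) b1
  simp only [cv_chm, cv_pw, ← rt_wr, wr_rev', hS.norm] at b3
  have := hS.le_one (Ne.symm h)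
  have := hS.neg_two_le a (C.wr L'.reverse a)
  have := hd (2 - bf C (C.rt a) (C.rt (C.wr L'.reverse a))) (by rw [abs_le]; omega) (by
    rw [zpow_sub₀ d.ne_zero, b3, div_self (zpow_ne_zero _ d.ne_zero)])
  omega

end CfsgAE

namespace CfsgAE

open CfsgH8 CfsgH8.Chev Matrix CfsgH7

theorem torRep {ι R F : Type*} {n : ℕ} [Fintype ι] [DecidableEq ι] [Field F]
    {C : Chev ι R (Fin n) F} {θ : R} (hS : SL C θ) [Finite R] (hE : C.Extra) (hF : LF ι F)
    [IsAlgClosed F] {s : ℕ} [Fact s.Prime] (hs : (s : F) ≠ 0) (hs2 : s ≠ 2) {H : Type*} [Group H]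
    [Finite H] (ρ : H →* GL ι F) (hρ : Function.Injective ρ) (hG : ∀ h, ρ h ∈ GG C) :
    TorRep F H s n := fun P hP => by
  obtain ⟨g, h1⟩ := conj_NW' hE hF hs ρ hG P hP
  choose L h2 k h3 using h1
  let φ : P →* Matrix (Fin n) (Fin n) (ZMod 2) :=
    { toFun := fun x => (Int.castRingHom _).mapMatrix (wm C (L x))
      map_one' := by
        rw [wm_congr C ((h2 1).unique hE (L' := []) (by
          rw [OneMemClass.coe_one, _root_.map_one, mul_one, mul_inv_cancel]; exact NW.nw [])), wm_nil,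
          _root_.map_one]
      map_mul' := fun x y => by
        rw [← _root_.map_mul, ← wm_append, wm_congr C ((h2 (x * y)).unique hE (by
          simpa [mul_assoc] using (h2 x).mul (h2 y)))] }
  have h4 : ∀ x : φ.toHomUnits.ker, ∃ χ, g * ρ x.1 * g⁻¹ = C.hh χ := fun x => by
    refine (h2 x).mem_T hE (congrFun (wr_id C hE fun j => ?_))
    have h5 : φ x = 1 := congrArg Units.val x.2
    have h6 : ∀ i, (2 : ℤ) ∣ C.rt (C.wr (L x) (C.p j)) i - C.rt (C.p j) i := fun i => by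
      have := congrFun (congrFun h5 i) j
      refine (ZMod.intCast_eq_intCast_iff_dvd_sub _ _ 2).1 ?_
      rw [rt_wr, C.rt_p, ← wm_apply]
      refine Eq.trans ?_ this.symm
      simp [Pi.single_apply, one_apply]
    choose v h6 using h6
    rcases hS.mod_two (r := C.wr (L x) (C.p j)) (s := C.p j) (v := v) (funext fun i => by
      have := h6 i; simp only [Pi.add_apply, Pi.smul_apply, smul_eq_mul]; omega) with e | e
    · rw [e]; exact C.f_p j
    · obtain ⟨m, hm⟩ : Odd (s ^ k x) := ((Fact.out : s.Prime).odd_of_ne_two hs2).pow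
      have := h3 x (C.p j)
      rw [hm, add_comm, Function.iterate_add_apply, Function.iterate_mul, Function.iterate_fixed
        (f := (C.wr (L x))^[2]) (x := C.p j) (by
        change C.wr _ (C.wr _ _) = _
        rw [e, wr_neg, e, neg_neg']), Function.iterate_one, e] at this
      exact absurd this (neg_ne C _)
  choose χ h4 using h4
  refine ⟨φ.toHomUnits, MonoidHom.mk' (fun x i => χ x (Multiplicative.ofAdd (Pi.single i 1)))
    fun x y => ?_, fun x y e => Subtype.ext (Subtype.ext (hρ ?_))⟩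
  · rw [hh_inj C (a₁ := χ (x * y)) (a₂ := χ x * χ y) (by
      rw [_root_.map_mul, ← h4, ← h4, ← h4, conj_mul, ← _root_.map_mul]; rfl)]
    rfl
  · have := (h4 x).trans ((congrArg C.hh (ch_ext fun j => congrArg Units.val (congrFun e j))).trans
      (h4 y).symm)
    simpa using this

end CfsgAE
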