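/-
Alternating sections of `E₆`, `E₇`, `E₈`: reduction to finite facts, elements of order `3`.
-/
import Cfsg.Agent.AE.Tor

set_option autoImplicit false
set_option linter.unusedSectionVars false

namespace CfsgAE

open CfsgH8 CfsgH8.Chev Matrix CfsgH7

theorem fixd_le_pow {ι F : Type*} [Fintype ι] [DecidableEq ι] [Field F] (x : GL ι F) (k : ℕ) :
    fixd x ≤ fixd (x ^ k) := Submodule.finrank_mono fun v hv => by
  rw [Module.End.mem_eigenspace_iff, one_smul, toLin'_apply] at hv ⊢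
  induction k with
  | zero => simp
  | succ k ih => rw [pow_succ, Units.val_mul, ← mulVec_mulVec, hv, ih]

variable {ι R l F : Type*} [Fintype ι] [DecidableEq ι] [Fintype l] [DecidableEq l] [Field F]
  (C : Chev ι R l F)

/-- families of vectors permuted by the Weyl group -/
def WInv {X : Type*} (v : X → l → ℤ) : Prop :=
  ∀ L, ∃ σ : Equiv.Perm X, ∀ x, v (σ x) = C.wl L (v x)

theorem winv_rt : WInv C C.rt := fun L => ⟨wp C L, rt_wr C L⟩

theorem winv_of {X : Type*} [Finite X] {v : X → l → ℤ} (hv : Function.Injective v)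
    (h : ∀ i x, ∃ y, v y = C.sr i (v x)) : WInv C v := fun L => by
  induction L with
  | nil => exact ⟨1, fun _ => rfl⟩
  | cons i L ih =>
    obtain ⟨σ, hσ⟩ := ih
    choose f hf using h i
    refine ⟨Equiv.ofBijective f (Finite.injective_iff_bijective.1 fun x y e => hv ?_) * σ,
      fun x => (hf _).trans (congrArg (C.sr i) (hσ x))⟩
    rw [← C.sr_sr i (v x), ← hf, e, hf, C.sr_sr]

/-- weighted counts -/
def cnt {X : Type*} [Fintype X] (v : X → l → ℤ) (s : ℕ) (g : (l → ℤ) →+ ℤ) (Φ : ZMod s → ℕ) : ℕ :=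
  ∑ x, Φ (g (v x))

/-- congruent functionals -/
def Cg (s : ℕ) (g g' : (l → ℤ) →+ ℤ) : Prop := ∀ u, (g u : ZMod s) = g' u

/-- indicator -/
def ind {s : ℕ} (k : ZMod s) : ZMod s → ℕ := fun a => if a = k then 1 else 0

/-- rationality -/
def Rt {s : ℕ} (k : ℕ) (c : (ZMod s → ℕ) → ℕ) : Prop := ∀ Φ, c Φ = c fun a => Φ (k * a)

/-- data for an invariant subspace -/
def Good (g : (l → ℤ) →+ ℤ) (T : Set R) : Prop :=
  ∃ Λ : Set ((l → ℤ) →+ ℤ), Λ.Finite ∧ Λ.ncard ≤ 3 ∧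
    (∀ f ∈ Λ, ∀ L, Cg 3 (g.comp (C.wl L)) g → f.comp (C.wl L) ∈ Λ) ∧
    (∀ f ∈ Λ, ∀ r, (g (C.rt r) : ZMod 3) = 0 → f (C.rt r) = 0) ∧
    ∃ f ∈ Λ, ∀ r' ∈ T, f (C.rt r') ≠ 0 ∧ ∀ r, f (C.rt r) = f (C.rt r') → r ∈ T

variable {C}

theorem cg_of {s : ℕ} {g g' : (l → ℤ) →+ ℤ}
    (h : ∀ j, (g (Pi.single j 1) : ZMod s) = g' (Pi.single j 1)) : Cg s g g' := fun u => by
  rw [hom_eq g, hom_eq g']; push_cast; simp only [h]

theorem Cg.pw {c : Fˣ} {s : ℕ} (hc : orderOf c = s) {g g' : (l → ℤ) →+ ℤ} (h : Cg s g g') :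
    (pw c g : Ch l F) = pw c g' := pw_congr hc fun _ => h _

theorem cg_of_pw {c : Fˣ} {s : ℕ} (hc : orderOf c = s) {g g' : (l → ℤ) →+ ℤ}
    (h : (pw c g : Ch l F) = pw c g') : Cg s g g' := fun u =>
  (cv_pw_eq hc).1 (congrArg (cv · u) h)

theorem hh_pw_zero (c : Fˣ) : C.hh (pw c 0) = 1 := by
  rw [show (pw c 0 : Ch l F) = 1 from ch_ext fun j => by rw [cv_pw, cv_one]; simp, _root_.map_one]

section
variable {X : Type*} [Fintype X] {v : X → l → ℤ} {s : ℕ}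

theorem WInv.cnt (hv : WInv C v) {g g' : (l → ℤ) →+ ℤ} {L : List l}
    (h : Cg s (g.comp (C.wl L)) g') : cnt v s g = cnt v s g' := funext fun Φ => by
  obtain ⟨σ, hσ⟩ := hv L
  rw [CfsgAE.cnt, ← Equiv.sum_comp σ]
  exact Finset.sum_congr rfl fun x _ => by rw [hσ, ← h]; rfl

theorem cnt_ind (g : (l → ℤ) →+ ℤ) (k : ZMod s) :
    cnt v s g (ind k) = {x | (g (v x) : ZMod s) = k}.ncard := by
  rw [Set.ncard_eq_toFinset_card', Set.toFinset_ofPred, Finset.card_filter]; rfl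

theorem WInv.rt (hv : WInv C v) {g : (l → ℤ) →+ ℤ} {L : List l} {k : ℕ}
    (h : Cg s ((k • g).comp (C.wl L)) g) : Rt k (CfsgAE.cnt v s g) := fun Φ => by
  conv_lhs => rw [← hv.cnt h]
  simp [CfsgAE.cnt]

end

variable {θ : R} (hS : SL C θ) [Fintype R]

section
include hS

theorem SL.kf {X : Type*} [Fintype X] {v : X → l → ℤ} {s : ℕ} (hs : 0 < s) (hv : WInv C v)
    {Q : ((ZMod s → ℕ) → ℕ) → Prop} (h : ∀ g : (l → ℤ) →+ ℤ, (∀ i, 0 ≤ g (Pi.single i 1)) →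
      g (C.rt θ) ≤ s → (∀ i, (g (Pi.single i 1) : ZMod s) = 0) ∨ Q (cnt v s g))
    (g : (l → ℤ) →+ ℤ) : Cg s g 0 ∨ Q (cnt v s g) := by
  obtain ⟨L, g', h1, h2, h3⟩ := hS.alcove hs g
  have h4 : Cg s (g.comp (C.wl L)) g' := fun u =>
    ((ZMod.intCast_eq_intCast_iff_dvd_sub _ _ _).2 (h1 _)).symm
  refine (h g' h2 h3).imp (fun h u => ?_) fun h => hv.cnt h4 ▸ h
  rw [← wl_rev' C L u]
  exact (h4 _).trans (cg_of (g' := 0) (by simpa using h) _)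

theorem SL.bf_comp (L : List l) (a : R) :
    (bf C (C.rt (C.wr L a))).comp (C.wl L) = bf C (C.rt a) :=
  AddMonoidHom.ext fun u => by rw [AddMonoidHom.comp_apply, rt_wr, hS.bf_wl]

theorem SL.kr {s : ℕ} (hs : 0 < s) {d : ℕ} (h : ∀ g : (l → ℤ) →+ ℤ, (∀ i, 0 ≤ g (Pi.single i 1)) →
      g (C.rt θ) ≤ s → cnt C.rt s g (ind 0) = d →
        ∃ a, ∀ i, (g (Pi.single i 1) : ZMod s) = C.A i (C.rt a))
    (g : (l → ℤ) →+ ℤ) (hg : cnt C.rt s g (ind 0) = d) : ∃ a, Cg s g (bf C (C.rt a)) := by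
  obtain ⟨L, g', h1, h2, h3⟩ := hS.alcove hs g
  have h4 : Cg s (g.comp (C.wl L)) g' := fun u =>
    ((ZMod.intCast_eq_intCast_iff_dvd_sub _ _ _).2 (h1 _)).symm
  obtain ⟨a, ha⟩ := h g' h2 h3 ((winv_rt C).cnt h4 ▸ hg)
  refine ⟨C.wr L a, fun u => ?_⟩
  rw [← wl_rev' C L u]
  exact (h4 _).trans ((cg_of (fun i => by rw [ha, hS.A_eq]) _).trans
    (congrArg _ (DFunLike.congr_fun (hS.bf_comp L a) _).symm))

theorem SL.fixd_pw {c : Fˣ} {s : ℕ} (hc : orderOf c = s) (g : (l → ℤ) →+ ℤ) :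
    fixd (C.hh (pw c g)) = Fintype.card l + cnt C.rt s g (ind 0) := by
  simp only [hS.fixd_hh, cnt_ind, cv_pw_one hc]

theorem SL.nw_bf (hE : C.Extra) (c : Fˣ) (L : List l) (a : R) :
    C.nw L * C.hh (pw c (bf C (C.rt a))) * (C.nw L)⁻¹ = C.hh (pw c (bf C (C.rt (C.wr L a)))) := by
  rw [mul_inv_eq_iff_eq_mul, ← (NW.nw L).mul_hh hE, chm_pw, hS.bf_comp]

theorem SL.good8 (hθ : ∀ i, 2 ≤ C.rt θ i) {g : (l → ℤ) →+ ℤ} (hb : ∀ r, |g (C.rt r)| ≤ 2)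
    {T : Set R} (hT : ∀ r, r ∈ T ↔ Odd (g (C.rt r))) : Good C g T := by
  refine ⟨{g}, Set.toFinite _, by simp, ?_, ?_, g, rfl, fun r h => ⟨fun e => ?_, fun r' e => ?_⟩⟩
  · intro f hf L h
    obtain rfl : g = f := hf.symm
    obtain ⟨M, h1⟩ := dominant C (g.comp (C.wl L) - g)
    have h2 := hom_eq ((g.comp (C.wl L) - g).comp (C.wl M)) (C.rt θ)
    have h3 := abs_le.1 (hb (C.wr M θ))
    have h4 := abs_le.1 (hb (C.wr L (C.wr M θ)))
    have h5 : (g.comp (C.wl L) - g).comp (C.wl M) = 0 := hom_ext fun j => by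
      have b1 := Finset.single_le_sum (f := fun j => C.rt θ j *
        ((g.comp (C.wl L) - g).comp (C.wl M)) (Pi.single j 1))
        (fun j _ => mul_nonneg (by linarith [hθ j]) (h1 j)) (Finset.mem_univ j)
      rw [← h2] at b1
      obtain ⟨k, b2⟩ := (ZMod.intCast_eq_intCast_iff_dvd_sub _ _ _).1
        (h (C.wl M (Pi.single j 1))).symm
      have b3 := h1 j
      have b4 := hθ j
      simp only [AddMonoidHom.comp_apply, AddMonoidHom.sub_apply, ← rt_wr, AddMonoidHom.zero_apply,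
        Nat.cast_ofNat] at b1 b2 b3 ⊢
      rw [b2] at b1 b3 ⊢
      have := mul_le_mul_of_nonneg_right b4 b3
      omega
    refine sub_eq_zero.1 (AddMonoidHom.ext fun u => ?_)
    rw [← wl_rev' C M u]
    exact DFunLike.congr_fun h5 _
  · intro f hf r h
    obtain rfl : g = f := hf.symm
    have := (ZMod.intCast_zmod_eq_zero_iff_dvd _ _).1 h
    have := abs_le.1 (hb r)
    omega
  · rw [hT, e] at h
    exact absurd h (by decide)
  · rwa [hT, e, ← hT]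

theorem SL.good6 {X : Type*} [Finite X] {u : X → l → ℤ} (hu : WInv C u) {g : (l → ℤ) →+ ℤ}
    (h3 : {a | ∀ r, (g (C.rt r) : ZMod 3) = 0 → bf C (u a) (C.rt r) = 0}.ncard ≤ 3) {a : X}
    (ha : ∀ r, (g (C.rt r) : ZMod 3) = 0 → bf C (u a) (C.rt r) = 0) :
    Good C g {r | bf C (u a) (C.rt r) = 3} := by
  refine ⟨_, (Set.toFinite _).image fun a => bf C (u a), (Set.ncard_image_le).trans h3, ?_, ?_, _,
    ⟨a, ha, rfl⟩, fun r h => ⟨fun e => absurd (e.symm.trans h) (by decide), fun r' e => e.trans h⟩⟩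
  · rintro _ ⟨b, hb, rfl⟩ L h
    obtain ⟨σ, hσ⟩ := hu L.reverse
    have e : bf C (u (σ b)) = (bf C (u b)).comp (C.wl L) := AddMonoidHom.ext fun w => by
      rw [hσ, ← hS.bf_wl L, wl_rev']; rfl
    refine ⟨σ b, fun r hr => ?_, e⟩
    rw [e, AddMonoidHom.comp_apply, ← rt_wr]
    exact hb _ (by rw [rt_wr]; exact (h _).trans hr)
  · rintro _ ⟨b, hb, rfl⟩
    exact hb

end

variable (hE : C.Extra) (hF : LF ι F) [IsAlgClosed F]
include hE

theorem fus {c : Fˣ} {s : ℕ} (hc : orderOf c = s) {x : GL ι F} (hx : x ∈ GG C) :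
    ∃ L, ∀ g g', x * C.hh (pw c g) * x⁻¹ = C.hh (pw c g') → Cg s (g'.comp (C.wl L)) g := by
  obtain ⟨L, hL⟩ := bru_of hE hx
  exact ⟨L, fun g g' h => cg_of_pw hc (fusion hE hL h).symm⟩

include hS

theorem Good.inv {c : Fˣ} (hc : orderOf c = 3) (h3 : (3 : F) ≠ 0) {g : (l → ℤ) →+ ℤ} {T : Set R}
    (h : Good C g T) {x : GL ι F} (hx : x ∈ GG C) (h1 : x * C.hh (pw c g) = C.hh (pw c g) * x)
    {v : ι → F} (hv : v ∈ Sp F (C.e '' T)) :
    ((x ^ 6 : GL ι F) : Matrix ι ι F) *ᵥ v ∈ Sp F (C.e '' T) := by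
  obtain ⟨Λ, a1, a2, a3, a4, f, a5, a6⟩ := h
  refine Sp_inv (fun i j hij => ?_) hv
  rintro ⟨r', hr, rfl⟩
  have := inv_of hS hE (χ := pw c g) a1 a2 (fun f hf L h => a3 f hf L (cg_of_pw hc h))
    (fun f hf r h => a4 f hf r ((cv_pw_one hc).1 h)) h3 hx h1 a5 hij
  rcases hS.idx i with ⟨i, rfl⟩ | ⟨r, rfl⟩
  · rw [C.wt_hb, C.wt_e, map_zero] at this
    exact absurd this.symm (a6 r' hr).1
  · rw [C.wt_e, C.wt_e] at this
    exact ⟨r, (a6 r' hr).2 r this, rfl⟩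

include hF

theorem toral0 {s : ℕ} [Fact s.Prime] (hs : (s : F) ≠ 0) (hs2 : s ≠ 2) (hFR : FR C s) {c : Fˣ}
    (hc : orderOf c = s) {x : GL ι F} (hx : x ∈ GG C) (h1 : x ^ s = 1) :
    ∃ y ∈ GG C, ∃ g, y * x * y⁻¹ = C.hh (pw c g) := by
  obtain ⟨y, hy, χ, e⟩ := toral hE hF hs hS hs2 hFR (S := ∅) (by simp)
    (mem_CS_empty.2 hx) h1
  obtain ⟨g, rfl⟩ := exists_pw (C := C) hc (χ := χ) (by rw [← e, conj_pow, h1]; group)
  exact ⟨y, hy.1, g, e⟩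

variable (h3 : ((3 : ℕ) : F) ≠ 0) (hQ : Qp C (fun m => m ≠ 0 ∧ (3 = 3 ∨ m.Coprime 3)) 2 [])
include h3 hQ

theorem fixd_mem {P : ℕ → Prop}
    (hK : ∀ g, Cg 3 g 0 ∨ P (Fintype.card l + cnt C.rt 3 g (ind 0))) {x : GL ι F} (hx : x ∈ GG C)
    (h1 : x ^ 3 = 1) (h2 : x ≠ 1) : P (fixd x) := by
  have : Fact (Nat.Prime 3) := ⟨Nat.prime_three⟩
  obtain ⟨c, hc⟩ := exists_prim F h3
  obtain ⟨y, -, g, e⟩ := toral0 hS hE hF h3 (by decide) (FR_of hS hE (.inl rfl) hQ) hc hx h1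
  rcases hK g with h | h
  · rw [h.pw hc, hh_pw_zero] at e
    exact absurd (by simpa using e) h2
  · rwa [← fixd_conj y, e, hS.fixd_pw hc]

theorem pair_form {c : Fˣ} (hc : orderOf c = 3) {d : ℕ}
    (hK : ∀ g, cnt C.rt 3 g (ind 0) = d → ∃ a, Cg 3 g (bf C (C.rt a))) {x x' : GL ι F}
    (hx : x ∈ GG C) (hx' : x' ∈ GG C) (h : x' * x = x * x') (h1 : x ^ 3 = 1) (h1' : x' ^ 3 = 1)
    (h2 : fixd x = Fintype.card l + d) (h2' : fixd x' = Fintype.card l + d) :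
    ∃ m ∈ GG C, ∃ b, (∀ i, C.A i (C.rt θ) = 0 → 0 ≤ C.A i (C.rt b)) ∧
      m * x * m⁻¹ = C.hh (pw c (bf C (C.rt θ))) ∧ m * x' * m⁻¹ = C.hh (pw c (bf C (C.rt b))) := by
  have : Fact (Nat.Prime 3) := ⟨Nat.prime_three⟩
  have hFR := FR_of hS hE (.inl rfl) hQ
  obtain ⟨y, hy, g, e⟩ := toral0 hS hE hF h3 (by decide) hFR hc hx h1
  obtain ⟨a, ha⟩ := hK g (by rw [← fixd_conj y, e, hS.fixd_pw hc] at h2; omega)
  obtain ⟨y', hy', e1, χ, e2⟩ := toral_pair hS hE hF h3 h3 hFR (fun _ h => h.1) hQ hc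
    (x := y * x' * y⁻¹) (mul_mem (mul_mem hy hx') (inv_mem hy)) (by rw [conj_pow, h1']; group) a
    (by rw [← ha.pw hc, ← e, conj_mul, conj_mul, h])
  obtain ⟨g', rfl⟩ := exists_pw (C := C) hc (χ := χ) (by rw [← e2, conj_pow, conj_pow, h1']; group)
  obtain ⟨b, hb⟩ := hK g' (by
    rw [← fixd_conj y, ← fixd_conj y', e2, hS.fixd_pw hc] at h2'; omega)
  obtain ⟨L, hL⟩ := hS.trans a
  obtain ⟨M, h4, h5⟩ := descent C (fun i => C.A i (C.rt θ) = 0) (C.wr L b)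
  refine ⟨C.nw M * (C.nw L * (y' * y)), mul_mem (nw_mem_GG C _) (mul_mem (nw_mem_GG C _)
    (mul_mem hy' hy)), _, h5, ?_, ?_⟩
  · have : C.wr M θ = θ := C.rt_inj (by rw [rt_wr, wl_fix C h4])
    rw [← this, ← hS.nw_bf hE, ← hL, ← hS.nw_bf hE, ← e1, ← ha.pw hc, ← e]
    group
  · rw [← hS.nw_bf hE, ← hS.nw_bf hE, ← hb.pw hc, ← e2]
    group

theorem spinSub {d d' D : ℕ}
    (hK : ∀ g, cnt C.rt 3 g (ind 0) = d → ∃ a, Cg 3 g (bf C (C.rt a)))
    (hP : ∀ b, (∀ i, C.A i (C.rt θ) = 0 → 0 ≤ C.A i (C.rt b)) →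
      cnt C.rt 3 (bf C (C.rt θ) + bf C (C.rt b)) (ind 0) = d' →
      cnt C.rt 3 (bf C (C.rt b) - bf C (C.rt θ)) (ind 0) = d' →
      ∃ T : Set R, T.ncard ≠ 0 ∧ T.ncard ≤ D ∧ Good C (bf C (C.rt θ) + bf C (C.rt b)) T ∧
        Good C (bf C (C.rt b) - bf C (C.rt θ)) T)
    {H : Type*} [Group H] (ρ : H →* GL ι F) (hG : ∀ h, ρ h ∈ GG C) (y z : H) (h : y * z = z * y)
    (hy : y ^ 3 = 1) (hz : z ^ 3 = 1) (a1 : fixd (ρ y) = Fintype.card l + d')
    (a2 : fixd (ρ z) = Fintype.card l + d') (a3 : fixd (ρ (y * z)) = Fintype.card l + d)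
    (a4 : fixd (ρ (y * z ^ 2)) = Fintype.card l + d) : SpinSub ρ y z D := by
  obtain ⟨c, hc⟩ := exists_prim F h3
  have h' : Commute y z := h
  have b0 : y * z * (y * z ^ 2) = y ^ 2 := by
    rw [h'.symm.mul_mul_mul_comm, ← pow_succ', hz, mul_one, sq]
  obtain ⟨m, hm, b, b1, b2, b3⟩ := pair_form hS hE hF h3 hQ hc hK (hG (y * z)) (hG (y * z ^ 2))
    (by rw [← _root_.map_mul, ← _root_.map_mul, b0, (h'.symm.pow_left 2).mul_mul_mul_comm,
      ← pow_succ, hz, mul_one, sq])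
    (by rw [← _root_.map_pow, h'.mul_pow, hy, hz, mul_one, _root_.map_one])
    (by rw [← _root_.map_pow, (h'.pow_right 2).mul_pow, hy, ← pow_mul, mul_comm, pow_mul, hz,
      one_pow, mul_one, _root_.map_one]) a3 a4
  have b4 : m * ρ y ^ 2 * m⁻¹ = C.hh (pw c (bf C (C.rt θ) + bf C (C.rt b))) := by
    rw [pw_add, _root_.map_mul, ← b2, ← b3, conj_mul, ← _root_.map_mul, b0, _root_.map_pow]
  have b5 : m * ρ z * m⁻¹ = C.hh (pw c (bf C (C.rt b) - bf C (C.rt θ))) :=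
    mul_left_cancel (a := C.hh (pw c (bf C (C.rt θ)))) (by
      rw [← _root_.map_mul, ← pw_add, add_sub_cancel, ← b2, ← b3, conj_mul, ← _root_.map_mul,
        mul_assoc y, sq])
  have b6 : (ρ y ^ 2) ^ 2 = ρ y := by
    rw [← pow_mul, pow_succ, ← _root_.map_pow, hy, _root_.map_one, one_mul]
  obtain ⟨T, d1, d2, d3, d4⟩ := hP b b1 (by
    have := fixd_le_pow (ρ y) 2
    have := fixd_le_pow (ρ y ^ 2) 2
    have := fixd_conj m (ρ y ^ 2)
    rw [b4, hS.fixd_pw hc] at this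
    rw [b6] at *
    omega) (by rw [← fixd_conj m, b5, hS.fixd_pw hc] at a2; omega)
  have hi : Function.Injective (toLin' (m : Matrix ι ι F)) :=
    (GeneralLinearGroup.toLin m).toLinearEquiv.injective
  have key : ∀ (x : GL ι F) v, (m : Matrix ι ι F) *ᵥ ((x : Matrix ι ι F) *ᵥ v) =
      ((m * x * m⁻¹ : GL ι F) : Matrix ι ι F) *ᵥ ((m : Matrix ι ι F) *ᵥ v) := fun x v => by
    rw [mulVec_mulVec, mulVec_mulVec, ← Units.val_mul, ← Units.val_mul, inv_mul_cancel_right]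
  refine ⟨(Sp F (C.e '' T)).comap (toLin' (m : Matrix ι ι F)), fun e => ?_, ?_, fun x hx v hv => ?_,
    fun v hv => hi ?_⟩
  · obtain ⟨r, hr⟩ := Set.nonempty_of_ncard_ne_zero d1
    have e1 : (m : Matrix ι ι F) *ᵥ (((m⁻¹ : GL ι F) : Matrix ι ι F) *ᵥ Pi.single (C.e r) 1) =
        Pi.single (C.e r) 1 := by rw [mulVec_mulVec, Units.mul_inv, one_mulVec]
    rw [(Submodule.eq_bot_iff _).1 e (((m⁻¹ : GL ι F) : Matrix ι ι F) *ᵥ Pi.single (C.e r) 1) (by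
      rw [Submodule.mem_comap, toLin'_apply, e1]
      exact fun k hk => Pi.single_eq_of_ne (fun e => hk ⟨r, hr, e.symm⟩) _), mulVec_zero] at e1
    simpa using congrFun e1 (C.e r)
  · exact (finrank_le_of_maps _ hi fun v hv => hv).trans (by
      rwa [finrank_Sp, Set.ncard_image_of_injective _ (e_inj (C := C))])
  · rw [Submodule.mem_comap, toLin'_apply] at hv ⊢
    rw [key, _root_.map_pow, ← conj_pow]
    have hx' := mul_mem (mul_mem hm (hG x)) (inv_mem hm)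
    rcases hx with hx | hx
    · exact d3.inv hS hE hc (by exact_mod_cast h3) hx' (by
        rw [← b4, conj_mul, conj_mul, ← _root_.map_pow, ← _root_.map_mul, ← _root_.map_mul,
          (Commute.pow_right hx 2).eq]) hv
    · exact d4.inv hS hE hc (by exact_mod_cast h3) hx' (by
        rw [← b5, conj_mul, conj_mul, ← _root_.map_mul, ← _root_.map_mul, hx]) hv
  · rw [Submodule.mem_comap, toLin'_apply] at hv
    rw [map_zero, toLin'_apply, mulVec_add, mulVec_add, mulVec_mulVec v, ← Units.val_mul, ← sq, key,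
      b4, ← b6, key, ← conj_pow, b4, ← hh_pow, hh_val, hh_val]
    funext k
    simp only [Pi.add_apply, mulVec_diagonal, cv_pow, Pi.zero_apply]
    by_cases hk : k ∈ C.e '' T
    · obtain ⟨r, hr, rfl⟩ := hk
      obtain ⟨Λ, -, -, -, e1, f, e2, e3⟩ := d3
      have e4 := mt (cv_pw_one (F := F) hc).1 (mt (e1 f e2 r) (e3 r hr).1)
      have e5 : cv (pw c (bf C (C.rt θ) + bf C (C.rt b)) : Ch l F) (C.rt r) ^ 3 = 1 := by
        rw [← cv_pow, pw_pow (hc ▸ pow_orderOf_eq_one c), cv_one]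
      rw [C.wt_e]
      refine mul_left_cancel₀ (sub_ne_zero.2 e4) ?_
      linear_combination ((m : Matrix ι ι F) *ᵥ v) (C.e r) * e5
    · rw [hv k hk]; simp

end CfsgAE
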