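/-
Alternating sections of `E₆`, `E₇`, `E₈`: reduction to finite facts, elements of order `≥ 5`.
-/
import Cfsg.Agent.AE.Fin

set_option autoImplicit false
set_option linter.unusedSectionVars false

namespace CfsgAE

open CfsgH8 CfsgH8.Chev Matrix CfsgH7

section count
variable {X Y : Type*} [Finite X]

theorem ncard_inv (σ : Equiv.Perm X) {p : X → Prop} (hp : ∀ x, p (σ x) ↔ p x) {ψ : X → Y}
    {f : Y → Y} (hf : Function.Injective f) (h : ∀ x, ψ x = f (ψ (σ x))) (y : Y) :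
    {x | p x ∧ ψ x = f y}.ncard = {x | p x ∧ ψ x = y}.ncard := by
  rw [← Set.ncard_preimage_of_injective_subset_range (s := {x | p x ∧ ψ x = y}) σ.injective
    (by simp)]
  exact congrArg _ (Set.ext fun x => by
    rw [Set.mem_ofPred_eq, h x, hf.eq_iff, ← hp]; rfl)

theorem ncard_fib [Fintype Y] (p : X → Prop) (ψ : X → Y) (q : Y → Prop) [DecidablePred q] :
    {x | p x ∧ q (ψ x)}.ncard = ∑ y, if q y then {x | p x ∧ ψ x = y}.ncard else 0 := by
  classical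
  have := Fintype.ofFinite X
  simp only [Set.ncard_eq_toFinset_card', Set.toFinset_ofPred]
  rw [Finset.card_eq_sum_card_fiberwise (t := Finset.univ) (f := ψ) (by simp)]
  refine Finset.sum_congr rfl fun y _ => ?_
  split_ifs with h
  · exact congrArg _ (by ext x; simp; aesop)
  · rw [Finset.card_eq_zero]; ext x; simp; aesop

/-- orbit representatives -/
def rep7 (y : ZMod 7 × ZMod 7) : ZMod 7 × ZMod 7 :=
  if y = 0 then 0 else if y.1 * y.2 = 0 then (1, 0) else (1, 1)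

theorem orb7 (n : ZMod 7 × ZMod 7 → ℕ) (h1 : ∀ y, n (2 * y.1, y.2) = n y)
    (h2 : ∀ y, n (3 * y.1, 3 * y.2) = n y) (h3 : ∀ y, n (3 * y.2, y.1) = n y) :
    ∑ y, n y = n 0 + 12 * n (1, 0) + 36 * n (1, 1) ∧
    (∑ y, if y.1 = 0 then n y else 0) = n 0 + 6 * n (1, 0) ∧
    (∑ y, if y.1 + y.2 = 0 then n y else 0) = n 0 + 6 * n (1, 1) := by
  have a1 : ∀ (f : ZMod 7 × ZMod 7 → ZMod 7 × ZMod 7), (∀ y, n (f y) = n y) → ∀ k y,
      n (f^[k] y) = n y := fun f h k y => by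
    induction k with
    | zero => rfl
    | succ k ih => rw [Function.iterate_succ_apply', h, ih]
  have a2 : ∀ y, n y = n (rep7 y) := fun y => by
    obtain ⟨i, -, j, -, k, -, e⟩ : ∃ i < 3, ∃ j < 6, ∃ k < 2,
        y = (fun y : ZMod 7 × ZMod 7 => (2 * y.1, y.2))^[i]
          ((fun y : ZMod 7 × ZMod 7 => (3 * y.1, 3 * y.2))^[j]
            ((fun y : ZMod 7 × ZMod 7 => (3 * y.2, y.1))^[k] (rep7 y))) := by
      revert y; decide +kernel
    conv_lhs => rw [e, a1 _ h1, a1 _ h2, a1 _ h3]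
  have a3 : ∀ (q : ZMod 7 × ZMod 7 → Prop) [DecidablePred q], (∑ y, if q y then n y else 0) =
      (Finset.univ.filter fun y => q y ∧ rep7 y = 0).card * n 0 +
      (Finset.univ.filter fun y => q y ∧ rep7 y = (1, 0)).card * n (1, 0) +
      (Finset.univ.filter fun y => q y ∧ rep7 y = (1, 1)).card * n (1, 1) := fun q _ => by
    simp only [Finset.card_filter, Finset.sum_mul, ← Finset.sum_add_distrib]
    refine Finset.sum_congr rfl fun y _ => ?_
    rw [a2 y]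
    have : rep7 y = 0 ∨ rep7 y = (1, 0) ∨ rep7 y = (1, 1) := by unfold rep7; split_ifs <;> simp
    have b1 : (0 : ZMod 7 × ZMod 7) ≠ (1, 0) := by decide
    have b2 : (0 : ZMod 7 × ZMod 7) ≠ (1, 1) := by decide
    have b3 : ((1, 0) : ZMod 7 × ZMod 7) ≠ (1, 1) := by decide
    by_cases h : q y
    · rcases this with e | e | e <;>
        simp only [e, h, b1, b2, b3, b1.symm, b2.symm, b3.symm, true_and, if_true, if_false] <;> ring
    · simp [h]
  refine ⟨?_, ?_, ?_⟩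
  · have := a3 fun _ => True
    rw [show Finset.card _ = 1 by decide +kernel, show Finset.card _ = 12 by decide +kernel,
      show Finset.card _ = 36 by decide +kernel] at this
    simpa using this
  · rw [a3, show Finset.card _ = 1 by decide +kernel, show Finset.card _ = 6 by decide +kernel,
      show Finset.card _ = 0 by decide +kernel]
    ring
  · rw [a3, show Finset.card _ = 1 by decide +kernel, show Finset.card _ = 0 by decide +kernel,
      show Finset.card _ = 6 by decide +kernel]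
    ring

theorem inj7 : (Function.Injective fun y : ZMod 7 × ZMod 7 => (2 * y.1, y.2)) ∧
    (Function.Injective fun y : ZMod 7 × ZMod 7 => (3 * y.1, 3 * y.2)) ∧
    Function.Injective fun y : ZMod 7 × ZMod 7 => (3 * y.2, y.1) := by decide +kernel

/-- dot product -/
def dt5 (a y : ZMod 5 × ZMod 5 × ZMod 5) : ZMod 5 := a.1 * y.1 + a.2.1 * y.2.1 + a.2.2 * y.2.2

theorem dbl5 (hX : Nat.card X = 126) (ψ : X → ZMod 5 × ZMod 5 × ZMod 5)
    (h : ∀ a ≠ 0, ∀ k, {x | dt5 a (ψ x) = k}.ncard = if k = 0 then 26 else 25)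
    (y : ZMod 5 × ZMod 5 × ZMod 5) : {x | ψ x = y}.ncard = if y = 0 then 2 else 1 := by
  have := Fintype.ofFinite X
  have a1 : ∑ a, {x | dt5 a (ψ x) = dt5 a y}.ncard =
      ∑ a, if a = 0 then 126 else if dt5 a y = 0 then 26 else 25 :=
    Finset.sum_congr rfl fun a _ => by
      by_cases h1 : a = 0
      · simp [h1, ← hX, dt5]
      · rw [if_neg h1, h a h1]
  have a2 : ∀ y y', (∑ a, if dt5 a y' = dt5 a y then 1 else 0) =
      25 + 100 * if y' = y then 1 else 0 := fun y y' => by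
    have : ∀ y, (∑ a, if dt5 a y = 0 then 1 else 0) = 25 + 100 * if y = 0 then 1 else 0 := by
      decide +kernel
    simp only [← sub_eq_zero (a := y'), ← this]
    exact Finset.sum_congr rfl fun a _ => if_congr (by
      rw [← sub_eq_zero, show dt5 a y' - dt5 a y = dt5 a (y' - y) by simp [dt5]; ring]) rfl rfl
  have a3 : ∀ y, (∑ a, if a = 0 then 126 else if dt5 a y = 0 then 26 else 25) =
      25 * 126 + 100 * if y = 0 then 2 else 1 := by decide +kernel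
  simp only [Set.ncard_eq_toFinset_card', Set.toFinset_ofPred, Finset.card_filter] at a1 ⊢
  rw [Finset.sum_comm, a3, Finset.sum_congr rfl fun x _ => a2 y (ψ x), Finset.sum_add_distrib,
    ← Finset.mul_sum, Finset.sum_const, Finset.card_univ, ← Nat.card_eq_fintype_card, hX] at a1
  simp only [smul_eq_mul] at a1
  omega

end count

variable {ι R l F : Type*} [Fintype ι] [DecidableEq ι] [Fintype l] [DecidableEq l] [Field F]
  {C : Chev ι R l F} {θ : R} (hS : SL C θ) [Fintype R] (hE : C.Extra) (hF : LF ι F)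
  [IsAlgClosed F] {H : Type*} [Group H] (ρ : H →* GL ι F) (hρ : Function.Injective ρ)
  (hG : ∀ h, ρ h ∈ GG C)
include hS hE hF hG

theorem tor_list {s : ℕ} [Fact s.Prime] (hs : (s : F) ≠ 0) (hs2 : s ≠ 2) (hs3 : s ≠ 3)
    (hFR : FR C s) {c : Fˣ} (hc : orderOf c = s) (xs : List H) (h1 : xs.Pairwise Commute)
    (h2 : ∀ x ∈ xs, x ^ s = 1) :
    ∃ m ∈ GG C, ∀ x ∈ xs, ∃ g, m * ρ x * m⁻¹ = C.hh (pw c g) := by
  induction xs with
  | nil => exact ⟨1, one_mem _, by simp⟩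
  | cons x xs ih =>
    obtain ⟨m, hm, h3⟩ := ih h1.of_cons fun y hy => h2 y (List.mem_cons_of_mem _ hy)
    have h4 : (m * ρ x * m⁻¹) ^ s = 1 := by
      rw [conj_pow, ← _root_.map_pow, h2 x List.mem_cons_self, _root_.map_one]; group
    obtain ⟨y, hy, χ, e⟩ := toral hE hF hs hS hs2 hFR (S := {χ | ∃ z ∈ xs, m * ρ z * m⁻¹ = C.hh χ})
      (fun e => absurd e hs3) (x := m * ρ x * m⁻¹) (mem_CS.2
        ⟨mul_mem (mul_mem hm (hG x)) (inv_mem hm), by
          rintro χ ⟨z, hz, e⟩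
          rw [← e, conj_mul, conj_mul, ← _root_.map_mul, ← _root_.map_mul,
            (List.rel_of_pairwise_cons h1 hz).eq]⟩) h4
    obtain ⟨g, rfl⟩ := exists_pw (C := C) hc (χ := χ) (by rw [← e, conj_pow, h4]; group)
    refine ⟨y * m, mul_mem hy.1 hm, List.forall_mem_cons.2 ⟨⟨g, by rw [← e]; group⟩, fun z hz => ?_⟩⟩
    obtain ⟨g', e'⟩ := h3 z hz
    exact ⟨g', by
      rw [← mul_inv_eq_iff_eq_mul.2 ((mem_CS.1 hy).2 _ ⟨z, hz, e'⟩).symm, ← e']; group⟩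

omit hS hF in
theorem fus' {s : ℕ} {c : Fˣ} (hc : orderOf c = s) {m : GL ι F} (hm : m ∈ GG C) (h : H) :
    ∃ L, ∀ x x' g g', h * x * h⁻¹ = x' → m * ρ x * m⁻¹ = C.hh (pw c g) →
      m * ρ x' * m⁻¹ = C.hh (pw c g') → Cg s (g'.comp (C.wl L)) g := by
  obtain ⟨L, hL⟩ := fus hE hc (mul_mem (mul_mem hm (hG h)) (inv_mem hm))
  exact ⟨L, fun x x' g g' e1 e2 e3 => hL _ _ (by
    rw [← e2, ← e3, ← e1, _root_.map_mul, _root_.map_mul, _root_.map_inv]; group)⟩

omit hS hE hF hG in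
theorem conj_pw_pow {c : Fˣ} {m : GL ι F} {x : H} {g : (l → ℤ) →+ ℤ}
    (h : m * ρ x * m⁻¹ = C.hh (pw c g)) (k : ℕ) : m * ρ (x ^ k) * m⁻¹ = C.hh (pw c (k • g)) := by
  rw [_root_.map_pow, ← conj_pow, h, pw_nsmul, hh_pow]

omit hS hE hF hG in
theorem conj_pw_mul {c : Fˣ} {m : GL ι F} {x y : H} {g g' : (l → ℤ) →+ ℤ}
    (h : m * ρ x * m⁻¹ = C.hh (pw c g)) (h' : m * ρ y * m⁻¹ = C.hh (pw c g')) :
    m * ρ (x * y) * m⁻¹ = C.hh (pw c (g + g')) := by
  rw [_root_.map_mul, ← conj_mul, h, h', pw_add, _root_.map_mul]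

include hρ

omit hS hF in
theorem rat_fact {s : ℕ} {c : Fˣ} (hc : orderOf c = s) {m : GL ι F} (hm : m ∈ GG C) {X : Type*}
    [Fintype X] {v : X → l → ℤ} (hv : WInv C v) {k : ℕ} {Q : ((ZMod s → ℕ) → ℕ) → Prop}
    (hK : ∀ g, Cg s g 0 ∨ (Rt k (cnt v s g) → Q (cnt v s g))) {x h : H} (h1 : x ≠ 1)
    (h2 : h * x * h⁻¹ = x ^ k) {g : (l → ℤ) →+ ℤ} (e : m * ρ x * m⁻¹ = C.hh (pw c g)) :
    Q (cnt v s g) := by
  obtain ⟨L, hL⟩ := fus' hE ρ hG hc hm h
  refine (hK g).resolve_left (fun h => h1 (hρ ?_)) (hv.rt (hL _ _ _ _ h2 e (conj_pw_pow ρ e k)))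
  rw [h.pw hc, hh_pw_zero] at e
  simpa using e

theorem no_rat [Finite H] {s : ℕ} [Fact s.Prime] (hs : (s : F) ≠ 0) (hb : Fintype.card l + 2 < s)
    {X : Type*} [Fintype X] {v : X → l → ℤ} (hv : WInv C v) {k : ℕ}
    (hK : ∀ g, Cg s g 0 ∨ (Rt k (cnt v s g) → False)) {Q : Type*} [Group Q] (π : H →* Q)
    (hπ : Function.Surjective π) {a σ : Q} (h1 : a ^ s = 1) (h2 : a ≠ 1)
    (h3 : σ * a * σ⁻¹ = a ^ k) : False := by
  obtain ⟨c, hc⟩ := exists_prim F hs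
  obtain ⟨x, h, a1, a2, a3, -⟩ := Sec.exists_conj_elt π hπ s h1 h2 h3
    (comm_of_big hE hF hs (by omega) ρ hρ hG)
  obtain ⟨m, hm, g, e⟩ := toral0 hS hE hF hs (by omega) (FR_big C Fact.out (by omega)) hc (hG x)
    (by rw [← _root_.map_pow, a1, _root_.map_one])
  exact rat_fact hE ρ hρ hG hc hm hv (Q := fun _ => False) hK a2 a3 e

variable (hR : Fintype.card R = 126) (h32 : Qp C (· = 32) 1 [])
include hR h32

theorem no7 (hs : ((7 : ℕ) : F) ≠ 0) (hFR : FR C 7)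
    (hK : ∀ g, Cg 7 g 0 ∨ (Rt 3 (cnt C.rt 7 g) → cnt C.rt 7 g (ind 0) ∈ [30, 24, 12])) {y z : H}
    (h1 : y * z = z * y) (h2 : y ^ 7 = 1) (h3 : z ^ 7 = 1)
    (h4 : ∀ a < 7, ∀ b < 7, y ^ a * z ^ b = 1 → a = 0 ∧ b = 0)
    (h5 : ∃ h : H, h * y * h⁻¹ = y ^ 2 ∧ h * z * h⁻¹ = z)
    (h6 : ∃ h : H, h * y * h⁻¹ = y ^ 3 ∧ h * z * h⁻¹ = z ^ 3)
    (h7 : ∃ h : H, h * y * h⁻¹ = z ^ 3 ∧ h * z * h⁻¹ = y) : False := by
  classical
  have : Fact (Nat.Prime 7) := ⟨by decide⟩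
  obtain ⟨c, hc⟩ := exists_prim F hs
  obtain ⟨m, hm, h8⟩ := tor_list hS hE hF ρ hG hs (by decide) (by decide) hFR hc [y, z]
    (by simpa [Commute, SemiconjBy] using h1) (by simpa using ⟨h2, h3⟩)
  obtain ⟨g, e⟩ := h8 y (by simp)
  obtain ⟨g', e'⟩ := h8 z (by simp)
  let φ : R → ZMod 7 × ZMod 7 := fun r => (g (C.rt r), g' (C.rt r))
  let n : ZMod 7 × ZMod 7 → ℕ := fun y => {r | True ∧ φ r = y}.ncard
  let t : ZMod 7 × ZMod 7 → ℕ := fun y =>
    {x : R × R | (φ x.1 = 0 ∧ bf C (C.rt x.2) (C.rt x.1) = -1) ∧ φ x.2 = y}.ncard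
  have key : ∀ (f : ZMod 7 × ZMod 7 → ZMod 7 × ZMod 7) L, Function.Injective f → f 0 = 0 →
      (∀ r, φ r = f (φ (C.wr L r))) → (∀ y, n (f y) = n y) ∧ ∀ y, t (f y) = t y :=
    fun f L a1 a2 a3 => ⟨ncard_inv (wp C L) (fun _ => Iff.rfl) a1 a3,
      ncard_inv ((wp C L).prodCongr (wp C L)) (fun x => and_congr (by
        rw [a3 x.1, ← a2, a1.eq_iff, a2]; rfl) (by rw [← hS.bf_wr L x.2]; rfl)) a1 fun x => a3 x.2⟩
  obtain ⟨x1, a1, a1'⟩ := h5
  obtain ⟨x2, a2, a2'⟩ := h6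
  obtain ⟨x3, a3, a3'⟩ := h7
  obtain ⟨L1, b1⟩ := fus' hE ρ hG hc hm x1
  obtain ⟨L2, b2⟩ := fus' hE ρ hG hc hm x2
  obtain ⟨L3, b3⟩ := fus' hE ρ hG hc hm x3
  have d1 := key (fun y => (2 * y.1, y.2)) L1 inj7.1 rfl fun r => Prod.ext
    (by simpa [← rt_wr] using (b1 _ _ _ _ a1 e (conj_pw_pow ρ e 2) (C.rt r)).symm)
    (by simpa [← rt_wr] using (b1 _ _ _ _ a1' e' e' (C.rt r)).symm)
  have d2 := key (fun y => (3 * y.1, 3 * y.2)) L2 inj7.2.1 rfl fun r => Prod.ext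
    (by simpa [← rt_wr] using (b2 _ _ _ _ a2 e (conj_pw_pow ρ e 3) (C.rt r)).symm)
    (by simpa [← rt_wr] using (b2 _ _ _ _ a2' e' (conj_pw_pow ρ e' 3) (C.rt r)).symm)
  have d3 := key (fun y => (3 * y.2, y.1)) L3 inj7.2.2 rfl fun r => Prod.ext
    (by simpa [← rt_wr] using (b3 _ _ _ _ a3 e (conj_pw_pow ρ e' 3) (C.rt r)).symm)
    (by simpa [← rt_wr] using (b3 _ _ _ _ a3' e' e (C.rt r)).symm)
  obtain ⟨f1, f2, f3⟩ := orb7 n d1.1 d2.1 d3.1
  have f4 := (orb7 t d1.2 d2.2 d3.2).1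
  have g1 := rat_fact hE ρ hρ hG hc hm (winv_rt C) (Q := fun c => c (ind 0) ∈ [30, 24, 12]) hK
    (fun e => by simpa using h4 1 (by decide) 0 (by decide) (by simpa using e)) a2 e
  have g2 := rat_fact hE ρ hρ hG hc hm (winv_rt C) (Q := fun c => c (ind 0) ∈ [30, 24, 12]) hK
    (fun e => by simpa using h4 1 (by decide) 1 (by decide) (by simpa using e))
    (by rw [← conj_mul, a2, a2', Commute.mul_pow h1]) (conj_pw_mul ρ e e')
  have g3 := ncard_fib (fun _ => True) φ fun _ => True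
  have g4 := ncard_fib (fun _ => True) φ fun y => y.1 = 0
  have g5 := ncard_fib (fun _ => True) φ fun y => y.1 + y.2 = 0
  rw [f2] at g4
  rw [f3] at g5
  simp only [if_true, and_self, Set.ofPred_true, Set.ncard_univ, Nat.card_eq_fintype_card,
    hR] at g3
  replace g3 := g3.trans f1
  simp only [cnt_ind, List.mem_cons, List.not_mem_nil, or_false, AddMonoidHom.add_apply,
    Int.cast_add] at g1 g2
  simp only [true_and, φ] at g4 g5
  rw [g4] at g1
  rw [g5] at g2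
  have k0 : n 0 = 6 := by omega
  have k1 : n (1, 0) = 1 := by omega
  choose k hk using hS.exists_sub
  have k2 : ∀ a r, φ a = 0 → φ (k a r) = φ r := fun a r h => by
    have h1 := congrArg Prod.fst h
    have h2 := congrArg Prod.snd h
    simp only [φ, Prod.fst_zero, Prod.snd_zero] at h1 h2
    simp only [φ, hk, map_sub, map_zsmul, smul_eq_mul, Int.cast_sub, Int.cast_mul, h1, h2, mul_zero,
      sub_zero]
  have k3 : t (1, 0) = 0 := by
    refine (Set.ncard_eq_zero (Set.toFinite _)).2 (Set.eq_empty_of_forall_notMem ?_)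
    rintro ⟨a, r⟩ ⟨⟨h1, h2⟩, h3⟩
    have := hk a r
    rw [(Set.ncard_le_one (Set.toFinite _)).1 k1.le _ ⟨trivial, (k2 a r h1).trans h3⟩ r
      ⟨trivial, h3⟩, hS.comm, h2] at this
    exact rt_ne C a (by simpa using this)
  have k4 : t 0 ≤ 6 * 6 := by
    rw [← k0, ← Set.ncard_prod]
    exact Set.ncard_le_ncard fun x hx => ⟨⟨trivial, hx.1.1⟩, trivial, hx.2⟩
  have k5 : (t (1, 1) : ZMod 2) = 0 := by
    simp only [t, Set.ncard_eq_toFinset_card', Set.toFinset_ofPred, Finset.card_eq_sum_ones,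
      Nat.cast_sum]
    refine Finset.sum_involution (fun x _ => (C.neg x.1, k x.1 x.2)) (fun _ _ => rfl)
      (fun x _ _ e => neg_ne C _ (congrArg Prod.fst e)) (fun x hx => ?_) fun x hx => ?_
    · simp only [Finset.mem_filter, Finset.mem_univ, true_and] at hx ⊢
      refine ⟨⟨?_, ?_⟩, (k2 _ _ hx.1.1).trans hx.2⟩
      · simpa [φ, C.rt_neg] using hx.1.1
      · rw [C.rt_neg, map_neg, hk, bf_sub, bf_smul, hS.norm, hS.comm (C.rt x.1), hx.1.2]; rfl
    · refine Prod.ext (neg_neg' _ _) (C.rt_inj ?_)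
      rw [hk, hk, C.rt_neg, bf_neg, map_sub, map_zsmul, hS.norm, smul_eq_mul]
      module
  have k6 : ∑ y, t y = 6 * 32 := by
    have b1 := ncard_fib (fun x : R × R => φ x.1 = 0 ∧ bf C (C.rt x.2) (C.rt x.1) = -1)
      (fun x => φ x.2) fun _ => True
    have b2 := ncard_fib (fun x : R × R => bf C (C.rt x.2) (C.rt x.1) = -1) Prod.fst
      fun a => φ a = 0
    simp only [if_true, and_true] at b1
    rw [← b1, ← k0]
    simp only [and_comm (a := φ _ = 0), b2, n, true_and, Set.ncard_eq_toFinset_card' {r | φ r = 0},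
      Set.toFinset_ofPred, Finset.card_filter, Finset.sum_mul]
    refine Finset.sum_congr rfl fun a _ => ?_
    split_ifs
    · rw [one_mul, ← h32 [a] rfl ⟨trivial, trivial⟩,
        ← Set.ncard_image_of_injective {ρ | Nxt C _ ρ} (Prod.mk_right_injective a)]
      refine congrArg _ (Set.ext fun x => ⟨?_, ?_⟩)
      · rintro ⟨h, rfl⟩
        exact ⟨x.2, ⟨h, by simp⟩, rfl⟩
      · rintro ⟨r, h, rfl⟩
        exact ⟨h.1, rfl⟩
    · rw [zero_mul]
  have := (ZMod.natCast_eq_zero_iff _ _).1 k5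
  omega

theorem no5 (hs : ((5 : ℕ) : F) ≠ 0) (hFR : FR C 5)
    (hK : ∀ g, Cg 5 g 0 ∨ (Rt 2 (cnt C.rt 5 g) →
      ∀ k, cnt C.rt 5 g (ind k) = if k = 0 then 26 else 25)) {x y z : H}
    (h1 : x * y = y * x) (h2 : x * z = z * x) (h3 : y * z = z * y) (h4 : x ^ 5 = 1) (h5 : y ^ 5 = 1)
    (h6 : z ^ 5 = 1) (h7 : ∀ a < 5, ∀ b < 5, ∀ c < 5,
      (x ^ a * y ^ b * z ^ c = 1 → a = 0 ∧ b = 0 ∧ c = 0) ∧
      ∃ h : H, h * (x ^ a * y ^ b * z ^ c) * h⁻¹ = (x ^ a * y ^ b * z ^ c) ^ 2) : False := by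
  have : Fact (Nat.Prime 5) := ⟨by decide⟩
  obtain ⟨c, hc⟩ := exists_prim F hs
  obtain ⟨m, hm, h8⟩ := tor_list hS hE hF ρ hG hs (by decide) (by decide) hFR hc [x, y, z]
    (by simpa [Commute, SemiconjBy] using ⟨⟨h1, h2⟩, h3⟩) (by simpa using ⟨h4, h5, h6⟩)
  obtain ⟨g1, e1⟩ := h8 x (by simp)
  obtain ⟨g2, e2⟩ := h8 y (by simp)
  obtain ⟨g3, e3⟩ := h8 z (by simp)
  let φ : R → ZMod 5 × ZMod 5 × ZMod 5 := fun r => (g1 (C.rt r), g2 (C.rt r), g3 (C.rt r))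
  have a1 := dbl5 (Nat.card_eq_fintype_card.trans hR) φ fun a ha k => by
    obtain ⟨b1, h, b2⟩ := h7 _ a.1.val_lt _ a.2.1.val_lt _ a.2.2.val_lt
    have := rat_fact hE ρ hρ hG hc hm (winv_rt C)
      (Q := fun c => ∀ k, c (ind k) = if k = 0 then 26 else 25) hK (fun e => ha (by
        simpa [Prod.ext_iff] using b1 e)) b2 (conj_pw_mul ρ (conj_pw_mul ρ (conj_pw_pow ρ e1 _)
          (conj_pw_pow ρ e2 _)) (conj_pw_pow ρ e3 _)) k
    simpa [cnt_ind, dt5, φ] using this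
  obtain ⟨a, ha⟩ := Set.nonempty_of_ncard_ne_zero (s := {r | φ r = 0}) (by rw [a1]; simp)
  obtain ⟨r, hr, -⟩ := Set.nonempty_of_ncard_ne_zero
    ((h32 [a] rfl ⟨trivial, trivial⟩).trans_ne (by decide))
  obtain ⟨k, hk⟩ := hS.exists_sub a r
  have b1 : k ≠ r := fun e => by
    rw [e, hS.comm, hr] at hk
    exact rt_ne C a (by simpa using hk)
  have b2 : φ k = φ r := by
    simp only [Set.mem_ofPred_eq, φ, Prod.ext_iff, Prod.fst_zero, Prod.snd_zero] at ha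
    simp only [φ, hk, map_sub, map_zsmul, smul_eq_mul, Int.cast_sub, Int.cast_mul, ha, mul_zero,
      sub_zero]
  have b3 := a1 (φ r)
  split_ifs at b3 with h
  · have b4 : r ≠ a := fun e => by rw [e, hS.norm] at hr; omega
    have b5 : k ≠ a := fun e => by
      have := congrArg (bf C (C.rt a)) hk
      rw [e, map_sub, map_zsmul, hS.norm, hS.comm, hr] at this
      simp at this
    have := Set.ncard_le_ncard (s := {k, r, a}) (t := {x | φ x = φ r}) (by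
      rintro _ (rfl | rfl | rfl)
      exacts [b2, rfl, ha.trans h.symm])
    rw [Set.ncard_eq_three.2 ⟨_, _, _, b1, b5, b4, rfl⟩] at this
    omega
  · exact b1 ((Set.ncard_le_one (Set.toFinite _)).1 b3.le _ b2 _ rfl)

end CfsgAE
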