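/-
Alternating sections of `E₆`, `E₇`, `E₈`: checkers for the finite facts.
-/
import Cfsg.Agent.AE.Fin2

set_option autoImplicit false
set_option linter.unusedSectionVars false

namespace CfsgAE

open CfsgH8 CfsgH8.Chev Matrix CfsgH7 CfsgH5 Cfsg.Lie

noncomputable section

theorem ncard_fin {N : ℕ} (S : Set (Fin N)) (f : ℕ → Bool) (h : ∀ x, x ∈ S ↔ f x = true) :
    S.ncard = countLt N f := by
  rw [countLt_eq, ← Set.ncard_image_of_injective _ Fin.val_injective, ← Set.ncard_coe_finset]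
  refine congrArg _ (Set.ext fun i => ?_)
  simp only [Set.mem_image, h, Finset.coe_filter, Finset.mem_range, Set.mem_ofPred_eq]
  exact ⟨by rintro ⟨x, h, rfl⟩; exact ⟨x.2, h⟩, fun h => ⟨⟨i, h.1⟩, h.2, rfl⟩⟩

/-- list of values -/
def vl {α : Type} (n : ℕ) (f : ℕ → α) : List α :=
  Nat.rec (motive := fun _ => List α) [] (fun i ih => f i :: ih) n

theorem vl_map {α β : Type} (n : ℕ) (f : ℕ → α) (g : α → β) : (vl n f).map g = vl n (g ∘ f) := by
  induction n with
  | zero => rfl
  | succ n ih => exact congrArg (g (f n) :: ·) ih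

theorem vl_sum (n : ℕ) (f : ℕ → ℕ) : (vl n f).sum = ∑ i : Fin n, f i := by
  rw [← Finset.sum_range]
  induction n with
  | zero => rfl
  | succ n ih => rw [Finset.sum_range_succ, ← ih]; exact add_comm _ _

theorem vl_inj {α : Type} {n : ℕ} {f g : ℕ → α} (h : vl n f = vl n g) : ∀ i < n, f i = g i := by
  induction n with
  | zero => simp
  | succ n ih => exact Nat.forall_lt_succ_right.2 ⟨ih (List.cons.inj h).2, (List.cons.inj h).1⟩

theorem mem_vl {α : Type} {n : ℕ} (f : ℕ → α) : ∀ i < n, f i ∈ vl n f := by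
  induction n with
  | zero => simp
  | succ n ih =>
    exact Nat.forall_lt_succ_right.2
      ⟨fun i hi => List.mem_cons_of_mem _ (ih i hi), List.mem_cons_self⟩

/-- dot product -/
def dotN (a : List ℕ) : List ℕ → ℕ :=
  List.rec (motive := fun _ => List ℕ → ℕ) (fun _ => 0) (fun x _ ih b =>
    List.rec (motive := fun _ => ℕ) 0 (fun y t _ => Nat.add (Nat.mul x y) (ih t)) b) a

theorem dotN_vl (n : ℕ) (f g : ℕ → ℕ) : dotN (vl n f) (vl n g) = ∑ i : Fin n, f i * g i := by
  rw [← Finset.sum_range fun i => f i * g i]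
  induction n with
  | zero => rfl
  | succ n ih => rw [Finset.sum_range_succ, ← ih]; exact add_comm _ _

/-- strict map -/
def fMp {α β : Type} (l : List α) (f : α → ℕ) : (List ℕ → β) → β :=
  List.rec (motive := fun _ => (List ℕ → β) → β) (fun k => k [])
    (fun a _ ih k => force (f a) fun a => ih fun t => k (a :: t)) l

theorem fMp_eq {α β : Type} (l : List α) (f : α → ℕ) (k : List ℕ → β) : fMp l f k = k (l.map f) := by
  induction l generalizing k with
  | nil => rfl
  | cons a l ih => exact (force_eq (f a) fun a => fMp l f fun t => k (a :: t)).trans (ih _)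

/-- strict list of lists -/
def fLL {β : Type} (l : List (List ℕ)) : (List (List ℕ) → β) → β :=
  List.rec (motive := fun _ => (List (List ℕ) → β) → β) (fun k => k [])
    (fun a _ ih k => fMp a id fun a => ih fun t => k (a :: t)) l

theorem fLL_eq {β : Type} (l : List (List ℕ)) (k : List (List ℕ) → β) : fLL l k = k l := by
  induction l generalizing k with
  | nil => rfl
  | cons a l ih =>
    exact (fMp_eq a id fun a => fLL l fun t => k (a :: t)).trans ((ih _).trans (by rw [List.map_id]))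

/-- sum -/
def sumL (l : List ℕ) (f : ℕ → ℕ) : ℕ :=
  List.rec (motive := fun _ => ℕ) 0 (fun a _ ih => Nat.add (f a) ih) l

theorem sumL_eq (l : List ℕ) (f : ℕ → ℕ) : sumL l f = (l.map f).sum := by
  induction l with
  | nil => rfl
  | cons a l ih => exact congrArg (f a + ·) ih

/-- all points of the alcove -/
def allK (th : List ℕ) : ℕ → (List ℕ → Bool) → Bool :=
  List.rec (motive := fun _ => ℕ → (List ℕ → Bool) → Bool) (fun _ f => f [])
    (fun t _ ih s f => band (Nat.blt 0 t) (lin (Nat.succ (Nat.div s t)) fun k => force k fun k =>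
      force (Nat.sub s (Nat.mul t k)) fun s => ih s fun m => f (k :: m))) th

theorem allK_spec (n : ℕ) (th m : ℕ → ℕ) (s : ℕ) (f : List ℕ → Bool)
    (h : allK (vl n th) s f = true) (h1 : dotN (vl n th) (vl n m) ≤ s) : f (vl n m) = true := by
  induction n generalizing s f with
  | zero => exact h
  | succ n ih =>
    change band (Nat.blt 0 (th n)) (lin (s / th n + 1) fun k => force k fun k =>
      force (s - th n * k) fun s => allK (vl n th) s fun m => f (k :: m)) = true at h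
    change th n * m n + dotN (vl n th) (vl n m) ≤ s at h1
    simp only [band_eq, Bool.and_eq_true, Nat.blt_eq, lin_iff, force_eq] at h
    exact ih _ _ (h.2 (m n) (Nat.lt_succ_of_le ((Nat.le_div_iff_mul_le h.1).2 (by
      rw [mul_comm]; omega)))) (by omega)

/-- check over the alcove -/
def kacB (N l s : ℕ) (th : ℕ → ℕ) (a : ℕ → ℕ → ℕ) (P : List ℕ → List ℕ → Bool) : Bool :=
  fLL (vl N fun x => vl l (a x)) fun V => fMp (vl l th) id fun th =>
    allK th s fun m => fMp V (fun v => Nat.mod (dotN v m) s) (P m)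

/-- rationality check -/
def ratB (s k : ℕ) (P : List ℕ → Bool) (m res : List ℕ) : Bool :=
  bor (allL m fun a => Nat.beq (Nat.mod a s) 0) (bimp (Nat.beq
    (sumL res fun d => Nat.pow 256 (Nat.mod d s))
    (sumL res fun d => Nat.pow 256 (Nat.mod (Nat.mul k d) s))) (P res))

/-- vectors -/
def vec {n : ℕ} (u : ℕ → ℤ) : Fin n → ℤ := fun j => u j

variable (T : Tab)

/-- pairing with a simple coroot -/
def pr (u : ℕ → ℤ) (i : ℕ) : ℤ := sumI T.l fun j => Int.mul (u j) (T.cm i j)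

/-- the form -/
def bb (u v : ℕ → ℤ) : ℤ := sumI T.l fun i => Int.mul (u i) (pr T v i)

/-- simply laced -/
def ckSL (θ : ℕ) : Bool :=
  band (lin T.l fun i => lin T.l fun j => ibeq (T.cm i j) (T.cm j i))
    (lin T.n fun r => bor (Nat.beq r θ) (band (bnot (lin T.l fun i => decide (0 ≤ pr T (T.rtc r) i)))
      (decide (bb T (T.rtc θ) (T.rtc r) ≤ 1))))

/-- next root -/
def nxtB (L : List ℕ) (ρ : ℕ) : Bool :=
  List.rec (motive := fun _ => Bool) true (fun h t _ => band (ibeq (bb T (T.rtc ρ) (T.rtc h)) (-1))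
    (allL t fun p => ibeq (bb T (T.rtc ρ) (T.rtc p)) 0)) L

/-- chains -/
def ckQ (P : ℕ → Bool) (d : ℕ) : List ℕ → Bool :=
  Nat.rec (motive := fun _ => List ℕ → Bool) (fun pre => P (countLt T.n (nxtB T pre)))
    (fun _ ih pre => lin T.n fun b => force b fun b => bimp (nxtB T pre b) (bimp (lin T.l fun i =>
      bimp (allL pre fun p => ibeq (pr T (T.rtc p) i) 0) (decide (0 ≤ pr T (T.rtc b) i)))
        (ih (b :: pre)))) d

/-- coroots -/
def rootB (s d : ℕ) (m res : List ℕ) : Bool :=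
  bimp (Nat.beq (sumL res fun d => ind 0 (d : ZMod s)) d) (anyLt T.n fun a =>
    decide (m.map (fun x : ℕ => (x : ℤ) % s) = vl T.l fun i => pr T (T.rtc a) i % s))

variable {T} {D : ChevalleyDatum} (h : T.Ok D) (F : Type*) [Field F]

theorem A_vec (i : Fin D.rank) (u : ℕ → ℤ) : (h.chev F).A i (vec u) = pr T u i := by
  rw [pr, sumI_eq, h.hl]; rfl

theorem bf_vec (u v : ℕ → ℤ) : bf (h.chev F) (vec u) (vec v) = bb T u v := by
  rw [bb, sumI_eq, bf_apply, h.hl]
  exact Finset.sum_congr rfl fun i _ => by rw [A_vec]; rfl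

theorem A_rt (i : Fin D.rank) (r : Fin D.nroots) :
    (h.chev F).A i ((h.chev F).rt r) = pr T (T.rtc r) i := A_vec h F i (T.rtc r)

theorem bf_rt (r s : Fin D.nroots) :
    bf (h.chev F) ((h.chev F).rt r) ((h.chev F).rt s) = bb T (T.rtc r) (T.rtc s) := bf_vec h F (T.rtc r) (T.rtc s)

theorem sl_of (θ : Fin D.nroots) (hc : ckSL T θ = true) : SL (h.chev F) θ := by
  simp only [ckSL, band_eq, bor_eq, bnot_eq, Bool.and_eq_true, Bool.or_eq_true, lin_iff, ibeq_iff,
    Nat.beq_eq, decide_eq_true_eq, Bool.not_eq_true', ← Bool.not_eq_true, h.hl, h.hn] at hc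
  refine ⟨fun i j => (Tab.Ok.lf_single _ _).trans ((hc.1 i i.2 j j.2).trans
    (Tab.Ok.lf_single _ _).symm), ?_, Sum.inl_injective, fun r hr => Fin.ext
      ((hc.2 r r.2).resolve_right fun e => e.1 fun i hi => A_rt h F ⟨i, hi⟩ r ▸ hr _),
    fun r hr => bf_rt h F _ _ ▸ ((hc.2 r r.2).resolve_left fun e => hr (Fin.ext e)).2⟩
  rintro (i | r)
  exacts [.inl ⟨i, rfl⟩, .inr ⟨r, rfl⟩]

theorem nxt_iff (L : List (Fin D.nroots)) (ρ : Fin D.nroots) :
    Nxt (h.chev F) L ρ ↔ nxtB T (L.map Fin.val) ρ = true := by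
  cases L <;> simp [Nxt, nxtB, bf_rt, ibeq_iff, allL_iff]

variable {h F} {θ : Fin D.nroots} (hS : SL (h.chev F) θ)
include hS

theorem qp_of {P : ℕ → Bool} {d : ℕ} {pre : List (Fin D.nroots)}
    (hc : ckQ T P d (pre.map Fin.val) = true) : Qp (h.chev F) (P · = true) d pre := by
  induction d generalizing pre with
  | zero =>
    intro ext h1 _
    rw [List.length_eq_zero_iff.1 h1, List.nil_append, ncard_fin {ρ | Nxt _ pre ρ} _ (nxt_iff h F pre)]
    exact (congrArg (fun n => P (countLt n _)) h.hn).symm.trans hc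
  | succ d ih =>
    refine Qp.step hS fun b h1 h2 => ih ?_
    have : force b (fun b => bimp (nxtB T (pre.map Fin.val) b) (bimp (lin T.l fun i =>
      bimp (allL (pre.map Fin.val) fun p => ibeq (pr T (T.rtc p) i) 0)
        (decide (0 ≤ pr T (T.rtc b) i))) (ckQ T P d (b :: pre.map Fin.val)))) = true :=
      (lin_iff _ _).1 hc b (b.2.trans_eq h.hn.symm)
    simp only [force_eq, bimp_eq, Bool.or_eq_true, Bool.not_eq_true', ← Bool.not_eq_true, lin_iff,
      ← imp_iff_not_or, allL_iff, ibeq_iff, decide_eq_true_eq, h.hl] at this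
    exact this ((nxt_iff h F _ _).1 h1) fun i hi h3 => A_rt h F ⟨i, hi⟩ b ▸ h2 _ fun p hp =>
      (A_rt h F _ _).trans (h3 _ (List.mem_map_of_mem hp))

variable {N s : ℕ} {v : Fin N → Fin D.rank → ℤ} {a : ℕ → ℕ → ℕ}
  (ha : ∀ (x : Fin N) (j : Fin D.rank), (a x j : ZMod s) = v x j) {th : ℕ → ℕ}
  (hth : ∀ j < D.rank, (th j : ℤ) = T.rtc θ j)
include ha hth

omit hS in
theorem kac_chk {P : List ℕ → List ℕ → Bool} (hc : kacB N D.rank s th a P = true)
    (g : (Fin D.rank → ℤ) →+ ℤ) (h1 : ∀ i, 0 ≤ g (Pi.single i 1)) (h2 : g ((h.chev F).rt θ) ≤ s) :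
    ∃ m : ℕ → ℕ, (∀ j : Fin D.rank, (m j : ℤ) = g (Pi.single j 1)) ∧ ∃ res : List ℕ,
      cnt v s g = (fun Φ => (res.map fun d : ℕ => Φ d).sum) ∧ P (vl D.rank m) res = true := by
  let m : ℕ → ℕ := fun j => if h : j < D.rank then (g (Pi.single ⟨j, h⟩ 1)).toNat else 0
  have hm : ∀ j : Fin D.rank, (m j : ℤ) = g (Pi.single j 1) := fun j => by
    simp only [m, dif_pos j.2]; exact Int.toNat_of_nonneg (h1 j)
  rw [kacB, fLL_eq, fMp_eq, List.map_id] at hc
  have := allK_spec _ _ m _ _ hc (by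
    rw [dotN_vl, ← Nat.cast_le (α := ℤ)]
    refine le_trans (le_of_eq ?_) h2
    rw [hom_eq g]
    push_cast
    exact Finset.sum_congr rfl fun j _ => by rw [hm, hth j j.2]; rfl)
  rw [fMp_eq] at this
  refine ⟨m, hm, _, funext fun Φ => ?_, this⟩
  rw [vl_map, vl_map, vl_sum]
  refine Finset.sum_congr rfl fun x _ => congrArg Φ ?_
  change _ = ((dotN (vl D.rank (a x)) (vl D.rank m) % s : ℕ) : ZMod s)
  rw [ZMod.natCast_mod, dotN_vl, hom_eq g]
  push_cast
  exact Finset.sum_congr rfl fun j _ => by rw [ha, ← hm, Int.cast_natCast]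

theorem kf_chk [NeZero s] (hv : WInv (h.chev F) v) {k : ℕ} {Q : ((ZMod s → ℕ) → ℕ) → Prop}
    {P : List ℕ → Bool} (hP : ∀ res, P res = true → Q fun Φ => (res.map fun d : ℕ => Φ d).sum)
    (hc : kacB N D.rank s th a (ratB s k P) = true) (g : (Fin D.rank → ℤ) →+ ℤ) :
    Cg s g 0 ∨ (Rt k (cnt v s g) → Q (cnt v s g)) :=
  hS.kf (NeZero.pos s) hv (Q := fun c => Rt k c → Q c) (fun g h1 h2 => by
    obtain ⟨m, hm, res, h3, h4⟩ := kac_chk ha hth hc g h1 h2
    simp only [ratB, bor_eq, bimp_eq, Bool.or_eq_true, allL_iff, Nat.beq_eq, Bool.not_eq_true',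
      ← Bool.not_eq_true, ← imp_iff_not_or, sumL_eq] at h4
    refine h4.imp (fun h i => ?_) fun h h5 => h3 ▸ hP _ (h ?_)
    · rw [← hm, Int.cast_natCast, ← ZMod.natCast_mod]
      exact (congrArg _ (h _ (mem_vl m _ i.2))).trans Nat.cast_zero
    · have := h5 fun a => 256 ^ a.val
      simp only [h3, ← Nat.cast_mul, ZMod.val_natCast] at this
      exact this) g

omit ha in
theorem kr_chk [NeZero s]
    (ha : ∀ (x : Fin D.nroots) (j : Fin D.rank), (a x j : ZMod s) = (h.chev F).rt x j) {d : ℕ}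
    (hc : kacB D.nroots D.rank s th a (rootB T s d) = true) (g : (Fin D.rank → ℤ) →+ ℤ)
    (hg : cnt (h.chev F).rt s g (ind 0) = d) : ∃ a, Cg s g (bf (h.chev F) ((h.chev F).rt a)) :=
  hS.kr (NeZero.pos s) (fun g h1 h2 h5 => by
    obtain ⟨m, hm, res, h3, h4⟩ := kac_chk ha hth hc g h1 h2
    simp only [rootB, bimp_eq, Bool.or_eq_true, Nat.beq_eq, Bool.not_eq_true', anyLt_iff, h.hl, h.hn,
      ← Bool.not_eq_true, ← imp_iff_not_or, sumL_eq, decide_eq_true_eq, vl_map] at h4
    obtain ⟨b, hb, e⟩ := h4 (by rw [← h5, h3])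
    exact ⟨⟨b, hb⟩, fun i => by
      rw [← hm, A_rt]
      exact (ZMod.intCast_eq_intCast_iff' _ _ _).2 (vl_inj e i i.2)⟩) g hg

end

end CfsgAE
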