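/-
Alternating sections of `E₆`, `E₇`, `E₈`: base change and tables.
-/
import Cfsg.Agent.AE.Chk
import Cfsg.Agent.H8.ExtraE

set_option autoImplicit false
set_option linter.unusedSectionVars false

namespace CfsgAE

open CfsgH8 CfsgH8.Chev Matrix CfsgH7 CfsgH5 Cfsg.Lie

noncomputable section

/-- root coordinates modulo `s` -/
def rN (T : Tab) (s r j : ℕ) : ℕ :=
  Nat.add (ap 4 15 T.RT (Nat.add (Nat.mul T.l r) j)) (Nat.mul 8 (Nat.pred s))

/-- coordinates of a positive root -/
def thN (T : Tab) (r j : ℕ) : ℕ := Nat.sub (ap 4 15 T.RT (Nat.add (Nat.mul T.l r) j)) 8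

/-- sum and difference of two roots -/
def sd (T : Tab) (a b : ℕ) (e : ℤ) (r : ℕ) : ℤ :=
  Int.add (Int.mul e (bb T (T.rtc a) (T.rtc r))) (bb T (T.rtc b) (T.rtc r))

variable {T : Tab} {D : ChevalleyDatum} (h : T.Ok D)

theorem rN_spec (F : Type*) [Field F] (s : ℕ) [NeZero s] (x : Fin D.nroots) (j : Fin D.rank) :
    (rN T s x j : ZMod s) = (h.chev F).rt x j := by
  obtain ⟨k, rfl⟩ := Nat.exists_eq_succ_of_ne_zero (NeZero.ne s)
  change ((_ + 8 * k : ℕ) : ZMod (k + 1)) = (Int.subNatNat _ 8 : ℤ)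
  have := ZMod.natCast_self (k + 1)
  rw [Int.subNatNat_eq_coe]
  push_cast at this ⊢
  linear_combination 8 * this

include h in
theorem gen_le (F : Type*) [Field F] (S : Set (List (ℕ × F))) : D.genSubgroup F S ≤ D.group F := by
  have : ∀ w : List (ℕ × F), ∃ g ∈ D.group F, (g : Matrix D.Idx D.Idx F) = D.wordMat F w :=
    fun w => by
      induction w with
      | nil => exact ⟨1, one_mem _, rfl⟩
      | cons p w ih =>
        obtain ⟨g, h1, h2⟩ := ih
        rw [ChevalleyDatum.wordMat, List.map_cons, List.prod_cons, ← ChevalleyDatum.wordMat, ← h2]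
        by_cases hp : p.1 < D.nroots
        · exact ⟨(h.chev F).x ⟨p.1, hp⟩ p.2 * g, mul_mem (h.group_eq F ▸
            (h.chev F).x_mem (Set.mem_univ _) _) h1, rfl⟩
        · exact ⟨g, h1, by rw [ChevalleyDatum.x, dif_neg hp, one_mul]⟩
  rw [ChevalleyDatum.genSubgroup, Subgroup.closure_le]
  rintro g ⟨w, -, e⟩
  obtain ⟨g', h1, h2⟩ := this w
  exact Units.ext (h2.trans e.symm) ▸ h1

universe u

theorem assemble {F : Type u} [Field F] [Finite F] {G : Subgroup (GL D.Idx F)} (hG : G ≤ D.group F)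
    {r s : ℕ} (H : Subgroup G) (N : Subgroup H) [N.Normal]
    (e : Nonempty (H ⧸ N ≃* alternatingGroup (Fin r)))
    (hs : ∀ (M : Type u) [Group M] [Finite M] (π : M →* alternatingGroup (Fin (s + 1))),
      Function.Surjective π → (∀ N : Subgroup M, N.map π = ⊤ → N = ⊤) →
      ∀ ρ : M →* GL D.Idx (AlgebraicClosure F), Function.Injective ρ →
        (∀ x, ρ x ∈ GG (h.chev (AlgebraicClosure F))) → False) : r ≤ s :=
  Sec.of_section H N e fun H' π hπ => by
    obtain ⟨M, h1, h2⟩ := exists_min π hπ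
    exact hs M _ h1 h2 ((GeneralLinearGroup.map (algebraMap F _)).comp (G.subtype.comp
      (H.subtype.comp (H'.subtype.comp M.subtype)))) ((map_inj _).comp (G.subtype_injective.comp
        (H.subtype_injective.comp (H'.subtype_injective.comp M.subtype_injective))))
      fun x => map_mem_GG h _ (hG x.1.1.1.2)

theorem cnt_bb (F : Type*) [Field F] {g : (Fin D.rank → ℤ) →+ ℤ} {f : ℕ → ℤ}
    (hf : ∀ r : Fin D.nroots, g ((h.chev F).rt r) = f r) :
    cnt (h.chev F).rt 3 g (ind 0) = countLt D.nroots fun r => ibeq (f r % 3) 0 :=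
  (cnt_ind _ _).trans (ncard_fin _ _ fun r => by
    rw [Set.mem_ofPred_eq, hf, ibeq_iff, ZMod.intCast_zmod_eq_zero_iff_dvd,
      Int.dvd_iff_emod_eq_zero]; rfl)

theorem sd_add (F : Type*) [Field F] (a b r : Fin D.nroots) :
    (bf (h.chev F) ((h.chev F).rt a) + bf (h.chev F) ((h.chev F).rt b)) ((h.chev F).rt r) =
      sd T a b 1 r := by
  rw [AddMonoidHom.add_apply, bf_rt, bf_rt, sd]; simp

theorem sd_sub (F : Type*) [Field F] (a b r : Fin D.nroots) :
    (bf (h.chev F) ((h.chev F).rt b) - bf (h.chev F) ((h.chev F).rt a)) ((h.chev F).rt r) =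
      sd T a b (-1) r := by
  rw [AddMonoidHom.sub_apply, bf_rt, bf_rt, sd]; simp; ring

theorem cast_ne' {F : Type*} [Field F] (p : ℕ) [Fact p.Prime] [CharP F p] {s : ℕ} (hs : s.Prime)
    (h : p ≠ s) : (s : AlgebraicClosure F) ≠ 0 := fun e =>
  h ((Nat.prime_dvd_prime_iff_eq Fact.out hs).1 ((CharP.cast_eq_zero_iff _ p s).1 e))

theorem card_idx (D : ChevalleyDatum) : Fintype.card D.Idx = D.rank + D.nroots := by
  simp [ChevalleyDatum.Idx]

end

end CfsgAE
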