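/-
Alternating sections of `E₆`, `E₇`, `E₈`: lifting local data when the `s`-part of the kernel is
central.
-/
import Cfsg.Agent.AE.Defs

set_option autoImplicit false

namespace CfsgAE

open Subgroup

section L
variable {H : Type*} [Group H]

theorem conj_pow_cen {c y w : H} (hw : ∀ g, g * w = w * g) (h : c * y * c⁻¹ = y * w) (m : ℕ) :
    c ^ m * y * (c ^ m)⁻¹ = y * w ^ m := by
  induction m with
  | zero => simp
  | succ m ih =>
    calc _ = c * (c ^ m * y * (c ^ m)⁻¹) * c⁻¹ := by group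
      _ = c * y * c⁻¹ * w ^ m := by
        rw [ih, ← mul_assoc, mul_assoc _ _ c⁻¹, mul_assoc _ c⁻¹, (Commute.pow_right (hw c⁻¹) m).eq]
      _ = _ := by rw [h, pow_succ', mul_assoc]

theorem conj_cen {c y w : H} (hw : ∀ g, g * w = w * g) : c * (y * w) * c⁻¹ = c * y * c⁻¹ * w := by
  rw [← mul_assoc, mul_assoc _ w, ← hw, ← mul_assoc]

theorem cen_inv {w : H} (hw : ∀ g, g * w = w * g) (g : H) : g * w⁻¹ = w⁻¹ * g :=
  (Commute.inv_right (hw g)).eq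

theorem shear {h h' y z : H} (hz : ∀ g, g * z = z * g) (hh : h * y * h⁻¹ = y⁻¹)
    (hh' : h' * (y * z) * h'⁻¹ = (y * z)⁻¹) {m : ℕ} (hz' : z ^ (2 * m + 1) = 1) :
    (h⁻¹ * h') ^ m * y * ((h⁻¹ * h') ^ m)⁻¹ = y * z := by
  have e3 : h' * y * h'⁻¹ = y⁻¹ * z⁻¹ * z⁻¹ := by
    rw [eq_mul_inv_iff_mul_eq, ← conj_cen hz, hh', mul_inv_rev, cen_inv hz]
  have e2 : h⁻¹ * h' * y * (h⁻¹ * h')⁻¹ = y * (z⁻¹ * z⁻¹) :=
    calc _ = h⁻¹ * (h' * y * h'⁻¹) * h⁻¹⁻¹ := by group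
      _ = h⁻¹ * (h * y * h⁻¹) * h⁻¹⁻¹ * z⁻¹ * z⁻¹ := by
        rw [e3, conj_cen (cen_inv hz), conj_cen (cen_inv hz), hh]
      _ = _ := by group
  rw [conj_pow_cen (fun g => ((Commute.inv_right (hz g)).mul_right
    (Commute.inv_right (hz g))).eq) e2 m, ← sq, ← pow_mul, inv_pow, show (z ^ (2 * m))⁻¹ = z by
    rw [inv_eq_iff_mul_eq_one, ← pow_succ, hz']]

variable [Finite H] {Q : Type*} [Group Q] (π : H →* Q)

theorem conj_mod (s : ℕ) [Fact s.Prime] (hc : CenK π s) {y y' : H} (h1 : y ^ s = 1) (h1' : y' ^ s = 1) (h : π y = π y') :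
    ∃ k z : H, π k = 1 ∧ (∀ g, g * z = z * g) ∧ z ^ s = 1 ∧ k * y' * k⁻¹ = y * z := by
  let N := (zpowers (π y)).comap π
  have hy : y ∈ N := mem_zpowers _
  have hy' : y' ∈ N := show π y' ∈ zpowers (π y) from h ▸ mem_zpowers _
  obtain ⟨S, hS⟩ := (CfsgH7.Sec.isPGroup_zpowers (c := (⟨y, hy⟩ : N)) (Subtype.ext h1)).exists_le_sylow
  obtain ⟨S', hS'⟩ :=
    (CfsgH7.Sec.isPGroup_zpowers (c := (⟨y', hy'⟩ : N)) (Subtype.ext h1')).exists_le_sylow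
  obtain ⟨g, hg⟩ := MulAction.exists_smul_eq N S' S
  have h2 : g * ⟨y', hy'⟩ * g⁻¹ ∈ S.1 := by
    rw [← hg]; exact ⟨_, hS' (mem_zpowers _), rfl⟩
  obtain ⟨i, hi⟩ : π g ∈ zpowers (π y) := g.2
  obtain ⟨e, he⟩ := S.2 ⟨_, mul_mem (inv_mem (hS (mem_zpowers _))) h2⟩
  have he' : (y⁻¹ * (g * y' * (g : H)⁻¹)) ^ s ^ e = 1 := congrArg (fun x : S.1 => ((x : N) : H)) he
  have hz := hc _ (by simp only [map_mul, map_inv, ← hi, ← h]; group) ⟨e, he'⟩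
  refine ⟨g * (y' ^ i)⁻¹, _, by simp [← hi, h], hz, ?_, by group⟩
  have := (Commute.mul_pow (hz y) s).symm
  rwa [h1, one_mul, mul_inv_cancel_left, conj_pow, h1', mul_one, mul_inv_cancel] at this

/-- real lifts of conjugate elements are conjugate -/
theorem real_conj (hπ : Function.Surjective π) (s : ℕ) [Fact s.Prime] (hs : s ≠ 2) (hc : CenK π s)
    {y y' : H}
    (h1 : y ^ s = 1) (h1' : y' ^ s = 1)
    (h2 : ∃ h : H, h * y * h⁻¹ = y⁻¹) (h2' : ∃ h : H, h * y' * h⁻¹ = y'⁻¹)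
    (h3 : IsConj (π y) (π y')) : IsConj y y' := by
  obtain ⟨q, hq⟩ := isConj_iff.1 h3
  obtain ⟨g, rfl⟩ := hπ q
  obtain ⟨k, z, -, hz, hz', e⟩ := conj_mod π s hc h1 (y' := g⁻¹ * y' * g⁻¹⁻¹)
    (by rw [conj_pow, h1']; simp) (by simp [← hq, mul_assoc])
  obtain ⟨h, hh⟩ := h2
  obtain ⟨h', hh'⟩ := h2'
  set b := k * g⁻¹
  have e1 : y' = b⁻¹ * (y * z) * b := by rw [← e]; simp only [b]; group
  have e3 : b * h' * b⁻¹ * (y * z) * (b * h' * b⁻¹)⁻¹ = (y * z)⁻¹ := by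
    rw [← mul_left_cancel_iff (a := b⁻¹), ← mul_right_cancel_iff (a := b)]
    rw [e1] at hh'
    calc _ = h' * (b⁻¹ * (y * z) * b) * h'⁻¹ := by group
      _ = _ := by rw [hh']; group
  obtain ⟨m, hm⟩ := (Fact.out : s.Prime).odd_of_ne_two hs
  have e4 := shear hz hh e3 (hm ▸ hz')
  exact isConj_iff.2 ⟨b⁻¹ * (h⁻¹ * (b * h' * b⁻¹)) ^ m, by rw [e1, ← e4]; group⟩

/-- centralizers lift -/
theorem cent_lift (hπ : Function.Surjective π) (s : ℕ) [Fact s.Prime] (hc : CenK π s) {y : H}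
    (h1 : y ^ s = 1) {c : Q}
    (h2 : c * π y = π y * c) {n : ℕ} (h3 : c ^ n = 1) (h4 : n.Coprime s) :
    ∃ h : H, π h = c ∧ h * y = y * h := by
  obtain ⟨g, rfl⟩ := hπ c
  obtain ⟨k, z, hk, hz, hz', e⟩ := conj_mod π s hc h1 (y' := g * y * g⁻¹)
    (by rw [conj_pow, h1]; simp) (by simp [h2])
  obtain ⟨m, hm, hm'⟩ := Nat.chineseRemainder h4 1 0
  have e1 := conj_pow_cen (c := k * g) hz (by rw [← e]; group) m
  obtain ⟨j, rfl⟩ := (Nat.modEq_zero_iff_dvd).1 hm'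
  rw [pow_mul z, hz', one_pow, mul_one, mul_inv_eq_iff_eq_mul] at e1
  refine ⟨_, ?_, e1⟩
  rw [map_pow, map_mul, hk, one_mul, pow_eq_pow_iff_modEq.2 (hm.of_dvd
    (orderOf_dvd_of_pow_eq_one h3)), pow_one]

/-- equivariant lift of an elementary abelian `s`-group inverted by `σ` -/
theorem exists_lift_hom (hπ : Function.Surjective π) (s : ℕ) [Fact s.Prime] (hs : s ≠ 2)
    (hc : CenK π s) {m : ℕ}
    (x : Fin m → Q) (h1 : ∀ i j, x i * x j = x j * x i) (h2 : ∀ i, x i ^ s = 1) (σ : Q)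
    (h3 : ∀ i, σ * x i * σ⁻¹ = (x i)⁻¹)
    (h4 : ∀ i j, i < j → ∃ (τ : Q) (a b : ℕ), τ * x i * τ⁻¹ = x i ^ a ∧ τ * x j * τ⁻¹ = x j ^ b ∧
      a * b % s ≠ 1 ∧ ∀ k, τ * x k * τ⁻¹ ∈ closure (Set.range x)) :
    ∃ j : closure (Set.range x) →* H, (∀ e, π (j e) = e) ∧
      (∃ h : H, (∃ e ∈ closure (Set.range x), π h = σ * e) ∧ ∀ e, h * j e * h⁻¹ = (j e)⁻¹) ∧
      ∀ τ : Q, (∀ k, τ * x k * τ⁻¹ ∈ closure (Set.range x)) →
        ∃ h : H, (∀ M : Subgroup Q, closure (Set.range x) ≤ M → σ ∈ M → τ ∈ M → π h ∈ M) ∧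
          (σ * τ = τ * σ → ∃ e ∈ closure (Set.range x), π h = τ * e) ∧
          ∀ e e' : closure (Set.range x), τ * e * τ⁻¹ = e' → h * j e * h⁻¹ = j e' := by
  haveI : Finite Q := Finite.of_surjective π hπ
  have hp : s.Prime := Fact.out
  obtain ⟨n, hn⟩ := hp.odd_of_ne_two hs
  set E := closure (Set.range x) with hE
  have hxE : ∀ i, x i ∈ E := fun i => subset_closure ⟨i, rfl⟩
  have hEc : ∀ a ∈ E, ∀ b ∈ E, a * b = b * a := fun a ha b hb => by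
    refine closure_induction₂ (p := fun a b _ _ => Commute a b) ?_ (fun _ _ => Commute.one_left _)
      (fun _ _ => Commute.one_right _) (fun _ _ _ _ _ _ h h' => h.mul_left h')
      (fun _ _ _ _ _ _ h h' => h.mul_right h') (fun _ _ _ _ h => h.inv_left)
      (fun _ _ _ _ h => h.inv_right) ha hb
    rintro _ _ ⟨i, rfl⟩ ⟨j, rfl⟩
    exact h1 i j
  have hEs : ∀ a ∈ E, a ^ s = 1 ∧ σ * a * σ⁻¹ = a⁻¹ := fun a ha => by
    induction ha using closure_induction with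
    | mem a ha => obtain ⟨i, rfl⟩ := ha; exact ⟨h2 i, h3 i⟩
    | one => simp
    | mul a b ha hb iha ihb =>
      exact ⟨by rw [Commute.mul_pow (hEc a ha b hb), iha.1, ihb.1, one_mul], by
        rw [hEc a ha b hb, mul_inv_rev, ← iha.2, ← ihb.2, hEc b hb a ha]; group⟩
    | inv a ha ih => exact ⟨by rw [inv_pow, ih.1, inv_one], by rw [← conj_inv, ih.2]⟩
  have hN : ∀ τ : Q, (∀ k, τ * x k * τ⁻¹ ∈ E) → τ ∈ normalizer (E : Set Q) := fun τ h =>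
    mem_normalizer_fintype fun a ha => by
      induction ha using closure_induction with
      | mem a ha => obtain ⟨i, rfl⟩ := ha; exact h i
      | one => simp
      | mul a b _ _ iha ihb =>
        rw [show τ * (a * b) * τ⁻¹ = τ * a * τ⁻¹ * (τ * b * τ⁻¹) by group]; exact mul_mem iha ihb
      | inv a _ ih => rw [show τ * a⁻¹ * τ⁻¹ = (τ * a * τ⁻¹)⁻¹ by group]; exact inv_mem ih
  have hce : ∀ τ : Q, ∀ e ∈ E, ∀ a ∈ E, τ * e * a * (τ * e)⁻¹ = τ * a * τ⁻¹ := fun τ e he a ha => by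
    rw [mul_assoc τ, hEc e he a ha]; group
  obtain ⟨P, hP, hPE, hl⟩ := CfsgH7.Sec.exists_lift π hπ s E
    fun a => ⟨1, Subtype.ext (by simpa using (hEs a a.2).1)⟩
  have hπP : ∀ u ∈ P, π u ∈ E := fun u hu => hPE ▸ mem_map_of_mem π hu
  have hZ : ∀ z ∈ P, π z = 1 → ∀ g, g * z = z * g := fun z hz h => hc z h (by
    obtain ⟨k, hk⟩ := hP ⟨z, hz⟩
    exact ⟨k, congrArg Subtype.val hk⟩)
  have hd : ∀ u ∈ P, ∀ v ∈ P, π u = π v → ∃ z ∈ P, (∀ g, g * z = z * g) ∧ v = u * z :=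
    fun u hu v hv h => ⟨u⁻¹ * v, mul_mem (inv_mem hu) hv, hZ _ (mul_mem (inv_mem hu) hv) (by simp [h]),
      by group⟩
  choose u hu hu' using fun i => mem_map.1 (hPE ▸ hxE i : x i ∈ P.map π)
  have hgen : ∀ C : Subgroup H, (∀ i, u i ∈ C) → (∀ z, (∀ g, g * z = z * g) → z ∈ C) → P ≤ C := by
    intro C hC hC' v hv
    obtain ⟨v', hv', e⟩ : π v ∈ (P ⊓ C).map π := (closure_le _).2
      (by rintro _ ⟨i, rfl⟩; exact ⟨u i, ⟨hu i, hC i⟩, hu' i⟩) (hπP v hv)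
    obtain ⟨z, -, hz, rfl⟩ := hd v' hv'.1 v hv e
    exact mul_mem hv'.2 (hC' z hz)
  have huu : ∀ i j, i < j → u i * u j = u j * u i := fun i j hij => by
    obtain ⟨τ, a, b, ha, hb, hab, hτ⟩ := h4 i j hij
    obtain ⟨h, hh, e, he, hh'⟩ := hl τ (hN τ hτ)
    obtain ⟨w, -, hw, e1⟩ := hd _ (hu j) _ (mul_mem (mul_mem (hu i) (hu j)) (inv_mem (hu i)))
      (by simp [hu', h1 i j])
    obtain ⟨z, -, hz, e2⟩ := hd _ (pow_mem (hu i) a) _ (hh _ (hu i))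
      (by simp only [map_mul, map_inv, map_pow, hh', hu', hce τ e he _ (hxE i), ha])
    obtain ⟨z', -, hz', e3⟩ := hd _ (pow_mem (hu j) b) _ (hh _ (hu j))
      (by simp only [map_mul, map_inv, map_pow, hh', hu', hce τ e he _ (hxE j), hb])
    have e4 : w ^ s = 1 := by
      have := conj_pow_cen hw e1 s
      rwa [← hZ _ (pow_mem (hu i) s) (by simp [hu', h2]), mul_inv_cancel_right, left_eq_mul] at this
    have e5 : w ^ (a * b) = w ^ 1 := by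
      have e6 : h * u i * h⁻¹ * (h * u j * h⁻¹) * (h * u i * h⁻¹)⁻¹ = h * u j * h⁻¹ * w := by
        rw [← conj_cen hw, ← e1]; group
      rw [e2, e3, conj_cen hz', show u i ^ a * z * u j ^ b * (u i ^ a * z)⁻¹ =
        u i ^ a * (z * u j ^ b * z⁻¹) * (u i ^ a)⁻¹ by group, ← hz, mul_inv_cancel_right,
        ← conj_pow, conj_pow_cen hw e1, Commute.mul_pow (Commute.pow_right (hw _) a), ← pow_mul,
        mul_assoc, mul_assoc, mul_right_inj, hz', mul_right_inj] at e6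
      rw [e6, pow_one]
    rcases (Nat.dvd_prime hp).1 (orderOf_dvd_of_pow_eq_one e4) with h | h
    · rwa [orderOf_eq_one_iff.1 h, mul_one, mul_inv_eq_iff_eq_mul] at e1
    · rw [pow_eq_pow_iff_modEq, h, Nat.ModEq, Nat.mod_eq_of_lt hp.one_lt] at e5
      exact (hab e5).elim
  have hPc : ∀ v ∈ P, ∀ w ∈ P, v * w = w * v := fun v hv w hw =>
    (mem_centralizer_singleton_iff.1 (hgen (centralizer {w}) (fun i =>
      mem_centralizer_singleton_iff.2 (mem_centralizer_singleton_iff.1 (hgen (centralizer {u i})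
        (fun j => mem_centralizer_singleton_iff.2 (by
          rcases lt_trichotomy i j with h | rfl | h
          exacts [(huu i j h).symm, rfl, huu j i h]))
        (fun z hz => mem_centralizer_singleton_iff.2 (hz _).symm) hw)).symm)
      (fun z hz => mem_centralizer_singleton_iff.2 (hz _).symm) hv))
  obtain ⟨t, ht, e0, he0, ht'⟩ := hl σ (hN σ fun k => h3 k ▸ inv_mem (hxE k))
  have hti : ∀ v ∈ P, π (t * v * t⁻¹) = (π v)⁻¹ := fun v hv => by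
    rw [map_mul, map_mul, map_inv, ht', hce σ e0 he0 _ (hπP v hv), (hEs _ (hπP v hv)).2]
  have hun : ∀ v ∈ P, ∀ w ∈ P, π v = π w → t * v * t⁻¹ = v⁻¹ → t * w * t⁻¹ = w⁻¹ → v = w := by
    intro v hv w hw e h h'
    obtain ⟨z, hzP, hz, rfl⟩ := hd v hv w hw e
    rw [conj_cen hz, h, mul_inv_rev, ← cen_inv hz, mul_right_inj, ← mul_eq_one_iff_eq_inv, ← sq] at h'
    obtain ⟨k, hk⟩ := hP ⟨z, hzP⟩
    have := Nat.dvd_gcd (orderOf_dvd_of_pow_eq_one h')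
      (orderOf_dvd_of_pow_eq_one (show z ^ s ^ k = 1 from congrArg Subtype.val hk))
    rw [((Nat.coprime_primes Nat.prime_two hp).2 hs.symm).pow_right k, Nat.dvd_one,
      orderOf_eq_one_iff] at this
    rw [this, mul_one]
  have hex : ∀ e : E, ∃ y ∈ P, π y = e ∧ t * y * t⁻¹ = y⁻¹ := fun e => by
    obtain ⟨v, hv, e1⟩ : (e : Q) ^ (n + 1) ∈ P.map π := by rw [hPE]; exact pow_mem e.2 _
    obtain ⟨z, hzP, hz, e2⟩ := hd _ (inv_mem hv) _ (ht v hv) (by rw [hti v hv, map_inv])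
    refine ⟨v * (t * v * t⁻¹)⁻¹, mul_mem hv (inv_mem (ht v hv)), ?_, ?_⟩
    · rw [map_mul, map_inv, hti v hv, inv_inv, e1, ← pow_add, show n + 1 + (n + 1) = s + 1 by omega,
        pow_succ, (hEs e e.2).1, one_mul]
    · have : t * (t * v * t⁻¹) * t⁻¹ = v := by
        rw [e2, conj_cen hz, ← conj_inv, e2, mul_inv_rev, inv_inv, ← cen_inv hz, inv_mul_cancel_right]
      rw [show t * (v * (t * v * t⁻¹)⁻¹) * t⁻¹ = t * v * t⁻¹ * (t * (t * v * t⁻¹) * t⁻¹)⁻¹ by group,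
        this, mul_inv_rev v, inv_inv]
  choose j hj1 hj2 hj3 using hex
  let j' : E →* H := MonoidHom.mk' j fun a b => hun _ (hj1 _) _ (mul_mem (hj1 a) (hj1 b))
    (by simp [hj2]) (hj3 _) (by
      rw [hPc _ (hj1 a) _ (hj1 b), mul_inv_rev, ← hj3, ← hj3, hPc _ (hj1 b) _ (hj1 a)]; group)
  refine ⟨j', hj2, ⟨t, ⟨e0, he0, ht'⟩, hj3⟩, fun τ hτ => ?_⟩
  have hτN := mem_normalizer_iff.1 (hN τ hτ)
  obtain ⟨h, hh, e, he, hh'⟩ := hl τ (hN τ hτ)
  refine ⟨((t⁻¹ * (h * t * h⁻¹)) ^ n)⁻¹ * h, fun M hM hσ hτ => ?_, fun hστ => ?_, fun a b hab => ?_⟩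
  · have a1 : π h ∈ M := hh' ▸ mul_mem hτ (hM he)
    have a2 : π t ∈ M := ht' ▸ mul_mem hσ (hM he0)
    simp only [map_mul, map_inv, map_pow]
    exact mul_mem (inv_mem (pow_mem (mul_mem (inv_mem a2) (mul_mem (mul_mem a1 a2) (inv_mem a1))) n)) a1
  · have a1 : π (t⁻¹ * (h * t * h⁻¹)) ∈ E := by
      have a2 : e * σ = σ * e⁻¹ := by
        nth_rw 1 [← inv_inv e, ← (hEs _ (inv_mem he)).2]; group
      rw [map_mul, map_mul, map_mul, map_inv, map_inv, ht', hh', show (σ * e0)⁻¹ * (τ * e * (σ * e0) *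
        (τ * e)⁻¹) = e0⁻¹ * (σ⁻¹ * τ * (e * σ) * (e0 * e⁻¹ * τ⁻¹)) by group, a2,
        show σ⁻¹ * τ * (σ * e⁻¹) = σ⁻¹ * (τ * σ) * e⁻¹ by group, ← hστ, inv_mul_cancel_left,
        show τ * e⁻¹ * (e0 * e⁻¹ * τ⁻¹) = τ * (e⁻¹ * e0 * e⁻¹) * τ⁻¹ by group]
      exact mul_mem (inv_mem he0) ((hτN _).1 (mul_mem (mul_mem (inv_mem he) he0) (inv_mem he)))
    refine ⟨τ⁻¹ * (π (t⁻¹ * (h * t * h⁻¹)) ^ n)⁻¹ * τ * e, mul_mem ((hτN _).2 ?_) he, ?_⟩
    · simpa [mul_assoc] using pow_mem a1 n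
    · rw [map_mul, map_inv, map_pow, hh']; group
  obtain ⟨z, hzP, hz, e1⟩ := hd _ (hj1 b) _ (hh _ (hj1 a))
    (by rw [map_mul, map_mul, map_inv, hh', hj2, hj2, hce τ e he _ a.2, hab])
  have hjs : ∀ c, j c ^ s = 1 := fun c => by
    rw [show j c ^ s = j' (c ^ s) from (map_pow j' c s).symm,
      show c ^ s = 1 from Subtype.ext (hEs c c.2).1, map_one]
  have e2 : z ^ (2 * n + 1) = 1 := by
    have := (Commute.mul_pow (hz (j b)) s).symm
    rwa [hjs, one_mul, ← e1, conj_pow, hjs, mul_one, mul_inv_cancel, hn] at this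
  have e3 := shear hz (hj3 b) (h' := h * t * h⁻¹) (by
    rw [← e1, show h * t * h⁻¹ * (h * j a * h⁻¹) * (h * t * h⁻¹)⁻¹ = h * (t * j a * t⁻¹) * h⁻¹ by group,
      hj3]; group) e2
  change _ * j a * _ = j b
  calc _ = ((t⁻¹ * (h * t * h⁻¹)) ^ n)⁻¹ * (h * j a * h⁻¹) * (t⁻¹ * (h * t * h⁻¹)) ^ n := by group
    _ = _ := by rw [e1, ← e3]; group

end L

end CfsgAE
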