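/-
Alternating sections of `E₆`, `E₇`, `E₈`: quadratic action of a three-cycle forces a spin module.
-/
import Cfsg.Agent.AE.Lift1

set_option autoImplicit false

namespace CfsgAE

open Module Equiv CfsgH7

section char2
variable {K V : Type*} [Field K] [AddCommGroup V] [Module K V]

theorem sum_sq (u : ℕ → End K V) (n : ℕ) (h1 : ∀ i < n, ∀ v, u i (u i v) = v)
    (h2 : ∀ i < n, ∀ j < n, i ≠ j → ∀ v, u i (u j v) + u j (u i v) = v) (v : V) :
    (∑ i ∈ Finset.range n, u i) ((∑ i ∈ Finset.range n, u i) v) = (((n + 1).choose 2 : ℕ) : K) • v := by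
  induction n with
  | zero => simp
  | succ n ih =>
    have e := ih (fun i hi => h1 i (by omega)) (fun i hi j hj => h2 i (by omega) j (by omega))
    have e2 : (∑ i ∈ Finset.range n, u i) (u n v) + u n ((∑ i ∈ Finset.range n, u i) v) =
        (n : K) • v := by
      simp only [LinearMap.sum_apply, map_sum, ← Finset.sum_add_distrib]
      rw [Finset.sum_congr rfl fun i hi => h2 i (by simp at hi; omega) n (by omega)
        (by simp at hi; omega) v]
      simp [Nat.cast_smul_eq_nsmul]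
    rw [Finset.sum_range_succ, show (n + 1 + 1).choose 2 = (n + 1) + (n + 1).choose 2 by
      rw [Nat.choose_succ_succ' (n + 1) 1, Nat.choose_one_right]]
    generalize ∑ i ∈ Finset.range n, u i = s at *
    simp only [LinearMap.add_apply, map_add, h1 n (by omega), Nat.cast_add, Nat.cast_one]
    linear_combination (norm := module) e + e2

variable {r : ℕ} (S : TSys K V r)

theorem quad_core2 [IsAlgClosed K] [FiniteDimensional K V] [Nontrivial V] (hr : 5 ≤ r)
    (hq : ∀ v, S.T 0 1 2 (S.T 0 1 2 v) + S.T 0 1 2 v + v = 0) (hζ : ∀ v, S.ζ v = -v) (k : ℕ)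
    (hk : 2 * k + 2 ≤ r) (h2 : (2 : K) = 0) (hk2 : k % 2 = 0) : 2 ^ k ≤ finrank K V := by
  have hv2 : ∀ v : V, v + v = 0 := fun v => by rw [← two_smul K v, h2, zero_smul]
  have q : ∀ i, i + 2 < r → ∀ v, S.T 0 1 (i + 2) (S.T 0 1 (i + 2) v) = - S.T 0 1 (i + 2) v - v :=
    fun i hi v => by
      have := S.quad_all hr hq (a := 0) (b := 1) (c := i + 2) (by omega) v
      linear_combination (norm := abel) this
  have q2 : ∀ i j, i + 2 < r → j + 2 < r → i ≠ j → ∀ v, S.T 0 1 (i + 2) (S.T 0 1 (j + 2) v) +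
      S.T 0 1 (j + 2) (S.T 0 1 (i + 2) v) + S.T 0 1 (i + 2) v + S.T 0 1 (j + 2) v + v = 0 :=
    fun i j hi hj hij v => by
      rw [S.quad_rel hr hq (c := i + 2) (d := j + 2) (by omega) (by omega) (by omega), hζ]
      abel
  obtain _ | k := k
  · exact finrank_pos
  obtain ⟨m, rfl⟩ : ∃ m, k = 2 * m + 1 := ⟨k / 2, by omega⟩
  set n := 2 * (2 * m + 1) + 1 with hn
  let u : ℕ → End K V := fun i => S.T 0 1 (i + 1 + 2) - S.T 0 1 (0 + 2)
  have u1 : ∀ i < n, ∀ v, u i (u i v) = v := fun i hi v => by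
    simp only [u, LinearMap.sub_apply, map_sub, q (i + 1) (by omega), q 0 (by omega)]
    linear_combination (norm := abel) -q2 (i + 1) 0 (by omega) (by omega) (by omega) v - hv2 v
  have u2 : ∀ i < n, ∀ j < n, i ≠ j → ∀ v, u i (u j v) + u j (u i v) = v := fun i hi j hj hij v => by
    simp only [u, LinearMap.sub_apply, map_sub, q 0 (by omega)]
    linear_combination (norm := abel) q2 (i + 1) (j + 1) (by omega) (by omega) (by omega) v -
      q2 (i + 1) 0 (by omega) (by omega) (by omega) v -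
      q2 (j + 1) 0 (by omega) (by omega) (by omega) v - hv2 v
  have u3 : ∀ i < n, ∀ v, u i (S.T 0 1 (0 + 2) v) + S.T 0 1 (0 + 2) (u i v) = u i v + v :=
    fun i hi v => by
    simp only [u, LinearMap.sub_apply, map_sub, q 0 (by omega)]
    linear_combination (norm := abel) q2 (i + 1) 0 (by omega) (by omega) (by omega) v +
      hv2 (S.T 0 1 (0 + 2) v) - hv2 (S.T 0 1 (i + 1 + 2) v)
  set e := ∑ i ∈ Finset.range n, u i with he
  have e1 : ∀ v, e (e v) = 0 := fun v => by
    rw [he, sum_sq u n u1 u2, show (n + 1).choose 2 = 2 * ((m + 1) * n) by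
      rw [Nat.choose_two_right, Nat.add_sub_cancel]
      exact Nat.div_eq_of_eq_mul_right (by norm_num) (by rw [hn]; ring)]
    push_cast
    rw [h2, zero_mul, zero_smul]
  have e2 : ∀ j < n, ∀ v, e (u j v) + u j (e v) = 0 := fun j hj v => by
    simp only [he, LinearMap.sum_apply, map_sum, ← Finset.sum_add_distrib]
    rw [← Finset.add_sum_erase _ _ (Finset.mem_range.2 hj), hv2, zero_add,
      Finset.sum_congr rfl fun i hi => u2 i (by simp at hi; omega) j hj (by simp at hi; omega) v,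
      Finset.sum_const, Finset.card_erase_of_mem (Finset.mem_range.2 hj), Finset.card_range, hn,
      Nat.add_sub_cancel, mul_smul, two_smul, hv2]
  have e3 : ∀ v, e (S.T 0 1 (0 + 2) v) + S.T 0 1 (0 + 2) (e v) = e v + v := fun v => by
    simp only [he, LinearMap.sum_apply, map_sum, ← Finset.sum_add_distrib]
    rw [Finset.sum_congr rfl fun i hi => u3 i (by simpa using hi) v, Finset.sum_add_distrib,
      Finset.sum_const, Finset.card_range, hn, succ_nsmul, mul_smul, two_smul, hv2, zero_add]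
  have hU : ∀ j < n, ∀ v ∈ LinearMap.ker e, u j v ∈ LinearMap.ker e := fun j hj v hv => by
    have := e2 j hj v
    rw [LinearMap.mem_ker] at hv ⊢
    rwa [hv, map_zero, add_zero] at this
  haveI : Nontrivial (LinearMap.ker e) := by
    obtain ⟨v, hv⟩ := exists_ne (0 : V)
    by_cases h : e v = 0
    · exact ⟨⟨⟨v, h⟩, 0, fun e => hv (congrArg Subtype.val e)⟩⟩
    · exact ⟨⟨⟨e v, e1 v⟩, 0, fun e => h (congrArg Subtype.val e)⟩⟩
  classical
  have h1 := cliff_gram (K := K) (V := LinearMap.ker e) (2 * m + 1)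
    (fun j => if hj : j < n then (u j).restrict (hU j hj) else 1) 1 1
    (fun i hi v => by
      rw [dif_pos (show i < n by omega), one_smul]
      exact Subtype.ext (u1 i (by omega) v))
    (fun i hi j hj hij v => by
      rw [dif_pos (show i < n by omega), dif_pos (show j < n by omega), one_smul]
      exact Subtype.ext (u2 i (by omega) j (by omega) hij v))
    (by rw [h2]; simp) (by rw [h2]; simp)
  have h3 := e.finrank_range_add_finrank_ker
  have h4 : finrank K (LinearMap.ker e) ≤ finrank K (LinearMap.range e) :=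
    Submodule.finrank_mono fun v hv => ⟨S.T 0 1 (0 + 2) v, by
      have := e3 v
      rwa [LinearMap.mem_ker.1 hv, map_zero, add_zero, zero_add v] at this⟩
  rw [pow_succ]
  omega

theorem quad_bound2 [IsAlgClosed K] [FiniteDimensional K V] [Nontrivial V] (hr : 5 ≤ r)
    (hq : ∀ v, S.T 0 1 2 (S.T 0 1 2 v) + S.T 0 1 2 v + v = 0) (k : ℕ)
    (hk : 2 * k + 2 ≤ r) (h2 : (2 : K) = 0) (hk2 : k % 2 = 0) : 2 ^ k ≤ finrank K V := by
  have hv2 : ∀ v : V, v + v = 0 := fun v => by rw [← two_smul K v, h2, zero_smul]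
  haveI : Nontrivial (S.ζ.eigenspace (-1)) := by
    rw [Submodule.nontrivial_iff_ne_bot]
    intro h
    have h1 : ∀ v, S.ζ v = -v → v = 0 := fun v hv => by
      rw [← Submodule.mem_bot K, ← h, End.mem_eigenspace_iff, hv, neg_one_smul]
    obtain ⟨v, hv⟩ := exists_ne (0 : V)
    have h3 : S.ζ v - v = 0 := h1 _ (by rw [map_sub, S.zeta_sq (by omega), neg_sub])
    exact hv (h1 v (by linear_combination (norm := abel) h3 + hv2 v))
  refine (quad_core2 (S.resC 0 (by omega) _ (S.hU_ζ (-1))) (by omega) (fun v => ?_) (fun v => ?_) k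
    (by simpa using hk) h2 hk2).trans (Submodule.finrank_le _)
  · apply Subtype.ext
    simp only [Submodule.coe_add, Submodule.coe_zero]
    rw [S.resC_T _ _ _ _ (by omega), S.resC_T _ _ _ _ (by omega)]
    exact hq v
  · apply Subtype.ext
    rw [TSys.resC_ζ, End.mem_eigenspace_iff.1 v.2]
    simp

end char2

open Classical in
theorem exists_tsys' {K V H : Type*} [Field K] [AddCommGroup V] [Module K V] [Group H] {r : ℕ}
    (hr : 9 ≤ r) (π : H →* Perm (Fin r)) (hZ : ∀ h, π h = 1 → ∀ g, g * h = h * g)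
    (hs : ∀ σ : Perm (Fin r), σ.sign = 1 → ∃ h, π h = σ) (ρ : H →* End K V) :
    ∃ S : TSys K V r, ∀ a b c (h : D3(r; a, b, c)), ∃ x,
      IsT π ⟨a, h.1⟩ ⟨b, h.2.1⟩ ⟨c, h.2.2.1⟩ x ∧ S.T a b c = ρ x := by
  have hc : 9 ≤ Fintype.card (Fin r) := by simpa using hr
  have nd : ∀ {a b c : ℕ} (h : D3(r; a, b, c)),
      [(⟨a, h.1⟩ : Fin r), ⟨b, h.2.1⟩, ⟨c, h.2.2.1⟩].Nodup := fun h => by simp [h]
  obtain ⟨t, ht⟩ : ∃ t : ℕ → ℕ → ℕ → H, ∀ a b c (h : D3(r; a, b, c)),
      IsT π ⟨a, h.1⟩ ⟨b, h.2.1⟩ ⟨c, h.2.2.1⟩ (t a b c) :=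
    ⟨fun a b c => if h : D3(r; a, b, c) then (IsT.exists π hc (nd h) hs).choose else 1,
      fun a b c h => by simpa only [dif_pos h] using (IsT.exists π hc (nd h) hs).choose_spec⟩
  have hconj : ∀ (g : H) {a b c a' b' c'} (h : D3(r; a, b, c)) (h' : D3(r; a', b', c')),
      (π g ⟨a, h.1⟩ : ℕ) = a' → (π g ⟨b, h.2.1⟩ : ℕ) = b' → (π g ⟨c, h.2.2.1⟩ : ℕ) = c' →
      g * t a b c = t a' b' c' * g := by
    intro g a b c a' b' c' h h' e1 e2 e3
    have := (ht a b c h).conj π g
    rw [show π g ⟨a, h.1⟩ = ⟨a', h'.1⟩ from Fin.ext e1, show π g ⟨b, h.2.1⟩ = ⟨b', h'.2.1⟩ from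
      Fin.ext e2, show π g ⟨c, h.2.2.1⟩ = ⟨c', h'.2.2.1⟩ from Fin.ext e3] at this
    rw [← this.uniq π hZ hc (ht a' b' c' h') hs]
    group
  have hR : ∀ {x y z a a'} (h : D3(r; x, y, z)) (ha : a < r), R3(x, y, z; a, a') →
      (π (t x y z) ⟨a, ha⟩ : ℕ) = a' := by
    intro x y z a a' h ha hR
    rw [(ht x y z h).map]
    obtain ⟨e1, e2, e3, e4⟩ := cy3_apply (nd h)
    rcases hR with ⟨rfl, rfl⟩ | ⟨rfl, rfl⟩ | ⟨rfl, rfl⟩ | ⟨h1, h2, h3, rfl⟩
    · rw [e1]
    · rw [e2]
    · rw [e3]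
    · rw [e4 _ (by simpa using h1) (by simpa using h2) (by simpa using h3)]
  have hinv : ∀ {a b c} (h : D3(r; a, b, c)), t a c b = (t a b c)⁻¹ := fun {a b c} h =>
    (ht a c b (d3_swap h)).uniq π hZ hc ((ht a b c h).inv π hZ) hs
  have hζ := hZ (t 0 1 2 * t 0 1 3 * (t 0 1 2 * t 0 1 3)) (by
    simp only [map_mul]
    rw [(ht 0 1 2 (by omega)).map, (ht 0 1 3 (by omega)).map]
    exact cy3_four (by simp))
  refine ⟨{ T := fun a b c => ρ (t a b c)
            ζ := ρ (t 0 1 2 * t 0 1 3 * (t 0 1 2 * t 0 1 3))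
            cyc := fun {a b c} h => ?_
            inv := fun {a b c} h v => ?_
            sq := fun {a b c} h v => ?_
            conj := fun {x y z a b c} a' b' c' h h' h1 h2 h3 v => ?_
            four := fun {a b c d} h h' hcd v => ?_
            comm := fun {a b c} h v => ?_ }, fun a b c h => ⟨_, ht a b c h, rfl⟩⟩
  · have := hconj (t a b c) h (d3_cyc h) (hR h _ (by simp)) (hR h _ (by simp)) (hR h _ (by simp))
    rw [mul_right_cancel this]
  · rw [← End.mul_apply, ← map_mul, hinv h, mul_inv_cancel, map_one, End.one_apply]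
  · rw [← End.mul_apply, ← map_mul, hinv h, eq_inv_of_mul_eq_one_left ((ht a b c h).cube π hZ)]
  · rw [← End.mul_apply, ← map_mul, hconj _ h' (d3_r3 h h' h1 h2 h3) (hR h _ h1) (hR h _ h2)
      (hR h _ h3), map_mul, End.mul_apply]
  · haveI := alternatingGroup.isMultiplyPretransitive (Fin r)
    haveI : MulAction.IsMultiplyPretransitive (alternatingGroup (Fin r)) (Fin r) 4 :=
      MulAction.isMultiplyPretransitive_of_le (n := Nat.card (Fin r) - 2) (by simp; omega) (by simp)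
    obtain ⟨σ, hσ⟩ := MulAction.exists_smul_eq (alternatingGroup (Fin r))
      (⟨![⟨0, by omega⟩, ⟨1, by omega⟩, ⟨2, by omega⟩, ⟨3, by omega⟩], by
        intro i j; fin_cases i <;> fin_cases j <;> simp⟩ : Fin 4 ↪ Fin r)
      ⟨![⟨a, h.1⟩, ⟨b, h.2.1⟩, ⟨c, h.2.2.1⟩, ⟨d, h'.2.2.1⟩], by
        intro i j; fin_cases i <;> fin_cases j <;> simp <;> omega⟩
    obtain ⟨g, hg⟩ := hs σ σ.2
    have e := fun i => congrArg Fin.val (DFunLike.congr_fun hσ i)
    have e1 := hconj g (a := 0) (b := 1) (c := 2) (by omega) h (by rw [hg]; exact e 0) (by rw [hg]; exact e 1) (by rw [hg]; exact e 2)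
    have e2 := hconj g (a := 0) (b := 1) (c := 3) (by omega) h' (by rw [hg]; exact e 0) (by rw [hg]; exact e 1) (by rw [hg]; exact e 3)
    have e3 : t a b c * t a b d * (t a b c * t a b d) = t 0 1 2 * t 0 1 3 * (t 0 1 2 * t 0 1 3) := by
      apply mul_right_cancel (b := g)
      rw [← hζ]
      simp only [mul_assoc, ← e1, ← e2]
      simp only [← mul_assoc, e1, e2]
      simp only [mul_assoc, e1, e2]
    rw [← e3]
    simp
  · rw [← End.mul_apply, ← map_mul, ← hζ, map_mul, End.mul_apply]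

section
variable {K V H : Type*} [Field K] [IsAlgClosed K] [AddCommGroup V] [Module K V]
  [FiniteDimensional K V] [Group H] (ρ : H →* End K V)

theorem ab_case' {Q : Type*} [Group Q] [Nontrivial V] (π : H →* Q)
    (hN : ∀ M : Subgroup H, M.Normal → M ≤ π.ker ∨ M = ⊤) (hρ : Function.Injective ρ)
    (hirr : ∀ W : Submodule K V, (∀ h, ∀ v ∈ W, ρ h v ∈ W) → W = ⊥ ∨ W = ⊤)
    (R : Subgroup H) [hR : R.Normal] (hc : ∀ x ∈ R, ∀ y ∈ R, x * y = y * x)
    (hZ : ¬ R ≤ Subgroup.center H) {y : H} (hy1 : π y ≠ 1) (hy : y ^ 3 = 1)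
    (hq : ∀ v, ρ y (ρ y v) + ρ y v + v = 0) : False := by
  let Ω := {χ : R → K // ∃ v : V, v ≠ 0 ∧ ∀ x : R, ρ x v = χ x • v}
  letI : MulAction H Ω :=
    { smul := fun g χ => ⟨fun x => χ.1 ⟨g⁻¹ * x * g, hR.conj_mem' _ x.2 g⟩, by
        obtain ⟨v, hv, h⟩ := χ.2
        refine ⟨ρ g v, fun e => hv ?_, fun x => ?_⟩
        · have := congrArg (ρ g⁻¹) e
          rwa [← End.mul_apply, ← map_mul, inv_mul_cancel, map_one, map_zero] at this
        · rw [← map_smul, ← h, ← End.mul_apply, ← map_mul, ← End.mul_apply, ← map_mul]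
          congr 2
          simp [mul_assoc]⟩
      one_smul := fun χ => Subtype.ext (funext fun x => congrArg χ.1 (Subtype.ext (by simp)))
      mul_smul := fun g h χ => Subtype.ext (funext fun x => congrArg χ.1 (Subtype.ext (by
        simp [mul_assoc]))) }
  have hs : ∀ (g : H) (χ : Ω) (x : R), (g • χ).1 x = χ.1 ⟨g⁻¹ * x * g, hR.conj_mem' _ x.2 g⟩ :=
    fun _ _ _ => rfl
  have hw : ∀ (g : H) (χ : Ω) (v : V), (∀ x : R, ρ x v = χ.1 x • v) →
      ∀ x : R, ρ x (ρ g v) = (g • χ).1 x • ρ g v := fun g χ v h x => by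
    rw [hs, ← map_smul, ← h, ← End.mul_apply, ← map_mul, ← End.mul_apply, ← map_mul]
    congr 2
    simp [mul_assoc]
  rcases hN _ (MulAction.toPermHom H Ω).normal_ker with h | h
  · refine hy1 (h (Equiv.ext fun χ => ?_))
    by_contra hχ
    obtain ⟨v, hv0, hv⟩ := χ.2
    have h3 : y • y • y • χ = χ := by
      rw [smul_smul, smul_smul, show y * y * y = 1 by rw [← hy, pow_succ, pow_two], one_smul]
    have n1 : y • χ ≠ χ := hχ
    have n2 : y • y • χ ≠ χ := fun e => n1 (by rwa [e] at h3)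
    have n3 : y • y • χ ≠ y • χ := fun e => n1 (smul_left_cancel y e)
    have hi : ∀ u, u ≠ 0 → ρ y u ≠ 0 := fun u hu e => hu (by
      have := hq u
      rwa [e, map_zero, zero_add, zero_add] at this)
    have li := li_of_weights (fun x : R => ρ x) ![ρ y (ρ y v), ρ y v, v]
      ![(y • y • χ).1, (y • χ).1, χ.1] (fun i j e => by
        fin_cases i <;> fin_cases j <;> simp [Subtype.val_inj, n1, n2, n3, n1.symm, n2.symm,
          n3.symm] at e ⊢)
      (fun i => by
        fin_cases i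
        exacts [hi _ (hi _ hv0), hi _ hv0, hv0])
      (fun i => by
        fin_cases i
        exacts [hw _ _ _ (hw _ _ _ hv), hw _ _ _ hv, hv])
    have := Fintype.linearIndependent_iff.1 li ![1, 1, 1] (by
      simpa [Fin.sum_univ_three] using hq v) 0
    simp at this
  · obtain ⟨χ, u, hu0, hu⟩ := exists_weight ρ R hc
    have := scalar_of_fixed ρ hirr R χ hu0 hu fun g x => by
      have e : MulAction.toPermHom H Ω g = 1 := by rw [← MonoidHom.mem_ker, h]; trivial
      exact congrFun (congrArg Subtype.val (DFunLike.congr_fun e ⟨χ, u, hu0, hu⟩)) x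
    refine (hZ fun x hx => Subgroup.mem_center_iff.2 fun g => hρ (LinearMap.ext fun w => ?_)).elim
    rw [map_mul, map_mul, End.mul_apply, End.mul_apply, this ⟨x, hx⟩, this ⟨x, hx⟩, map_smul]

end

theorem elem_case' {r : ℕ} (hr : 9 ≤ r) {H : Type*} [Group H]
    [Finite H] (π : H →* alternatingGroup (Fin r)) (hπ : Function.Surjective π) {A : Type*}
    [CommGroup A] [Finite A] (l : ℕ) [Fact l.Prime] (hl : ∀ a : A, a ^ l = 1)
    (φ : H →* MulAut A) (hφ : ∀ h, φ h = 1 → π h = 1) : 2 ^ (r - 2) ≤ Nat.card A := by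
  haveI : Module (ZMod l) (Additive A) := AddCommGroup.zmodModule fun x => hl x.toMul
  let θ : H →* End (ZMod l) (Additive A) :=
    { toFun := fun h => (MonoidHom.toAdditive (φ h).toMonoidHom).toZModLinearMap l
      map_one' := LinearMap.ext fun x => by
        rw [map_one]
        rfl
      map_mul' := fun g h => by ext x; simp }
  have hθ : ∀ h, θ h = 1 → π h = 1 := fun h e => hφ h (MulEquiv.ext fun a =>
    (LinearMap.congr_fun e (Additive.ofMul a) :))
  obtain ⟨ρ', h'⟩ := base_change (algebraMap (ZMod l) (AlgebraicClosure (ZMod l))) θ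
  have h1 := altP hr (finrank (ZMod l) (Additive A)) _ l _ H π ρ' hπ (fun h e => hθ h (h' h e))
    (by simp)
  have h2 : Nat.card A = l ^ finrank (ZMod l) (Additive A) := by
    have := Module.natCard_eq_pow_finrank (K := ZMod l) (V := Additive A)
    rwa [Nat.card_zmod] at this
  rw [h2]
  exact (Nat.pow_le_pow_right (by norm_num) (by split_ifs at h1 <;> omega)).trans
    (Nat.pow_le_pow_left (Fact.out : l.Prime).two_le _)

theorem irr_case' {r : ℕ} (hr : 9 ≤ r) {K V : Type*} [Field K] [IsAlgClosed K]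
    [AddCommGroup V] [Module K V] [FiniteDimensional K V] [Nontrivial V]
    {H : Type*} [Group H] [Finite H] (π : H →* alternatingGroup (Fin r)) (ρ : H →* End K V)
    (hπ : Function.Surjective π) (hρ : Function.Injective ρ)
    (hmin : ∀ M : Subgroup H, M.map π = ⊤ → M = ⊤)
    (hirr : ∀ W : Submodule K V, (∀ h, ∀ v ∈ W, ρ h v ∈ W) → W = ⊥ ∨ W = ⊤)
    {y : H} (hy1 : π y ≠ 1) (hy : y ^ 3 = 1) (hq : ∀ v, ρ y (ρ y v) + ρ y v + v = 0)
    (hZ : ¬ π.ker ≤ Subgroup.center H) : 2 ^ (r - 2) ≤ finrank K V * finrank K V := by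
  haveI := alternatingGroup.isSimpleGroup (α := Fin r) (by simp; omega)
  have hN : ∀ M : Subgroup H, M.Normal → M ≤ π.ker ∨ M = ⊤ := fun M hM =>
    ((hM.map π hπ).eq_bot_or_eq_top).imp (Subgroup.map_eq_bot_iff _).1 (hmin M)
  obtain ⟨R, ⟨hR, hRN, hRZ⟩, hm⟩ := exists_minimal_of_wellFoundedLT
    (fun R : Subgroup H => R.Normal ∧ R ≤ π.ker ∧ ¬ R ≤ Subgroup.center H)
    ⟨π.ker, π.normal_ker, le_rfl, hZ⟩
  have hm' : ∀ M : Subgroup H, M.Normal → M ≤ R → R ≤ M ∨ M ≤ Subgroup.center H := fun M h1 h2 =>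
    or_iff_not_imp_right.2 fun h3 => hm ⟨h1, h2.trans hRN, h3⟩ h2
  by_cases hc : ∀ x ∈ R, ∀ y ∈ R, x * y = y * x
  · exact (ab_case' ρ π hN hρ hirr R hc hRZ hy1 hy hq).elim
  have hF : π.ker ≤ frattini H := le_iInf₂ fun M hM => by
    by_contra h
    refine hM.1 (hmin M (eq_top_iff.2 fun q _ => ?_))
    obtain ⟨g, rfl⟩ := hπ q
    have h1 : M ⊔ π.ker = ⊤ := hM.2 _ (left_lt_sup.2 h)
    rw [← Subgroup.mem_comap, Subgroup.comap_map_eq, h1]
    trivial
  have hRR : ⁅R, R⁆ ≤ Subgroup.center H := by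
    haveI := frattini_nilpotent (G := H)
    haveI : Group.IsSolvable R := Group.isSolvable_of_isSolvable_injective
      (Subgroup.inclusion_injective (hRN.trans hF))
    haveI : Nontrivial R := (Subgroup.nontrivial_iff_ne_bot _).2 fun h => hRZ (h ▸ bot_le)
    have h1 := Group.IsSolvable.commutator_lt_top_of_nontrivial R
    rw [← Subgroup.map_subtype_lt_map_subtype, ← MonoidHom.range_eq_map, Subgroup.range_subtype,
      Subgroup.map_subtype_commutator] at h1
    exact (hm' _ inferInstance h1.le).resolve_left h1.not_ge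
  have hc' : ∀ x ∈ R, ∀ y ∈ R, y * x * y⁻¹ * x⁻¹ ∈ Subgroup.center H := fun x hx y hy =>
    hRR (Subgroup.commutator_mem_commutator hy hx)
  have hZ' : ∀ x ∈ R, (∀ y ∈ R, x * y = y * x) → x ∈ Subgroup.center H := fun x hx h =>
    (hm' (R ⊓ Subgroup.centralizer R) inferInstance inf_le_left).resolve_left
      (fun h => hc fun x hx y hy => (h hy).2 x hx) ⟨hx, fun y hy => (h y hy).symm⟩
  have hA := card_map_le ρ hρ hirr R hc' hZ'
  set A := R.map (QuotientGroup.mk' (Subgroup.center H)) with hAdef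
  haveI hAn : A.Normal := hR.map _ (QuotientGroup.mk'_surjective _)
  have hAc : ∀ a b : A, a * b = b * a := by
    rintro ⟨_, x, hx, rfl⟩ ⟨_, y, hy, rfl⟩
    apply Subtype.ext
    have := (QuotientGroup.eq_one_iff _).2 (hc' y hy x hx)
    simpa [mul_inv_eq_one, mul_inv_eq_iff_eq_mul] using this
  letI : CommGroup A := { (inferInstance : Group A) with mul_comm := hAc }
  haveI : Nontrivial A := (Subgroup.nontrivial_iff_ne_bot _).2 fun h => hRZ (by
    rwa [hAdef, Subgroup.map_eq_bot_iff, QuotientGroup.ker_mk'] at h)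
  obtain ⟨l, hl, hl'⟩ := Nat.exists_prime_and_dvd (Finite.one_lt_card (α := A)).ne'
  haveI := Fact.mk hl
  have hexp : ∀ a : A, a ^ l = 1 := by
    obtain ⟨a, ha⟩ := exists_prime_orderOf_dvd_card' l hl'
    let B : Subgroup A := (powMonoidHom l).ker
    haveI : B.Characteristic := Subgroup.characteristic_iff_le_comap.2 fun f x hx => by
      simp only [B, Subgroup.mem_comap, MonoidHom.mem_ker, powMonoidHom_apply] at hx ⊢
      rw [← map_pow, hx, map_one]
    haveI : (B.map A.subtype).Normal := inferInstance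
    rcases hm' (R ⊓ (B.map A.subtype).comap (QuotientGroup.mk' _)) inferInstance inf_le_left
      with h | h
    · rintro ⟨_, x, hx, rfl⟩
      obtain ⟨b, hb, e⟩ := (h hx).2
      rw [← show b = ⟨_, x, hx, rfl⟩ from Subtype.ext e]
      exact hb
    · obtain ⟨_, x, hx, rfl⟩ := a
      have := h ⟨hx, ⟨_, x, hx, rfl⟩, by
        rw [SetLike.mem_coe, MonoidHom.mem_ker, powMonoidHom_apply, ← ha, pow_orderOf_eq_one], rfl⟩
      rw [show (⟨_, x, hx, rfl⟩ : A) = 1 from Subtype.ext ((QuotientGroup.eq_one_iff _).2 this),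
        orderOf_one] at ha
      exact (hl.one_lt.ne ha).elim
  let φ : H →* MulAut A := MulAut.conjNormal.comp (QuotientGroup.mk' _)
  rcases hN _ φ.normal_ker with h | h
  · exact (elem_case' hr π hπ l hexp φ fun x hx => h hx).trans hA
  exfalso
  refine hRZ fun x hx => ?_
  have h1 : ∀ g, g * x * g⁻¹ * x⁻¹ ∈ Subgroup.center H := fun g => by
    have e : φ g = 1 := by rw [← MonoidHom.mem_ker, h]; trivial
    have e1 := congrArg Subtype.val (DFunLike.congr_fun e ⟨_, x, hx, rfl⟩)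
    rw [← QuotientGroup.eq_one_iff]
    simpa [φ, mul_inv_eq_one] using e1
  let ψ : H →* Subgroup.center H :=
    { toFun := fun g => ⟨_, h1 g⟩
      map_one' := Subtype.ext (by simp)
      map_mul' := fun g k => Subtype.ext (by
        have := Subgroup.mem_center_iff.1 (h1 k) (x * g⁻¹ * x⁻¹)
        simp only [Subgroup.coe_mul]
        calc _ = g * (k * x * k⁻¹ * x⁻¹ * (x * g⁻¹ * x⁻¹)) := by group
          _ = _ := by rw [← this]; group) }
  rcases hN _ ψ.normal_ker with h2 | h2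
  · refine (alt_noncomm hr fun a b => ?_).elim
    obtain ⟨a, rfl⟩ := hπ a
    obtain ⟨b, rfl⟩ := hπ b
    have := h2 (show a * b * a⁻¹ * b⁻¹ ∈ ψ.ker by
      rw [MonoidHom.mem_ker, map_mul, map_mul, map_mul, map_inv, map_inv,
        show ψ a * ψ b = ψ b * ψ a from Subtype.ext (Subgroup.mem_center_iff.1 (ψ b).2 _)]
      simp)
    simpa [mul_inv_eq_one, mul_inv_eq_iff_eq_mul] using this
  · refine Subgroup.mem_center_iff.2 fun g => ?_
    have e : ψ g = 1 := by rw [← MonoidHom.mem_ker, h2]; trivial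
    simpa [ψ, mul_inv_eq_one, mul_inv_eq_iff_eq_mul] using congrArg Subtype.val e

section spin
variable {K : Type*} [Field K] [IsAlgClosed K] {H : Type*} [Group H] [Finite H]

theorem cy3_ne_one {α : Type*} [DecidableEq α] {a b c : α} (hn : [a, b, c].Nodup) :
    cy3 a b c ≠ 1 := fun e => by
  have := (cy3_apply hn).1
  rw [e] at this
  simp only [List.nodup_cons, List.mem_cons, not_or] at hn
  exact hn.1.1 this

theorem spin_cen {r k : ℕ} (hr : 9 ≤ r) (h3 : (3 : K) ≠ 0) (π : H →* alternatingGroup (Fin r))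
    (hπ : Function.Surjective π) (hZ : π.ker ≤ Subgroup.center H)
    {V : Type*} [AddCommGroup V] [Module K V] [FiniteDimensional K V] [Nontrivial V]
    (ρ : H →* Module.End K V) {y : H} {a b c : Fin r} (hn : [a, b, c].Nodup)
    (h1 : (π y).1 = CfsgH7.cy3 a b c) (hy : y ^ 3 = 1) (hreal : ∃ h : H, h * y * h⁻¹ = y⁻¹)
    (hq : ∀ v, ρ y (ρ y v) + ρ y v + v = 0) (hk : r = 2 * k + 2)
    (hk' : ((2 : K) ≠ 0 ∧ (k + 1 : K) ≠ 0) ∨ ((2 : K) = 0 ∧ k % 2 = 0)) :
    2 ^ k ≤ Module.finrank K V := by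
  haveI : Fact (Nat.Prime 3) := ⟨by norm_num⟩
  have hZ' : ∀ h, ((alternatingGroup (Fin r)).subtype.comp π) h = 1 → ∀ g, g * h = h * g :=
    fun h e g => Subgroup.mem_center_iff.1 (hZ (Subtype.ext e)) g
  obtain ⟨S, hS⟩ := exists_tsys' hr ((alternatingGroup (Fin r)).subtype.comp π) hZ'
    (fun σ hσ => by
      obtain ⟨h, e⟩ := hπ ⟨σ, hσ⟩
      exact ⟨h, congrArg Subtype.val e⟩) ρ
  have hD : D3(r; a.1, b.1, c.1) := by
    simp only [List.nodup_cons, List.mem_cons, not_or] at hn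
    exact ⟨a.2, b.2, c.2, Fin.val_ne_of_ne hn.1.1, Fin.val_ne_of_ne hn.1.2.1,
      Fin.val_ne_of_ne hn.2.1.1⟩
  obtain ⟨x, hx, hx'⟩ := hS a b c hD
  have hxr : ∃ h : H, h * x * h⁻¹ = x⁻¹ := by
    obtain ⟨d, e, z, s, h1, h2, h3, rfl⟩ := hx
    have e3 := hZ' (s * s) (by rw [map_mul, h3, swap2_sq (by simp_all)]) z⁻¹
    refine ⟨s, ?_⟩
    calc _ = s * z * s⁻¹ * (s * s * z⁻¹) * (s * s)⁻¹ := by group
      _ = _ := by rw [← e3]; group
  obtain ⟨g, hg⟩ := isConj_iff.1 (real_conj π hπ 3 (by norm_num) (fun k hk _ g =>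
    Subgroup.mem_center_iff.1 (hZ hk) g) hy (y' := x) (by rw [← hx.cube _ hZ', pow_succ, pow_two])
    hreal hxr (by rw [show π y = π x from Subtype.ext (h1.trans hx.map.symm)]))
  have hq1 : ∀ v, S.T a b c (S.T a b c v) + S.T a b c v + v = 0 := fun v => by
    have e := congrArg (ρ g) (hq (ρ g⁻¹ v))
    simp only [map_add, map_zero, ← End.mul_apply, ← map_mul, mul_inv_cancel, map_one] at e
    rw [hx', ← hg, ← End.mul_apply, ← map_mul, show g * y * g⁻¹ * (g * y * g⁻¹) =
      g * (y * (y * g⁻¹)) by group, mul_assoc]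
    exact e
  have hq0 : ∀ v, S.T 0 1 2 (S.T 0 1 2 v) + S.T 0 1 2 v + v = 0 := fun v => by
    obtain ⟨g, hg⟩ := S.tr3 (by omega) hD
    apply g.injective
    rw [map_add, map_add, hg, hg, hq1, map_zero]
  rcases hk' with hk' | hk'
  · refine S.quad_bound (by omega) ?_ hq0 k (Or.inl ⟨by omega, hk'⟩)
    obtain ⟨v, hv⟩ := exists_ne (0 : V)
    refine ⟨v, fun e => hv ?_⟩
    have := hq0 v
    rw [e, e] at this
    exact (smul_eq_zero.1 (by linear_combination (norm := module) this : (3 : K) • v = 0)).resolve_left h3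
  · exact quad_bound2 S (by omega) hq0 k (by omega) hk'.1 hk'.2

theorem spin {r k : ℕ} (hr : 9 ≤ r) (h3 : (3 : K) ≠ 0) (π : H →* alternatingGroup (Fin r))
    (hπ : Function.Surjective π) (hmin : ∀ M : Subgroup H, M.map π = ⊤ → M = ⊤)
    {V : Type*} [AddCommGroup V] [Module K V] [FiniteDimensional K V] [Nontrivial V]
    (ρ : H →* Module.End K V) {y : H} {a b c : Fin r} (hn : [a, b, c].Nodup)
    (h1 : (π y).1 = CfsgH7.cy3 a b c) (hy : y ^ 3 = 1) (hreal : ∃ h : H, h * y * h⁻¹ = y⁻¹)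
    (hq : ∀ v, ρ y (ρ y v) + ρ y v + v = 0) (hk : r = 2 * k + 2)
    (hk' : ((2 : K) ≠ 0 ∧ (k + 1 : K) ≠ 0) ∨ ((2 : K) = 0 ∧ k % 2 = 0)) :
    2 ^ k ≤ Module.finrank K V := by
  haveI := alternatingGroup.isSimpleGroup (α := Fin r) (by simp; omega)
  obtain ⟨U, hU⟩ := exists_minimal_of_wellFoundedLT
    (fun U : Submodule K V => U ≠ ⊥ ∧ ∀ h, ∀ v ∈ U, ρ h v ∈ U) ⟨⊤, by simp, by simp⟩
  haveI : Nontrivial U := Submodule.nontrivial_iff_ne_bot.2 hU.1.1
  refine le_trans ?_ (Submodule.finrank_le U)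
  let ρ₁ : H →* End K U :=
    { toFun := fun h => (ρ h).restrict (hU.1.2 h)
      map_one' := by ext; simp
      map_mul' := fun g h => by ext; simp }
  have hq1 : ∀ v, ρ₁ y (ρ₁ y v) + ρ₁ y v + v = 0 := fun v => Subtype.ext (hq v)
  have hy1 : π y ≠ 1 := fun e => cy3_ne_one hn (by rw [← h1, e]; rfl)
  have hker : ρ₁.ker ≤ π.ker := by
    refine (((ρ₁.normal_ker.map π hπ).eq_bot_or_eq_top).imp (Subgroup.map_eq_bot_iff _).1
      (hmin _)).resolve_right fun e => ?_
    have e1 : ρ₁ y = 1 := by rw [← MonoidHom.mem_ker, e]; trivial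
    obtain ⟨v, hv⟩ := exists_ne (0 : U)
    have := hq1 v
    rw [e1, End.one_apply, End.one_apply] at this
    exact hv ((smul_eq_zero.1 (by linear_combination (norm := module) this :
      (3 : K) • v = 0)).resolve_left h3)
  let π' : H ⧸ ρ₁.ker →* alternatingGroup (Fin r) := QuotientGroup.lift _ π hker
  let ρ' : H ⧸ ρ₁.ker →* End K U := QuotientGroup.lift _ ρ₁ le_rfl
  have hπ' : Function.Surjective π' := fun q => by
    obtain ⟨x, rfl⟩ := hπ q
    exact ⟨x, rfl⟩
  have hy' : (y : H ⧸ ρ₁.ker) ^ 3 = 1 := by rw [← QuotientGroup.mk_pow, hy]; rfl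
  by_cases hZ : π'.ker ≤ Subgroup.center _
  · obtain ⟨h, hh⟩ := hreal
    exact spin_cen hr h3 π' hπ' hZ ρ' (y := y) hn h1 hy' ⟨h, congrArg QuotientGroup.mk hh⟩ hq1 hk hk'
  have := irr_case' hr π' ρ' hπ' ((injective_iff_map_eq_one ρ').2 fun a ha => by
      obtain ⟨x, rfl⟩ := QuotientGroup.mk_surjective a
      exact (QuotientGroup.eq_one_iff _).2 ha)
    (fun M hM => by
      have := hmin (M.comap (QuotientGroup.mk' _)) (eq_top_iff.2 fun q _ => by
        obtain ⟨x, hx, rfl⟩ : q ∈ M.map π' := hM ▸ Subgroup.mem_top q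
        obtain ⟨x, rfl⟩ := QuotientGroup.mk_surjective x
        exact ⟨x, hx, rfl⟩)
      refine eq_top_iff.2 fun x _ => ?_
      obtain ⟨x, rfl⟩ := QuotientGroup.mk_surjective x
      exact (this ▸ Subgroup.mem_top x : x ∈ M.comap (QuotientGroup.mk' _)))
    (fun W hW => by
      by_cases h0 : W = ⊥
      · exact Or.inl h0
      refine Or.inr (eq_top_iff.2 fun u _ => ?_)
      obtain ⟨w, hw, e⟩ := hU.2 (y := W.map U.subtype) ⟨fun e => h0 (eq_bot_iff.2 fun w hw =>
        Subtype.ext (e.le ⟨w, hw, rfl⟩)), by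
          rintro h _ ⟨w, hw, rfl⟩
          exact ⟨_, hW h w hw, rfl⟩⟩ (Submodule.map_subtype_le U W) u.2
      rwa [← show w = u from Subtype.ext e])
    (y := y) hy1 hy' hq1 hZ
  rw [hk, Nat.add_sub_cancel, two_mul, pow_add] at this
  exact Nat.mul_self_le_mul_self_iff.1 this

end spin

end CfsgAE
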