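/-
Alternating sections of `E₆`, `E₇`, `E₈`: weight multiplicities of elementary abelian `3`-groups.
-/
import Cfsg.Agent.AE.Defs

set_option autoImplicit false

namespace CfsgAE

open Module

section chi
variable {K : Type*} [Field K] {ω : K}

/-- the character `a ↦ ω ^ a` -/
def chi (ω : K) (a : ZMod 3) : K := ω ^ a.val

theorem om_cube (hω : ω ^ 2 + ω + 1 = 0) : ω ^ 3 = 1 := by linear_combination (ω - 1) * hω

theorem chi_zero : chi ω 0 = 1 := pow_zero ω

theorem chi_one : chi ω 1 = ω := pow_one ω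

theorem chi_two : chi ω 2 = ω ^ 2 := rfl

theorem chi_add (hω : ω ^ 2 + ω + 1 = 0) (a b : ZMod 3) : chi ω (a + b) = chi ω a * chi ω b := by
  rw [chi, chi, chi, ← pow_add, ZMod.val_add, ← pow_eq_pow_mod _ (om_cube hω)]

theorem zmod3 (a : ZMod 3) : a = 0 ∨ a = 1 ∨ a = 2 := by revert a; decide

theorem chi_inj (hω : ω ^ 2 + ω + 1 = 0) (h3 : (3 : K) ≠ 0) : Function.Injective (chi ω) := by
  have h1 : ω ≠ 1 := fun e => h3 (by rw [e] at hω; linear_combination hω)
  have h2 : ω ^ 2 ≠ 1 := fun e => h1 (by linear_combination -ω * e + om_cube hω)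
  have h4 : ω ^ 2 ≠ ω := fun e => h1 (by linear_combination ω ^ 2 * e - (ω - 1) * om_cube hω)
  intro a b e
  rcases zmod3 a with rfl | rfl | rfl <;> rcases zmod3 b with rfl | rfl | rfl <;>
    simp only [chi_zero, chi_one, chi_two] at e <;>
    first | rfl | exact absurd e h1 | exact absurd e.symm h1 | exact absurd e h2 |
      exact absurd e.symm h2 | exact absurd e h4 | exact absurd e.symm h4

theorem sum_zmod3 (f : ZMod 3 → ℕ) : ∑ a, f a = f 0 + f 1 + f 2 := Fin.sum_univ_three f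

end chi

section split
variable {K V : Type*} [Field K] [AddCommGroup V] [Module K V] [FiniteDimensional K V] {ω : K}

theorem split1 (hω : ω ^ 2 + ω + 1 = 0) (h3 : (3 : K) ≠ 0) (Y : End K V)
    (hY : ∀ v, Y (Y (Y v)) = v) (U : Submodule K V) (hU : ∀ v ∈ U, Y v ∈ U) :
    finrank K U = ∑ a : ZMod 3, finrank K ↥(U ⊓ Y.eigenspace (chi ω a)) := by
  have hc := om_cube hω
  rw [sum_zmod3, chi_zero, chi_one, chi_two]
  let f : (↥(U ⊓ Y.eigenspace 1) × ↥(U ⊓ Y.eigenspace ω)) × ↥(U ⊓ Y.eigenspace (ω ^ 2)) →ₗ[K] U :=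
    ((Submodule.inclusion inf_le_left).coprod (Submodule.inclusion inf_le_left)).coprod
      (Submodule.inclusion inf_le_left)
  have hf : Function.Bijective f := by
    constructor
    · rw [injective_iff_map_eq_zero]
      rintro ⟨⟨⟨a, ha⟩, ⟨b, hb⟩⟩, ⟨c, hc'⟩⟩ e
      have e1 : a + b + c = 0 := congrArg Subtype.val e
      have ha' := End.mem_eigenspace_iff.1 ha.2
      have hb' := End.mem_eigenspace_iff.1 hb.2
      have hc'' := End.mem_eigenspace_iff.1 hc'.2
      have e2 := congrArg Y e1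
      have e3 := congrArg Y e2
      simp only [map_add, map_zero, map_smul, ha', hb', hc''] at e2 e3
      have z : ∀ v : V, (3 : K) • v = 0 → v = 0 := fun v h => (smul_eq_zero.1 h).resolve_left h3
      have a0 : a = 0 := z _ (by
        linear_combination (norm := module) e1 + e2 + e3 - hω • b - hω • c - (ω * (om_cube hω)) • c)
      have b0 : b = 0 := z _ (by
        linear_combination (norm := module) e1 + ω ^ 2 • e2 + ω • e3 - hω • a - hω • c -
          (2 * hc) • b - (ω * hc + ω ^ 2 * hc) • c)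
      have c0 : c = 0 := by rwa [a0, b0, zero_add, zero_add] at e1
      subst a0 b0 c0
      rfl
    · rintro ⟨v, hv⟩
      have h1 := hU v hv
      have h2 := hU _ h1
      refine ⟨⟨⟨⟨(3 : K)⁻¹ • (v + Y v + Y (Y v)), ?_, ?_⟩,
        ⟨(3 : K)⁻¹ • (v + ω ^ 2 • Y v + ω • Y (Y v)), ?_, ?_⟩⟩,
        ⟨(3 : K)⁻¹ • (v + ω • Y v + ω ^ 2 • Y (Y v)), ?_, ?_⟩⟩, Subtype.ext ?_⟩
      · exact U.smul_mem _ (U.add_mem (U.add_mem hv h1) h2)
      · rw [SetLike.mem_coe, End.mem_eigenspace_iff]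
        simp only [map_smul, map_add, hY]
        module
      · exact U.smul_mem _ (U.add_mem (U.add_mem hv (U.smul_mem _ h1)) (U.smul_mem _ h2))
      · rw [SetLike.mem_coe, End.mem_eigenspace_iff]
        simp only [map_smul, map_add, hY]
        linear_combination (norm := module) -((3 : K)⁻¹ * hc) • Y v
      · exact U.smul_mem _ (U.add_mem (U.add_mem hv (U.smul_mem _ h1)) (U.smul_mem _ h2))
      · rw [SetLike.mem_coe, End.mem_eigenspace_iff]
        simp only [map_smul, map_add, hY]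
        linear_combination (norm := module) -((3 : K)⁻¹ * hc) • Y v - ((3 : K)⁻¹ * ω * hc) • Y (Y v)
      · change (3 : K)⁻¹ • (v + Y v + Y (Y v)) + (3 : K)⁻¹ • (v + ω ^ 2 • Y v + ω • Y (Y v)) +
          (3 : K)⁻¹ • (v + ω • Y v + ω ^ 2 • Y (Y v)) = v
        linear_combination (norm := module) ((3 : K)⁻¹ * hω) • Y v + ((3 : K)⁻¹ * hω) • Y (Y v) +
          (mul_inv_cancel₀ h3) • v
  rw [← (LinearEquiv.ofBijective f hf).finrank_eq, finrank_prod, finrank_prod]

/-- joint eigenspace -/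
def Wt (ω : K) {m : ℕ} (Y : Fin m → End K V) (φ : Fin m → ZMod 3) : Submodule K V :=
  ⨅ i, (Y i).eigenspace (chi ω (φ i))

omit [FiniteDimensional K V] in
theorem mem_Wt {m : ℕ} {Y : Fin m → End K V} {φ : Fin m → ZMod 3} {v : V} :
    v ∈ Wt ω Y φ ↔ ∀ i, Y i v = chi ω (φ i) • v := by
  simp [Wt, Submodule.mem_iInf, End.mem_eigenspace_iff]

theorem sum_cons {m : ℕ} (F : (Fin (m + 1) → ZMod 3) → ℕ) :
    ∑ φ, F φ = ∑ a, ∑ φ : Fin m → ZMod 3, F (Fin.cons a φ) := by
  rw [← (Fin.consEquiv fun _ => ZMod 3).sum_comp, Fintype.sum_prod_type]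
  rfl

theorem split (hω : ω ^ 2 + ω + 1 = 0) (h3 : (3 : K) ≠ 0) (m : ℕ) : ∀ (Y : Fin m → End K V),
    (∀ i j v, Y i (Y j v) = Y j (Y i v)) → (∀ i v, Y i (Y i (Y i v)) = v) →
    ∀ U : Submodule K V, (∀ i, ∀ v ∈ U, Y i v ∈ U) →
      finrank K U = ∑ φ, finrank K ↥(U ⊓ Wt ω Y φ) := by
  induction m with
  | zero =>
    intro Y _ _ U _
    have : ∀ φ, Wt ω Y φ = ⊤ := fun φ => iInf_of_empty _
    rw [Fintype.sum_unique, this, inf_top_eq]
  | succ m ih =>
    intro Y h1 h2 U hU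
    rw [sum_cons, split1 hω h3 (Y 0) (h2 0) U (hU 0)]
    refine Finset.sum_congr rfl fun a _ => ?_
    rw [ih (fun i => Y i.succ) (fun i j => h1 _ _) (fun i => h2 _)
      (U ⊓ (Y 0).eigenspace (chi ω a)) fun i v hv =>
      ⟨hU _ v hv.1, End.mem_eigenspace_iff.2 (by
        rw [h1, End.mem_eigenspace_iff.1 hv.2, map_smul])⟩]
    refine Finset.sum_congr rfl fun φ _ => ?_
    rw [inf_assoc, show (Y 0).eigenspace (chi ω a) ⊓ Wt ω (fun i => Y i.succ) φ =
      Wt ω Y (Fin.cons a φ) from Submodule.ext fun v => by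
        simp [mem_Wt, Fin.forall_fin_succ, End.mem_eigenspace_iff]]

end split

section grp
variable {K V : Type*} [Field K] [AddCommGroup V] [Module K V] [FiniteDimensional K V]
  {H : Type*} [Group H] (ρ : H →* End K V) (ω : K) {m : ℕ} (y : Fin m → H)

/-- weight multiplicity -/
noncomputable def nW (φ : Fin m → ZMod 3) : ℕ := finrank K (Wt ω (fun i => ρ (y i)) φ)

/-- `h` acts on the weight spaces through `c` -/
def Act (h : H) (c : (Fin m → ZMod 3) → ZMod 3) : Prop :=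
  (∀ i, h * y i = y i * h) ∧ ∀ φ, ∀ v ∈ Wt ω (fun i => ρ (y i)) φ, ρ h v = chi ω (c φ) • v

variable {ρ ω y}

omit [FiniteDimensional K V] in
theorem act_y (hc : ∀ i j, y i * y j = y j * y i) (i : Fin m) : Act ρ ω y (y i) fun φ => φ i :=
  ⟨hc i, fun _ _ hv => mem_Wt.1 hv i⟩

omit [FiniteDimensional K V] in
theorem Act.mul (hω : ω ^ 2 + ω + 1 = 0) {g h : H} {c d : (Fin m → ZMod 3) → ZMod 3}
    (h1 : Act ρ ω y g c) (h2 : Act ρ ω y h d) : Act ρ ω y (g * h) fun φ => c φ + d φ :=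
  ⟨fun i => by rw [mul_assoc, h2.1, ← mul_assoc, h1.1, mul_assoc], fun φ v hv => by
    rw [map_mul, End.mul_apply, h2.2 φ v hv, map_smul, h1.2 φ v hv, chi_add hω, smul_smul,
      mul_comm]⟩

omit [FiniteDimensional K V] in
theorem Act.pow (hω : ω ^ 2 + ω + 1 = 0) {g : H} {c : (Fin m → ZMod 3) → ZMod 3}
    (h1 : Act ρ ω y g c) (n : ℕ) : Act ρ ω y (g ^ n) fun φ => n * c φ := by
  induction n with
  | zero => exact ⟨fun i => by simp, fun φ v _ => by simp [chi_zero]⟩
  | succ n ih =>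
    rw [pow_succ]
    convert ih.mul hω h1 using 2
    push_cast
    ring

theorem Act.eig (hω : ω ^ 2 + ω + 1 = 0) (h3 : (3 : K) ≠ 0) (hc : ∀ i j, y i * y j = y j * y i)
    (hy : ∀ i, y i ^ 3 = 1) {h : H} {c : (Fin m → ZMod 3) → ZMod 3} (h1 : Act ρ ω y h c)
    (k : ZMod 3) :
    finrank K ((ρ h).eigenspace (chi ω k)) = ∑ φ, if c φ = k then nW ρ ω y φ else 0 := by
  rw [split hω h3 m (fun i => ρ (y i)) (fun i j v => by
      rw [← End.mul_apply, ← map_mul, hc, map_mul, End.mul_apply])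
    (fun i v => by
      rw [← End.mul_apply, ← End.mul_apply, ← map_mul, ← map_mul, ← pow_two, ← pow_succ, hy,
        map_one, End.one_apply]) _ fun i v hv => End.mem_eigenspace_iff.2 (by
      rw [← End.mul_apply, ← map_mul, h1.1, map_mul, End.mul_apply, End.mem_eigenspace_iff.1 hv,
        map_smul])]
  refine Finset.sum_congr rfl fun φ _ => ?_
  split_ifs with e
  · rw [inf_eq_right.2 fun v hv => End.mem_eigenspace_iff.2 (e ▸ h1.2 φ v hv)]
    rfl
  · rw [Submodule.finrank_eq_zero, eq_bot_iff]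
    intro v hv
    have := h1.2 φ v hv.2
    rw [End.mem_eigenspace_iff.1 hv.1, ← sub_eq_zero, ← sub_smul] at this
    exact (smul_eq_zero.1 this).resolve_left (sub_ne_zero.2 ((chi_inj hω h3).ne (Ne.symm e)))

theorem nW_total (hω : ω ^ 2 + ω + 1 = 0) (h3 : (3 : K) ≠ 0) (hc : ∀ i j, y i * y j = y j * y i)
    (hy : ∀ i, y i ^ 3 = 1) : finrank K V = ∑ φ, nW ρ ω y φ := by
  have := Act.eig (ρ := ρ) hω h3 hc hy (h := 1) (c := fun _ => 0)
    ⟨fun i => by simp, fun φ v _ => by simp [chi_zero]⟩ 0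
  rw [map_one, chi_zero, show (1 : End K V).eigenspace 1 = ⊤ from
    eq_top_iff.2 fun v _ => End.mem_eigenspace_iff.2 (by simp), finrank_top] at this
  simpa using this

omit [FiniteDimensional K V] in
theorem rho_inj (g : H) : Function.Injective (ρ g) := fun u v e => by
  have := congrArg (ρ g⁻¹) e
  rwa [← End.mul_apply, ← End.mul_apply, ← map_mul, inv_mul_cancel, map_one] at this

theorem nW_eq (g : H) (A : (Fin m → ZMod 3) → Fin m → ZMod 3) (hA : Function.Injective A)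
    (h : ∀ k, Act ρ ω y (g * y k * g⁻¹) fun φ => A φ k) (φ : Fin m → ZMod 3) :
    nW ρ ω y (A φ) = nW ρ ω y φ := by
  have h1 : ∀ φ, nW ρ ω y φ ≤ nW ρ ω y (A φ) := fun φ =>
    CfsgH7.finrank_le_of_maps (ρ g⁻¹) (rho_inj _) fun v hv => mem_Wt.2 fun k => by
      rw [← map_smul, ← (h k).2 φ v hv, ← End.mul_apply, ← End.mul_apply, ← map_mul, ← map_mul]
      congr 2
      group
  exact ((Finset.sum_eq_sum_iff_of_le fun φ _ => h1 φ).1
    ((Equiv.ofBijective A hA.bijective_of_finite).sum_comp (nW ρ ω y)).symm φ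
    (Finset.mem_univ _)).symm

theorem eig_conj {a b : H} (h : IsConj a b) (μ : K) :
    finrank K ((ρ a).eigenspace μ) = finrank K ((ρ b).eigenspace μ) := by
  have key : ∀ {a b : H}, IsConj a b →
      finrank K ((ρ a).eigenspace μ) ≤ finrank K ((ρ b).eigenspace μ) := fun {a b} h => by
    obtain ⟨g, rfl⟩ := isConj_iff.1 h
    exact CfsgH7.finrank_le_of_maps (ρ g) (rho_inj _) fun v hv => End.mem_eigenspace_iff.2 (by
      rw [← map_smul, ← End.mem_eigenspace_iff.1 hv, ← End.mul_apply, ← End.mul_apply, ← map_mul,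
        ← map_mul, inv_mul_cancel_right])
  exact (key h).antisymm (key h.symm)

end grp

section comb

/-- computable sum over `(ZMod 3) ^ m` -/
def sumW : (m : ℕ) → ((Fin m → ZMod 3) → ℕ) → ℕ
  | 0, F => F Fin.elim0
  | m + 1, F => sumW m (fun φ => F (Fin.cons 0 φ)) + sumW m (fun φ => F (Fin.cons 1 φ)) +
      sumW m fun φ => F (Fin.cons 2 φ)

theorem sumW_eq (m : ℕ) : ∀ F : (Fin m → ZMod 3) → ℕ, ∑ φ, F φ = sumW m F := by
  induction m with
  | zero => intro F; rw [Fintype.sum_unique]; exact congrArg F (Subsingleton.elim _ _)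
  | succ m ih => intro F; rw [sum_cons, sum_zmod3, ih, ih, ih]; rfl

theorem forall_W {m : ℕ} {P : (Fin m → ZMod 3) → Prop} [DecidablePred P]
    (h : sumW m (fun φ => if P φ then 0 else 1) = 0) (φ : Fin m → ZMod 3) : P φ := by
  rw [← sumW_eq, Finset.sum_eq_zero_iff] at h
  simpa using h φ (Finset.mem_univ _)

theorem sum_fib {m t : ℕ} (s : (Fin m → ZMod 3) → Fin t) (N : Fin t → ℕ)
    (P : (Fin m → ZMod 3) → Prop) [DecidablePred P] (c : Fin t → ℕ)
    (h : ∀ i, sumW m (fun φ => if P φ ∧ s φ = i then 1 else 0) = c i) :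
    (∑ φ, if P φ then N (s φ) else 0) = ∑ i, c i * N i := by
  simp only [← h, ← sumW_eq, Finset.sum_mul]
  rw [Finset.sum_comm]
  refine Finset.sum_congr rfl fun φ _ => ?_
  by_cases hP : P φ <;> simp [hP]

theorem orbit_cert {α β : Type*} (n : α → ℕ) (G : List (α → α)) (hG : ∀ g ∈ G, ∀ a, n (g a) = n a)
    (μ : α → ℕ) (s : α → β) (can : β → α)
    (cert : ∀ a, a = can (s a) ∨ ∃ g ∈ G, μ (g a) < μ a ∧ s (g a) = s a) (a : α) :
    n a = n (can (s a)) := by
  induction h : μ a using Nat.strong_induction_on generalizing a with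
  | _ k ih =>
    rcases cert a with e | ⟨g, hg, h1, h2⟩
    · rw [← e]
    · rw [← hG g hg a, ih _ (h ▸ h1) _ rfl, h2]

end comb

end CfsgAE
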