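/-
Alternating sections of `E₆`, `E₇`, `E₈`: blocks of three-cycles and their weights.
-/
import Cfsg.Agent.AE.Wt
import Cfsg.Agent.AE.Spin

set_option autoImplicit false

namespace CfsgAE

open Module Equiv CfsgH7

/-- the `l`-th point of the `k`-th block -/
def pt (m : ℕ) (k : Fin m) (l : Fin 3) : Fin (3 * m) := ⟨3 * k + l, by omega⟩

/-- the block three-cycles -/
def bx (m : ℕ) (k : Fin m) : Perm (Fin (3 * m)) := cy3 (pt m k 0) (pt m k 1) (pt m k 2)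

/-- inversion of a block -/
def bi (m : ℕ) (k : Fin m) : Perm (Fin (3 * m)) := swap (pt m k 1) (pt m k 2)

/-- even symmetries -/
def bt (m : ℕ) (g : Fin m × Fin m × Fin m) : Perm (Fin (3 * m)) :=
  bi m g.1 * if g.2.1 = g.2.2 then bi m g.2.1 else swap (pt m g.2.1 0) (pt m g.2.2 0) *
    swap (pt m g.2.1 1) (pt m g.2.2 1) * swap (pt m g.2.1 2) (pt m g.2.2 2)

/-- exponents -/
def be (m : ℕ) (g : Fin m × Fin m × Fin m) (k : Fin m) : ℕ :=
  if k = g.1 ∨ (k = g.2.1 ∧ k = g.2.2) then 2 else 1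

/-- the generators -/
def bG (m : ℕ) : List (Fin m × Fin m × Fin m) :=
  ((List.finRange m).flatMap fun i => (List.finRange m).flatMap fun j =>
    (List.finRange m).map fun k => (i, j, k)).filter fun g => g.1 ≠ g.2.1 ∧ g.1 ≠ g.2.2 ∧
      (g.2.2.1 = g.2.1.1 ∨ g.2.2.1 = g.2.1.1 + 1)

/-- action on weights -/
def bA (m : ℕ) (g : Fin m × Fin m × Fin m) (φ : Fin m → ZMod 3) (k : Fin m) : ZMod 3 :=
  be m g k * φ (swap g.2.1 g.2.2 k)

/-- support size -/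
def bs (m : ℕ) (φ : Fin m → ZMod 3) : Fin (m + 1) :=
  Fin.ofNat _ ((List.finRange m).map fun k => if φ k = 0 then 0 else 1).sum

/-- measure -/
def bμ (m : ℕ) (φ : Fin m → ZMod 3) : ℕ :=
  ((List.finRange m).map fun k => if φ k = 0 then 0 else 2 * k.1 + (φ k).val).sum

/-- representatives -/
def bc (m : ℕ) (t : Fin (m + 1)) (k : Fin m) : ZMod 3 := if k.1 < t.1 then 1 else 0

/-- all finite checks -/
def BOk (m : ℕ) : Prop :=
  (∀ i, Perm.sign (bx m i) = 1) ∧ (∀ i j, bx m i * bx m j = bx m j * bx m i) ∧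
  (∀ i, bx m i ^ 3 = 1) ∧ (Perm.sign ((List.finRange m).map (bi m)).prod = 1) ∧
  (∀ i, ((List.finRange m).map (bi m)).prod * bx m i * ((List.finRange m).map (bi m)).prod⁻¹ =
    (bx m i)⁻¹) ∧
  (∀ g ∈ bG m, Perm.sign (bt m g) = 1 ∧
    ∀ k, bt m g * bx m k * (bt m g)⁻¹ = bx m (swap g.2.1 g.2.2 k) ^ be m g k) ∧
  (∀ i j, i < j → ∃ g ∈ bG m, swap g.2.1 g.2.2 i = i ∧ swap g.2.1 g.2.2 j = j ∧
    be m g i * be m g j % 3 ≠ 1) ∧
  sumW m (fun φ => if φ = bc m (bs m φ) ∨ ∃ g ∈ bG m, bμ m (bA m g φ) < bμ m φ ∧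
    bs m (bA m g φ) = bs m φ then 0 else 1) = 0

theorem bok4 : BOk 4 := by
  unfold BOk
  refine ⟨?_, ?_, ?_, ?_, ?_, ?_, ?_, ?_⟩ <;> decide +kernel

theorem bok6 : BOk 6 := by
  unfold BOk
  refine ⟨?_, ?_, ?_, ?_, ?_, ?_, ?_, ?_⟩ <;> decide +kernel

theorem bA_inj (m : ℕ) (g : Fin m × Fin m × Fin m) : Function.Injective (bA m g) := by
  intro φ ψ e
  funext k
  have := congrFun e (swap g.2.1 g.2.2 k)
  simp only [bA, swap_apply_self] at this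
  refine mul_left_cancel₀ ?_ this
  unfold be
  split_ifs <;> decide

variable {K V : Type*} [Field K] [AddCommGroup V] [Module K V] [FiniteDimensional K V]
  {H : Type*} [Group H] [Finite H]

theorem blocks {m : ℕ} (hm : BOk m) (π : H →* alternatingGroup (Fin (3 * m)))
    (hπ : Function.Surjective π) (hc : CenK π 3) (ρ : H →* End K V) {ω : K}
    (hω : ω ^ 2 + ω + 1 = 0) :
    ∃ (y : Fin m → H) (N : Fin (m + 1) → ℕ), (∀ i, (π (y i)).1 = bx m i) ∧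
      (∀ i j, y i * y j = y j * y i) ∧ (∀ i, y i ^ 3 = 1) ∧
      (∃ h, (π h).1 = ((List.finRange m).map (bi m)).prod ∧ ∀ i, h * y i * h⁻¹ = (y i)⁻¹) ∧
      ∀ φ, nW ρ ω y φ = N (bs m φ) := by
  obtain ⟨k1, k2, k3, k4, k5, k6, k7, k8⟩ := hm
  let x : Fin m → alternatingGroup (Fin (3 * m)) := fun i => ⟨bx m i, k1 i⟩
  have hx : ∀ i, x i ∈ Subgroup.closure (Set.range x) := fun i => Subgroup.subset_closure ⟨i, rfl⟩
  have hcomm : ∀ a b : Subgroup.closure (Set.range x), a * b = b * a := fun a b =>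
    (Subgroup.isMulCommutative_closure (by
      rintro _ ⟨i, rfl⟩ _ ⟨j, rfl⟩
      exact Subtype.ext (k2 i j))).is_comm.comm a b
  have ht : ∀ g (hg : g ∈ bG m) k, (⟨bt m g, (k6 g hg).1⟩ : alternatingGroup _) * x k *
      (⟨bt m g, (k6 g hg).1⟩ : alternatingGroup _)⁻¹ = x (swap g.2.1 g.2.2 k) ^ be m g k :=
    fun g hg k => Subtype.ext ((k6 g hg).2 k)
  obtain ⟨j, j1, ⟨h, ⟨e, he, he'⟩, j2⟩, j3⟩ := exists_lift_hom π hπ 3 (by norm_num) hc x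
    (fun i j => Subtype.ext (k2 i j)) (fun i => Subtype.ext (k3 i)) ⟨_, k4⟩
    (fun i => Subtype.ext (k5 i)) fun i j hij => by
      obtain ⟨g, hg, e1, e2, e3⟩ := k7 i j hij
      exact ⟨⟨bt m g, (k6 g hg).1⟩, _, _, by rw [ht g hg, e1], by rw [ht g hg, e2], e3,
        fun k => ht g hg k ▸ pow_mem (hx _) _⟩
  have hc' : ∀ i k, j ⟨x i, hx i⟩ * j ⟨x k, hx k⟩ = j ⟨x k, hx k⟩ * j ⟨x i, hx i⟩ := fun i k => by
    rw [← map_mul, hcomm, map_mul]
  refine ⟨fun i => j ⟨x i, hx i⟩, fun t => nW ρ ω (fun i => j ⟨x i, hx i⟩) (bc m t),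
    fun i => by rw [j1], hc', fun i => by
      rw [← map_pow, show (⟨x i, hx i⟩ : Subgroup.closure (Set.range x)) ^ 3 = 1 from
        Subtype.ext (Subtype.ext (k3 i)), map_one],
    ⟨h * (j ⟨e, he⟩)⁻¹, by rw [map_mul, map_inv, j1, he', mul_inv_cancel_right], fun i => by
      have e1 : (j ⟨e, he⟩)⁻¹ * j ⟨x i, hx i⟩ = j ⟨x i, hx i⟩ * (j ⟨e, he⟩)⁻¹ := by
        rw [← map_inv, ← map_mul, hcomm, map_mul]
      rw [← j2 ⟨x i, hx i⟩, mul_assoc h, e1]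
      group⟩, fun φ => ?_⟩
  refine orbit_cert _ ((bG m).map (bA m)) (fun f hf => ?_) (bμ m) (bs m) (bc m) (fun φ => ?_) φ
  · obtain ⟨g, hg, rfl⟩ := List.mem_map.1 hf
    obtain ⟨a, -, -, ha⟩ := j3 ⟨bt m g, (k6 g hg).1⟩ fun k => ht g hg k ▸ pow_mem (hx _) _
    refine nW_eq a _ (bA_inj m g) fun k => ?_
    rw [ha ⟨x k, hx k⟩ (⟨x _, hx _⟩ ^ be m g k) (ht g hg k), map_pow]
    exact (act_y hc' _).pow hω _
  · rcases forall_W k8 φ with e | ⟨g, hg, e⟩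
    · exact Or.inl e
    · exact Or.inr ⟨_, List.mem_map.2 ⟨g, hg, rfl⟩, e⟩

end CfsgAE
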