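/-
Alternating sections of `E₆`: excluding the first weight pattern for `A₁₂`.
-/
import Cfsg.Agent.AE.Blk

set_option autoImplicit false

namespace CfsgAE

open Module Equiv CfsgH7

/-- translations of the affine plane on the last nine points -/
def fP : Fin 2 → Perm (Fin 12) :=
  ![cy3 3 6 9 * cy3 4 7 10 * cy3 5 8 11, cy3 3 4 5 * cy3 6 7 8 * cy3 9 10 11]

/-- the point reflection -/
def fS : Perm (Fin 12) := swap 4 5 * swap 6 9 * swap 7 11 * swap 8 10

/-- generators of the quaternion group -/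
def fQ : Fin 2 → Perm (Fin 12) :=
  ![[4, 9, 5, 6].formPerm * [7, 10, 11, 8].formPerm, [6, 7, 9, 11].formPerm * [4, 8, 5, 10].formPerm]

/-- their matrices -/
def fM : Fin 2 → Fin 2 → Fin 2 → ℕ := ![![![0, 1], ![2, 0]], ![![1, 1], ![1, 2]]]

/-- action on weights -/
def fA (q : Fin 2) (φ : Fin 3 → ZMod 3) : Fin 3 → ZMod 3 :=
  Fin.cons (φ 0) fun k => fM q k 0 * φ 1 + fM q k 1 * φ 2

/-- orbit label -/
def fs (φ : Fin 3 → ZMod 3) : Fin 6 :=
  Fin.ofNat _ (2 * (φ 0).val + if φ 1 = 0 ∧ φ 2 = 0 then 0 else 1)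

/-- measure -/
def fμ (φ : Fin 3 → ZMod 3) : ℕ := [0, 1, 3, 0, 3, 2, 2, 4, 1].getD (3 * (φ 1).val + (φ 2).val) 0

/-- representatives -/
def fc (t : Fin 6) : Fin 3 → ZMod 3 := ![(t.1 / 2 : ℕ), (t.1 % 2 : ℕ), 0]

variable {H : Type*} [Group H]

/-- elements centralizing or inverting `y` -/
def Cst (y : H) : Subgroup H where
  carrier := {g | g * y * g⁻¹ = y ∨ g * y * g⁻¹ = y⁻¹}
  one_mem' := Or.inl (by simp)
  mul_mem' := by
    intro a b ha hb
    have e : a * b * y * (a * b)⁻¹ = a * (b * y * b⁻¹) * a⁻¹ := by group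
    have e' : a * y⁻¹ * a⁻¹ = (a * y * a⁻¹)⁻¹ := by group
    rw [Set.mem_ofPred_eq, e]
    rcases ha with ha | ha <;> rcases hb with hb | hb <;> simp [hb, e', ha]
  inv_mem' := by
    intro a ha
    rcases ha with ha | ha
    · exact Or.inl (by nth_rw 1 [← ha]; group)
    · refine Or.inr ?_
      calc _ = a⁻¹ * (a * y * a⁻¹)⁻¹ * a⁻¹⁻¹ := by rw [ha, inv_inv y]
        _ = _ := by group

variable [Finite H]

theorem lift6 (π : H →* alternatingGroup (Fin 12)) (hπ : Function.Surjective π) (hc : CenK π 3)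
    {y h : H} (hy : (π y).1 = cy3 0 1 2) (hy3 : y ^ 3 = 1)
    (hh : (π h).1 = ((List.finRange 4).map (bi 4)).prod) (hhy : h * y * h⁻¹ = y⁻¹) :
    ∃ g : Fin 2 → H, (π (g 1)).1 = fP 1 ∧ g 0 * g 1 = g 1 * g 0 ∧ (∀ i, g i ^ 3 = 1) ∧
      (∀ i, y * g i = g i * y) ∧ (∃ a, a * g 1 * a⁻¹ = (g 1)⁻¹) ∧
      ∀ q, ∃ a, a * y * a⁻¹ = y ∧ ∀ k, a * g k * a⁻¹ = g 0 ^ fM q k 0 * g 1 ^ fM q k 1 := by
  have hm : ∀ (c : Perm (Fin 12)) (h : Perm.sign c = 1), c * cy3 0 1 2 = cy3 0 1 2 * c →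
      c ^ 4 = 1 → (⟨c, h⟩ : alternatingGroup (Fin 12)) ∈ (Cst y).map π := fun c h h1 h2 => by
    obtain ⟨a, ha, ha'⟩ := cent_lift π hπ 3 hc hy3 (c := ⟨c, h⟩)
      (Subtype.ext (by simpa [hy] using h1)) (n := 4) (Subtype.ext h2) (by norm_num)
    exact ⟨a, Or.inl (by rw [ha']; group), ha⟩
  have k1 : ∀ i, Perm.sign (fP i) = 1 := by decide +kernel
  have k2 : Perm.sign fS = 1 := by decide +kernel
  have k3 : ∀ i, Perm.sign (fQ i) = 1 := by decide +kernel
  have m2 := hm fS k2 (by decide +kernel) (by decide +kernel)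
  have m3 := fun i => hm (fQ i) (k3 i) (by revert i; decide +kernel) (by revert i; decide +kernel)
  have m1 : ∀ i, (⟨fP i, k1 i⟩ : alternatingGroup (Fin 12)) ∈ (Cst y).map π := fun i => by
    have := mul_mem (inv_mem m2) (hm (fS * fP i) (by rw [map_mul, k1, k2, one_mul])
      (by revert i; decide +kernel) (by revert i; decide +kernel))
    convert this using 1
    exact Subtype.ext (by simp)
  let x : Fin 2 → (Cst y).map π := fun i => ⟨_, m1 i⟩
  have hx : ∀ i, x i ∈ Subgroup.closure (Set.range x) := fun i => Subgroup.subset_closure ⟨i, rfl⟩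
  have hq : ∀ q k, (⟨_, m3 q⟩ : (Cst y).map π) * x k * (⟨_, m3 q⟩ : (Cst y).map π)⁻¹ =
      x 0 ^ fM q k 0 * x 1 ^ fM q k 1 := fun q k => Subtype.ext (Subtype.ext ((by decide +kernel :
    ∀ q k, fQ q * fP k * (fQ q)⁻¹ = fP 0 ^ fM q k 0 * fP 1 ^ fM q k 1) q k))
  have ht : ∀ k, (π.subgroupMap _ ⟨h, Or.inr hhy⟩ : (Cst y).map π) * x k *
      (π.subgroupMap _ ⟨h, Or.inr hhy⟩ : (Cst y).map π)⁻¹ = x k ^ (k.1 + 1) := fun k =>
    Subtype.ext (Subtype.ext (by
      change (π h).1 * fP k * (π h).1⁻¹ = fP k ^ (k.1 + 1)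
      rw [hh]
      revert k
      decide +kernel))
  have h01 : x 0 * x 1 = x 1 * x 0 := Subtype.ext (Subtype.ext
    (by decide +kernel : fP 0 * fP 1 = fP 1 * fP 0))
  have hx3 : ∀ i, x i ^ 3 = 1 := fun i => Subtype.ext (Subtype.ext
    ((by decide +kernel : ∀ i, fP i ^ 3 = 1) i))
  obtain ⟨j, j1, ⟨a, -, j2⟩, j3⟩ := exists_lift_hom (π.subgroupMap (Cst y))
    (π.subgroupMap_surjective _) 3 (by norm_num)
    (fun k hk ⟨e, he⟩ g => Subtype.ext (hc k (congrArg Subtype.val hk) ⟨e, congrArg Subtype.val he⟩ g))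
    x (fun i j => by fin_cases i <;> fin_cases j <;> simp [h01]) hx3 ⟨_, m2⟩
    (fun i => Subtype.ext (Subtype.ext
      ((by decide +kernel : ∀ i, fS * fP i * fS⁻¹ = (fP i)⁻¹) i)))
    fun i j hij => ⟨_, _, _, ht i, ht j, by revert i j; decide,
      fun k => ht k ▸ pow_mem (hx k) _⟩
  have cen : ∀ a : Cst y, π a * π y = π y * π a → a * y * (a : H)⁻¹ = y := fun a ha =>
    a.2.resolve_right fun e => by
      have := congrArg (fun g => (π g).1) e
      simp only [map_mul, map_inv, ha, mul_inv_cancel_right, Subgroup.coe_inv, hy] at this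
      exact absurd this (by decide +kernel)
  have hj : ∀ i, (π (j ⟨x i, hx i⟩)).1 = fP i := fun i =>
    congrArg (fun e : (Cst y).map π => e.1.1) (j1 ⟨x i, hx i⟩)
  have hxy : ∀ i, fP i * cy3 0 1 2 = cy3 0 1 2 * fP i := by decide +kernel
  refine ⟨fun i => j ⟨x i, hx i⟩, hj 1, ?_, fun i => ?_, fun i => ?_,
    ⟨a, congrArg Subtype.val (j2 _)⟩, fun q => ?_⟩
  · rw [← Subgroup.coe_mul, ← Subgroup.coe_mul, ← map_mul, ← map_mul]
    exact congrArg (fun e => (j e).1) (Subtype.ext h01)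
  · rw [← Subgroup.coe_pow, ← map_pow, show (⟨x i, hx i⟩ : Subgroup.closure (Set.range x)) ^ 3 = 1
      from Subtype.ext (hx3 i), map_one, Subgroup.coe_one]
  · exact (mul_inv_eq_iff_eq_mul.1 (cen _ (Subtype.ext (by simpa [hj, hy] using hxy i)))).symm
  · obtain ⟨b, b1, -, b2⟩ := j3 ⟨_, m3 q⟩ fun k =>
      hq q k ▸ mul_mem (pow_mem (hx 0) _) (pow_mem (hx 1) _)
    have := b1 ((Subgroup.centralizer {π y}).subgroupOf _) ((Subgroup.closure_le _).2 (by
        rintro _ ⟨i, rfl⟩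
        exact Subgroup.mem_centralizer_singleton_iff.2 (Subtype.ext (by simpa [hy] using hxy i))))
      (Subgroup.mem_centralizer_singleton_iff.2 (Subtype.ext (by
        simpa [hy] using (by decide +kernel : fS * cy3 0 1 2 = cy3 0 1 2 * fS))))
      (Subgroup.mem_centralizer_singleton_iff.2 (Subtype.ext (by
        simpa [hy] using (by decide +kernel : ∀ q, fQ q * cy3 0 1 2 = cy3 0 1 2 * fQ q) q)))
    refine ⟨b, cen b (Subgroup.mem_centralizer_singleton_iff.1 this), fun k => ?_⟩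
    have := congrArg Subtype.val (b2 ⟨x k, hx k⟩
      (⟨x 0, hx 0⟩ ^ fM q k 0 * ⟨x 1, hx 1⟩ ^ fM q k 1) (by
        rw [Subgroup.coe_mul, Subgroup.coe_pow, Subgroup.coe_pow]
        exact hq q k))
    rwa [map_mul, map_pow, map_pow] at this

variable {K V : Type*} [Field K] [AddCommGroup V] [Module K V] [FiniteDimensional K V]

theorem excl6 (h3 : (3 : K) ≠ 0) (π : H →* alternatingGroup (Fin 12))
    (hπ : Function.Surjective π) (hc : CenK π 3) (ρ : H →* End K V) (hV : finrank K V = 78)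
    {ω : K} (hω : ω ^ 2 + ω + 1 = 0) {y w h : H} (hy : (π y).1 = cy3 0 1 2) (hy3 : y ^ 3 = 1)
    (hw : (π w).1 = fP 1) (hw3 : w ^ 3 = 1)
    (hh : (π h).1 = ((List.finRange 4).map (bi 4)).prod) (hhy : h * y * h⁻¹ = y⁻¹)
    (hhw : h * w * h⁻¹ = w⁻¹) (d1 : finrank K ((ρ y).eigenspace 1) = 36)
    (d2 : finrank K ((ρ w).eigenspace 1) = 24) : False := by
  obtain ⟨g, g1, g2, g3, g4, g5, g6⟩ := lift6 π hπ hc hy hy3 hh hhy
  let Y : Fin 3 → H := Fin.cons y g
  have y2 : ∀ i j, Y i * Y j = Y j * Y i := fun i j => by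
    fin_cases i <;> fin_cases j <;>
      first | rfl | exact g4 _ | exact (g4 _).symm | exact g2 | exact g2.symm
  have y3 : ∀ i, Y i ^ 3 = 1 := Fin.cases hy3 g3
  have a0 := act_y (ρ := ρ) (ω := ω) y2 0
  have a1 := act_y (ρ := ρ) (ω := ω) y2 1
  have a2 := act_y (ρ := ρ) (ω := ω) y2 2
  have y5 : ∀ φ, nW ρ ω Y φ = nW ρ ω Y (fc (fs φ)) :=
    orbit_cert _ [fA 0, fA 1] (fun f hf => by
      obtain ⟨q, rfl⟩ : ∃ q, f = fA q := by
        rcases List.mem_pair.1 hf with rfl | rfl <;> exact ⟨_, rfl⟩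
      obtain ⟨a, b1, b2⟩ := g6 q
      refine nW_eq a _ ((by decide +kernel : ∀ q, Function.Injective (fA q)) q) (Fin.cases ?_ fun k => ?_)
      · exact b1.symm ▸ a0
      · exact (b2 k).symm ▸ (a1.pow hω _).mul hω (a2.pow hω _)) fμ fs fc (by decide +kernel)
  obtain ⟨N, hN⟩ : ∃ N : Fin 6 → ℕ, ∀ φ, nW ρ ω Y φ = N (fs φ) := ⟨fun t => nW ρ ω Y (fc t), y5⟩
  have F : ∀ {g c}, Act ρ ω Y g c → ∀ (k : ZMod 3) (v : Fin 6 → ℕ),
      (∀ i, sumW 3 (fun φ => if c φ = k ∧ fs φ = i then 1 else 0) = v i) →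
      finrank K ((ρ g).eigenspace (chi ω k)) = ∑ i, v i * N i := fun hg k v hv => by
    have := hg.eig hω h3 y2 y3 k
    simp only [hN] at this
    exact this.trans (sum_fib _ _ _ _ hv)
  have T := nW_total (ρ := ρ) hω h3 y2 y3
  simp only [hN, hV] at T
  replace T := T.trans (by simpa using (sum_fib fs N (fun _ => True)
    ![1, 8, 1, 8, 1, 8] (by decide +kernel)))
  have F1 := F a0 0 ![1, 8, 0, 0, 0, 0] (by decide +kernel)
  have F2 := F a0 1 ![0, 0, 1, 8, 0, 0] (by decide +kernel)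
  have F3 := F (a0.mul hω a0) 1 ![0, 0, 0, 0, 1, 8] (by decide +kernel)
  have F4 := F a2 0 ![1, 2, 1, 2, 1, 2] (by decide +kernel)
  rw [chi_zero] at F1 F4
  replace F3 := F2.symm.trans ((eig_conj (isConj_iff.2 ⟨h, hhy.trans (inv_eq_of_mul_eq_one_left (by
    rw [← hy3, pow_succ, pow_two]; rfl))⟩) _).trans F3)
  replace F1 := d1.symm.trans F1
  replace F4 := d2.symm.trans ((eig_conj (real_conj π hπ 3 (by norm_num) hc hw3 (g3 1) ⟨h, hhw⟩ g5
    (by rw [show π w = π (g 1) from Subtype.ext (hw.trans g1.symm)])) 1).trans F4)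
  simp [Fin.sum_univ_six] at T F1 F3 F4
  omega

end CfsgAE
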