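/-
Alternating sections of `E₆`, `E₇`, `E₈`: generation by centralisers of two three-cycles.
-/
import Cfsg.Agent.AE.Lift1

set_option autoImplicit false

namespace CfsgAE

open Subgroup CfsgH7 Equiv

theorem cy3_cyc {α : Type*} [DecidableEq α] {a b c : α} (h : [a, b, c].Nodup) :
    cy3 a b c = cy3 b c a := by
  simp only [List.nodup_cons, List.mem_cons, not_or] at h
  ext x
  simp only [cy3, Perm.mul_apply, swap_apply_def]
  grind

theorem cy3_eq_five {α : Type*} [DecidableEq α] {u v w : α} (h : [u, v, w].Nodup) (x y : α) :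
    cy3 u v w = [v, u, w, x, y].formPerm * [u, v, w, x, y].formPerm⁻¹ := by
  simp only [List.formPerm_cons_cons, List.formPerm_singleton, mul_one, mul_inv_rev, swap_inv,
    mul_assoc, swap_mul_self_mul]
  simp only [List.nodup_cons, List.mem_cons, not_or] at h
  ext x
  simp only [cy3, Perm.mul_apply, swap_apply_def]
  grind

variable {H : Type*} [Group H] [Finite H]

/-- generation -/
theorem gen_top {r : ℕ} (hr : 12 ≤ r) (π : H →* alternatingGroup (Fin r))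
    (hπ : Function.Surjective π) (hmin : ∀ M : Subgroup H, M.map π = ⊤ → M = ⊤) (hc : CenK π 3)
    {y z : H} (hy : y ^ 3 = 1) (hz : z ^ 3 = 1) {a b c d e f : Fin r}
    (hn : [a, b, c, d, e, f].Nodup) (h1 : (π y).1 = CfsgH7.cy3 a b c)
    (h2 : (π z).1 = CfsgH7.cy3 d e f) (M : Subgroup H)
    (hM : ∀ h, (h * y = y * h ∨ h * z = z * h) → h ^ 6 ∈ M) : M = ⊤ := by
  set N := (M.map π).map (alternatingGroup (Fin r)).subtype
  have fr : ∀ l : List (Fin r), l.length < 12 → ∃ x, x ∉ l := fun l h =>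
    exists_fresh l (by simp; omega)
  have k5 : ∀ {y : H} {a b c : Fin r}, y ^ 3 = 1 → (π y).1 = cy3 a b c →
      (∀ h, h * y = y * h → h ^ 6 ∈ M) → ∀ l : List (Fin r), l.Nodup → l.length = 5 →
        a ∉ l → b ∉ l → c ∉ l → l.formPerm ∈ N := by
    intro y a b c hy h1 hM l hl h5 ha hb hc'
    have e5 : l.formPerm ^ 5 = 1 := h5 ▸ List.formPerm_pow_length_eq_one_of_nodup l hl
    have hs : l.formPerm ∈ alternatingGroup (Fin r) := by
      have := congrArg Perm.sign e5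
      rw [map_pow, map_one] at this
      rcases Int.units_eq_one_or (Perm.sign l.formPerm) with h | h
      · exact h
      · rw [h] at this; exact absurd this (by decide)
    obtain ⟨h, e1, e2⟩ := cent_lift π hπ 3 hc hy (c := ⟨_, hs⟩) (Subtype.ext (by
      rw [coe_mul, coe_mul, h1, ← mul_inv_eq_iff_eq_mul, cy3_conj, List.formPerm_apply_of_notMem ha,
        List.formPerm_apply_of_notMem hb, List.formPerm_apply_of_notMem hc'])) (n := 5)
      (Subtype.ext e5) (by norm_num)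
    refine ⟨_, ⟨_, hM h e2, rfl⟩, ?_⟩
    rw [map_pow, e1, coe_subtype, SubmonoidClass.coe_pow, pow_succ, e5, one_mul]
  have k3 : ∀ {y : H} {a b c : Fin r}, y ^ 3 = 1 → (π y).1 = cy3 a b c →
      (∀ h, h * y = y * h → h ^ 6 ∈ M) → ∀ u v w : Fin r, [u, v, w].Nodup →
        a ∉ [u, v, w] → b ∉ [u, v, w] → c ∉ [u, v, w] → cy3 u v w ∈ N := by
    intro y a b c hy h1 hM u v w hl ha hb hc'
    obtain ⟨p, hp⟩ := fr [a, b, c, u, v, w] (by simp)
    obtain ⟨q, hq⟩ := fr [a, b, c, u, v, w, p] (by simp)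
    rw [cy3_eq_five hl p q]
    have : ([v, u, w, p, q].Nodup ∧ a ∉ [v, u, w, p, q] ∧ b ∉ [v, u, w, p, q] ∧ c ∉ [v, u, w, p, q]) ∧
        [u, v, w, p, q].Nodup ∧ a ∉ [u, v, w, p, q] ∧ b ∉ [u, v, w, p, q] ∧ c ∉ [u, v, w, p, q] := by
      clear * - hl ha hb hc' hp hq
      simp only [List.nodup_cons, List.mem_cons, not_or, List.not_mem_nil, List.nodup_nil] at *
      grind
    obtain ⟨⟨a1, a2, a3, a4⟩, a5, a6, a7, a8⟩ := this
    exact mul_mem (k5 hy h1 hM _ a1 rfl a2 a3 a4) (inv_mem (k5 hy h1 hM _ a5 rfl a6 a7 a8))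
  have k1 : ∀ u p q : Fin r, [u, p, q].Nodup → p ∉ [a, b, c, d, e, f] → q ∉ [a, b, c, d, e, f] →
      cy3 u p q ∈ N := fun u p q h hp hq => by
    have : (d ∉ [u, p, q] ∧ e ∉ [u, p, q] ∧ f ∉ [u, p, q]) ∨
        a ∉ [u, p, q] ∧ b ∉ [u, p, q] ∧ c ∉ [u, p, q] := by
      clear * - hn hp hq
      simp only [List.nodup_cons, List.mem_cons, not_or, List.not_mem_nil, List.nodup_nil] at *
      grind
    rcases this with ⟨a1, a2, a3⟩ | ⟨a1, a2, a3⟩
    · exact k3 hz h2 (fun h e => hM h (.inr e)) u p q h a1 a2 a3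
    · exact k3 hy h1 (fun h e => hM h (.inl e)) u p q h a1 a2 a3
  have k2 : ∀ u v w p : Fin r, [u, v, w].Nodup → p ∉ [a, b, c, d, e, f, u, v, w] →
      cy3 p v w ∈ N → cy3 u v w ∈ N := fun u v w p h hp h' => by
    obtain ⟨q, hq⟩ := fr [a, b, c, d, e, f, u, v, w, p] (by simp)
    obtain ⟨h3, a1, a2, a3, a4, a5, a6, a7, a8⟩ : [u, p, q].Nodup ∧ p ∉ [a, b, c, d, e, f] ∧
        q ∉ [a, b, c, d, e, f] ∧ v ≠ u ∧ v ≠ p ∧ v ≠ q ∧ w ≠ u ∧ w ≠ p ∧ w ≠ q := by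
      clear * - h hp hq
      simp only [List.nodup_cons, List.mem_cons, not_or, List.not_mem_nil, List.nodup_nil] at *
      grind
    have h4 := k1 u p q h3 a1 a2
    obtain ⟨h5, -, -, h6⟩ := cy3_apply h3
    have := cy3_conj (cy3 u p q) u v w
    rw [h5, h6 v a3 a4 a5, h6 w a6 a7 a8] at this
    rwa [← this, N.mul_mem_cancel_right (inv_mem h4), N.mul_mem_cancel_left h4] at h'
  have k4 : ∀ u v w : Fin r, [u, v, w].Nodup → cy3 u v w ∈ N := fun u v w h => by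
    obtain ⟨p, hp⟩ := fr [a, b, c, d, e, f, u, v, w] (by simp)
    obtain ⟨q, hq⟩ := fr [a, b, c, d, e, f, v, w, p] (by simp)
    obtain ⟨a1, a2, a3, a4, a5, a6⟩ : [p, v, w].Nodup ∧ [v, w, p].Nodup ∧ [q, w, p].Nodup ∧
        [w, p, q].Nodup ∧ p ∉ [a, b, c, d, e, f] ∧ q ∉ [a, b, c, d, e, f] := by
      clear * - h hp hq
      simp only [List.nodup_cons, List.mem_cons, not_or, List.not_mem_nil, List.nodup_nil] at *
      grind
    refine k2 u v w p h hp ?_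
    rw [cy3_cyc a1]
    refine k2 v w p q a2 hq ?_
    rw [cy3_cyc a3]
    exact k1 _ _ _ a4 a5 a6
  refine hmin M (map_injective (alternatingGroup (Fin r)).subtype_injective ?_)
  rw [← MonoidHom.range_eq_map, range_subtype]
  refine le_antisymm (map_subtype_le _)
    (Perm.closure_three_cycles_eq_alternating.ge.trans ((closure_le _).2 fun g hg => ?_))
  obtain ⟨u, hu, -⟩ := hg.isCycle
  have h3 := hg.nodup_iff_mem_support.2 (Perm.mem_support.2 hu)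
  have h4 := k4 _ _ _ h3
  rw [cy3_cyc h3, cy3, swap_comm] at h4
  rw [hg.eq_swap_mul_swap_iff_mem_support.2 (Perm.mem_support.2 hu)]
  exact h4

/-- a word in powers of the `x i` -/
def wd {G : Type*} [Monoid G] {m : ℕ} (x : Fin m → G) (l : List (Fin m × ℕ)) : G :=
  (l.map fun p => x p.1 ^ p.2).prod

theorem map_wd {G G' : Type*} [Monoid G] [Monoid G'] (f : G →* G') {m : ℕ} (x : Fin m → G)
    (l : List (Fin m × ℕ)) : f (wd x l) = wd (fun i => f (x i)) l := by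
  simp [wd, map_list_prod, Function.comp_def]

/-- a product of transpositions -/
def sw {r : ℕ} (l : List (Fin r × Fin r)) : Perm (Fin r) := (l.map fun p => swap p.1 p.2).prod

theorem sign_sw {r : ℕ} {l : List (Fin r × Fin r)} (h : (∀ p ∈ l, p.1 ≠ p.2) ∧ l.length % 2 = 0) :
    Perm.sign (sw l) = 1 := by
  rw [sw, Perm.sign_prod_list_swap (by
    simp only [List.mem_map]
    rintro _ ⟨p, hp, rfl⟩
    exact ⟨_, _, h.1 p hp, rfl⟩), List.length_map, Even.neg_one_pow (Nat.even_iff.2 h.2)]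

theorem lift_perm' {r m : ℕ} (π : H →* alternatingGroup (Fin r)) (hπ : Function.Surjective π)
    (s : ℕ) [Fact s.Prime] (hs : s ≠ 2) (hc : CenK π s) (x : Fin m → Perm (Fin r))
    (L : List (Perm (Fin r))) (σ : Perm (Fin r)) (h0 : ∀ i, Perm.sign (x i) = 1)
    (h1 : ∀ i j, x i * x j = x j * x i) (h2 : ∀ i, x i ^ s = 1) (hσ : Perm.sign σ = 1)
    (h3 : ∀ i, σ * x i * σ⁻¹ = (x i)⁻¹)
    (hL : ∀ τ ∈ L, Perm.sign τ = 1 ∧ ∀ k, ∃ i, ∃ n < s, τ * x k * τ⁻¹ = x i ^ n)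
    (h4 : ∀ i j, i < j → ∃ τ ∈ L, ∃ a < s, ∃ b < s, τ * x i * τ⁻¹ = x i ^ a ∧
      τ * x j * τ⁻¹ = x j ^ b ∧ a * b % s ≠ 1) :
    ∃ y : Fin m → H, (∀ l, (π (wd y l)).1 = wd x l) ∧ (∀ i j, y i * y j = y j * y i) ∧
      (∀ i, y i ^ s = 1) ∧ (∃ h : H, ∀ l, h * wd y l * h⁻¹ = (wd y l)⁻¹) ∧
      ∀ τ ∈ L, ∃ h : H, ∀ l l', τ * wd x l * τ⁻¹ = wd x l' → h * wd y l * h⁻¹ = wd y l' := by
  let x' : Fin m → alternatingGroup (Fin r) := fun i => ⟨x i, h0 i⟩
  have hx : ∀ i, x' i ∈ closure (Set.range x') := fun i => subset_closure ⟨i, rfl⟩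
  have hN : ∀ τ (h : τ ∈ L) k, ⟨τ, (hL τ h).1⟩ * x' k * ⟨τ, (hL τ h).1⟩⁻¹ ∈ closure (Set.range x') :=
    fun τ h k => by
      obtain ⟨i, n, -, e⟩ := (hL τ h).2 k
      rw [show ⟨τ, (hL τ h).1⟩ * x' k * ⟨τ, (hL τ h).1⟩⁻¹ = x' i ^ n from Subtype.ext e]
      exact pow_mem (hx i) n
  obtain ⟨j, a1, ⟨t, -, a2⟩, a3⟩ := exists_lift_hom π hπ s hs hc x' (fun i j => Subtype.ext (h1 i j))
    (fun i => Subtype.ext (h2 i)) ⟨σ, hσ⟩ (fun i => Subtype.ext (h3 i)) fun i j hij => by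
      obtain ⟨τ, hτ, a, -, b, -, e1, e2, e3⟩ := h4 i j hij
      exact ⟨⟨τ, (hL τ hτ).1⟩, a, b, Subtype.ext e1, Subtype.ext e2, e3, hN τ hτ⟩
  let e : Fin m → closure (Set.range x') := fun i => ⟨x' i, hx i⟩
  have b1 : ∀ l, wd (fun i => j (e i)) l = j (wd e l) := fun l => (map_wd j e l).symm
  have b2 : ∀ l, ((wd e l).1 : Perm (Fin r)) = wd x l := fun l =>
    map_wd ((alternatingGroup (Fin r)).subtype.comp (closure (Set.range x')).subtype) e l
  refine ⟨fun i => j (e i), fun l => by rw [b1, a1, b2], fun i k => ?_, fun i => ?_,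
    ⟨t, fun l => by rw [b1, a2]⟩, fun τ hτ => ?_⟩
  · rw [← map_mul, ← map_mul, show e i * e k = e k * e i from Subtype.ext (Subtype.ext (h1 i k))]
  · rw [← map_pow, show e i ^ s = 1 from Subtype.ext (Subtype.ext (h2 i)), map_one]
  · obtain ⟨h, -, -, hh⟩ := a3 _ (hN τ hτ)
    exact ⟨h, fun l l' e' => by
      rw [b1, b1]; exact hh _ _ (Subtype.ext (by rw [coe_mul, coe_mul, b2, b2]; exact e'))⟩

/-- `lift_perm'` for permutations given as products of transpositions -/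
theorem lift_perm {r m : ℕ} (π : H →* alternatingGroup (Fin r)) (hπ : Function.Surjective π)
    (s : ℕ) [Fact s.Prime] (hs : s ≠ 2) (hc : CenK π s) (x : Fin m → List (Fin r × Fin r))
    (L : List (List (Fin r × Fin r))) (σ : List (Fin r × Fin r))
    (h0 : ∀ l ∈ σ :: List.ofFn x ++ L, (∀ p ∈ l, p.1 ≠ p.2) ∧ l.length % 2 = 0)
    (h1 : ∀ i j, sw (x i) * sw (x j) = sw (x j) * sw (x i)) (h2 : ∀ i, sw (x i) ^ s = 1)
    (h3 : ∀ i, sw σ * sw (x i) * (sw σ)⁻¹ = (sw (x i))⁻¹)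
    (hL : ∀ τ ∈ L, ∀ k, ∃ i, ∃ n < s, sw τ * sw (x k) * (sw τ)⁻¹ = sw (x i) ^ n)
    (h4 : ∀ i j, i < j → ∃ τ ∈ L, ∃ a < s, ∃ b < s, sw τ * sw (x i) * (sw τ)⁻¹ = sw (x i) ^ a ∧
      sw τ * sw (x j) * (sw τ)⁻¹ = sw (x j) ^ b ∧ a * b % s ≠ 1) :
    ∃ y : Fin m → H, (∀ l, (π (wd y l)).1 = wd (fun i => sw (x i)) l) ∧
      (∀ i j, y i * y j = y j * y i) ∧ (∀ i, y i ^ s = 1) ∧
      (∃ h : H, ∀ l, h * wd y l * h⁻¹ = (wd y l)⁻¹) ∧
      ∀ τ ∈ L, ∃ h : H, ∀ l l', sw τ * wd (fun i => sw (x i)) l * (sw τ)⁻¹ =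
        wd (fun i => sw (x i)) l' → h * wd y l * h⁻¹ = wd y l' := by
  obtain ⟨y, a1, a2, a3, a4, a5⟩ := lift_perm' π hπ s hs hc (fun i => sw (x i)) (L.map sw) (sw σ)
    (fun i => sign_sw (h0 _ (by simp))) h1 h2 (sign_sw (h0 _ (by simp))) h3 (by
      simp only [List.mem_map]
      rintro _ ⟨τ, hτ, rfl⟩
      exact ⟨sign_sw (h0 _ (by simp [hτ])), hL τ hτ⟩) fun i j hij => by
      obtain ⟨τ, hτ, h⟩ := h4 i j hij
      exact ⟨_, List.mem_map_of_mem hτ, h⟩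
  exact ⟨y, a1, a2, a3, a4, fun τ hτ => a5 _ (List.mem_map_of_mem hτ)⟩

end CfsgAE
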