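/-
Alternating sections of `E₆`, `E₇`, `E₈`: package L.
-/
import Cfsg.Agent.AE.Lift2
import Cfsg.Agent.AE.Lift3

set_option autoImplicit false

namespace CfsgAE

open Equiv List

variable {H : Type*} [Group H] [Finite H]

/-- two seven-cycles -/
def x7 : Fin 2 → List (Fin 14 × Fin 14) := ![[(0, 1), (1, 2), (2, 3), (3, 4), (4, 5), (5, 6)],
  [(7, 8), (8, 9), (9, 10), (10, 11), (11, 12), (12, 13)]]

/-- elements normalising them -/
def L7 : List (List (Fin 14 × Fin 14)) := [[(1, 2), (2, 4), (3, 6), (6, 5)],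
  [(1, 3), (3, 2), (2, 6), (6, 4), (4, 5), (8, 10), (10, 9), (9, 13), (13, 11), (11, 12)],
  [(0, 7), (1, 10), (10, 3), (3, 9), (9, 2), (2, 13), (13, 6), (6, 11), (11, 4), (4, 12), (12, 5), (5, 8)]]

theorem lift7 {K : Type*} [Field K] (π : H →* alternatingGroup (Fin 14))
    (hπ : Function.Surjective π) (hmin : ∀ M : Subgroup H, M.map π = ⊤ → M = ⊤)
    (hT : TorRep K H 7 7) : ∃ y z : H, y * z = z * y ∧ y ^ 7 = 1 ∧ z ^ 7 = 1 ∧
      (∀ a < 7, ∀ b < 7, y ^ a * z ^ b = 1 → a = 0 ∧ b = 0) ∧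
      (∃ h : H, h * y * h⁻¹ = y ^ 2 ∧ h * z * h⁻¹ = z) ∧
      (∃ h : H, h * y * h⁻¹ = y ^ 3 ∧ h * z * h⁻¹ = z ^ 3) ∧
      ∃ h : H, h * y * h⁻¹ = z ^ 3 ∧ h * z * h⁻¹ = y := by
  haveI : Fact (Nat.Prime 7) := ⟨by norm_num⟩
  obtain ⟨y, a1, a2, a3, -, a4⟩ := lift_perm π hπ 7 (by norm_num)
    (cenK_of (by simp) π hπ hmin hT) x7 L7
    [(1, 6), (2, 5), (3, 4), (8, 13), (9, 12), (10, 11)] (by decide +kernel) (by decide +kernel)
    (by decide +kernel) (by decide +kernel) (by decide +kernel) (by decide +kernel)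
  have key : ∀ n : Fin 3, ∃ h : H, ∀ i j a, sw L7[n] * wd (fun i => sw (x7 i)) [(i, 1)] * (sw L7[n])⁻¹ =
      wd (fun i => sw (x7 i)) [(j, a)] →
      h * y i * h⁻¹ = y j ^ a := fun n => by
    obtain ⟨h, hh⟩ := a4 _ (getElem_mem (l := L7) n.2)
    exact ⟨h, fun i j a e => by simpa [wd] using hh _ _ e⟩
  refine ⟨y 0, y 1, a2 0 1, a3 0, a3 1, fun a ha b hb e => ?_, ?_, ?_, ?_⟩
  · have := a1 [(0, a), (1, b)]
    rw [show wd y [(0, a), (1, b)] = 1 by simpa [wd] using e, map_one] at this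
    exact (by decide +kernel : ∀ a < 7, ∀ b < 7, 1 = wd (fun i => sw (x7 i)) [(0, a), (1, b)] →
      a = 0 ∧ b = 0)
      a ha b hb this
  · obtain ⟨h, hh⟩ := key 0
    exact ⟨h, hh 0 0 2 (by decide +kernel), (hh 1 1 1 (by decide +kernel)).trans (pow_one _)⟩
  · obtain ⟨h, hh⟩ := key 1
    exact ⟨h, hh 0 0 3 (by decide +kernel), hh 1 1 3 (by decide +kernel)⟩
  · obtain ⟨h, hh⟩ := key 2
    exact ⟨h, hh 0 1 3 (by decide +kernel), (hh 1 0 1 (by decide +kernel)).trans (pow_one _)⟩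

/-- three five-cycles -/
def x5 : Fin 3 → List (Fin 15 × Fin 15) := ![[(0, 1), (1, 2), (2, 3), (3, 4)],
  [(5, 6), (6, 7), (7, 8), (8, 9)],
  [(10, 11), (11, 12), (12, 13), (13, 14)]]

/-- elements normalising them -/
def L5 : List (List (Fin 15 × Fin 15)) := [[(1, 2), (2, 4), (4, 3), (6, 7), (7, 9), (9, 8)],
  [(1, 2), (2, 4), (4, 3), (11, 12), (12, 14), (14, 13)],
  [(6, 7), (7, 9), (9, 8), (11, 12), (12, 14), (14, 13)],
  [(0, 5), (1, 6), (6, 4), (4, 9), (2, 7), (7, 3), (3, 8), (11, 12), (12, 14), (14, 13)],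
  [(0, 5), (1, 7), (7, 4), (4, 8), (2, 9), (9, 3), (3, 6), (11, 12), (12, 14), (14, 13)],
  [(0, 5), (1, 8), (8, 4), (4, 7), (2, 6), (6, 3), (3, 9), (11, 12), (12, 14), (14, 13)],
  [(0, 5), (1, 9), (9, 4), (4, 6), (2, 8), (8, 3), (3, 7), (11, 12), (12, 14), (14, 13)]]

theorem lift5 {K : Type*} [Field K] (π : H →* alternatingGroup (Fin 15))
    (hπ : Function.Surjective π) (hmin : ∀ M : Subgroup H, M.map π = ⊤ → M = ⊤)
    (hT : TorRep K H 5 7) : ∃ x y z : H, x * y = y * x ∧ x * z = z * x ∧ y * z = z * y ∧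
      x ^ 5 = 1 ∧ y ^ 5 = 1 ∧ z ^ 5 = 1 ∧ ∀ a < 5, ∀ b < 5, ∀ c < 5,
        (x ^ a * y ^ b * z ^ c = 1 → a = 0 ∧ b = 0 ∧ c = 0) ∧
        ∃ h : H, h * (x ^ a * y ^ b * z ^ c) * h⁻¹ = (x ^ a * y ^ b * z ^ c) ^ 2 := by
  haveI : Fact (Nat.Prime 5) := ⟨by norm_num⟩
  obtain ⟨y, a1, a2, a3, -, a4⟩ := lift_perm π hπ 5 (by norm_num)
    (cenK_of (by simp) π hπ hmin hT) x5 L5
    [(1, 4), (2, 3), (6, 9), (7, 8), (11, 14), (12, 13)] (by decide +kernel) (by decide +kernel)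
    (by decide +kernel) (by decide +kernel) (by decide +kernel) (by decide +kernel)
  refine ⟨y 0, y 1, y 2, a2 0 1, a2 0 2, a2 1 2, a3 0, a3 1, a3 2, fun a ha b hb c hc => ?_⟩
  have b1 := (by decide +kernel : ∀ a < 5, ∀ b < 5, ∀ c < 5,
    1 = wd (fun i => sw (x5 i)) [(0, a), (1, b), (2, c)] → a + b + c = 0) a ha b hb c hc
  obtain ⟨τ, hτ, b2⟩ := (by decide +kernel : ∀ a < 5, ∀ b < 5, ∀ c < 5, ∃ τ ∈ L5,
      sw τ * wd (fun i => sw (x5 i)) [(0, a), (1, b), (2, c)] * (sw τ)⁻¹ =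
        wd (fun i => sw (x5 i)) [(0, a), (1, b), (2, c), (0, a), (1, b), (2, c)]) a ha b hb c hc
  refine ⟨fun e => ?_, ?_⟩
  · have := a1 [(0, a), (1, b), (2, c)]
    rw [show wd y [(0, a), (1, b), (2, c)] = 1 by simpa [wd, mul_assoc] using e, map_one] at this
    have := b1 this
    omega
  · obtain ⟨h, hh⟩ := a4 τ hτ
    exact ⟨h, by simpa [wd, mul_assoc, sq] using hh _ _ b2⟩

end CfsgAE
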