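/-
Alternating sections of `E₆`, `E₇`, `E₈`: the Chevalley-free cores for `A₁₈` and `A₁₂`.
-/
import Cfsg.Agent.AE.Ex6
import Cfsg.Agent.AE.Lift

set_option autoImplicit false

namespace CfsgAE

open Module Equiv CfsgH7 Matrix

variable {K : Type*} [Field K] {H : Type*} [Group H] {ι : Type*} [Fintype ι] [DecidableEq ι]

/-- matrices as endomorphisms -/
noncomputable def rl (ρ : H →* GL ι K) : H →* End K (ι → K) where
  toFun h := Matrix.toLin' (ρ h : Matrix ι ι K)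
  map_one' := by simp; rfl
  map_mul' g h := by simp [Matrix.toLin'_mul]; rfl

variable [IsAlgClosed K] [Finite H]

theorem spin_sub {r k d : ℕ} (hr : 12 ≤ r) (h3 : (3 : K) ≠ 0) (π : H →* alternatingGroup (Fin r))
    (hπ : Function.Surjective π) (hmin : ∀ M : Subgroup H, M.map π = ⊤ → M = ⊤) (hc : CenK π 3)
    (ρ : H →* GL ι K) {y z : H} (hy : y ^ 3 = 1) (hz : z ^ 3 = 1) {a b c a' b' c' : Fin r}
    (hn : [a, b, c, a', b', c'].Nodup) (h1 : (π y).1 = cy3 a b c) (h2 : (π z).1 = cy3 a' b' c')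
    (hreal : ∃ h : H, h * y * h⁻¹ = y⁻¹) (hk : r = 2 * k + 2)
    (hk' : ((2 : K) ≠ 0 ∧ (k + 1 : K) ≠ 0) ∨ ((2 : K) = 0 ∧ k % 2 = 0))
    (hS : SpinSub ρ y z d) : 2 ^ k ≤ d := by
  obtain ⟨W, w1, w2, w3, w4⟩ := hS
  let M0 : Submonoid H :=
    { carrier := {h | ∀ v ∈ W, rl ρ h v ∈ W}
      mul_mem' := fun {g h} hg hh v hv => by
        rw [map_mul, End.mul_apply]
        exact hg _ (hh v hv)
      one_mem' := fun v hv => by rwa [map_one] }
  let M : Subgroup H :=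
    { M0 with
      inv_mem' := fun {g} hg => by
        obtain ⟨n, hn⟩ := (mem_powers_iff_mem_zpowers (x := g) (y := g⁻¹)).2
          (inv_mem (Subgroup.mem_zpowers g))
        exact hn ▸ M0.pow_mem hg n }
  have hM : M = ⊤ := gen_top hr π hπ hmin hc hy hz hn h1 h2 M fun h hh => w3 h hh
  have hW : ∀ h, ∀ v ∈ W, rl ρ h v ∈ W := fun h => (hM ▸ Subgroup.mem_top h : h ∈ M)
  haveI : Nontrivial W := Submodule.nontrivial_iff_ne_bot.2 w1
  exact (spin (by omega) h3 π hπ hmin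
    { toFun := fun h => (rl ρ h).restrict (hW h)
      map_one' := by ext; simp
      map_mul' := fun g h => by ext; simp }
    (List.Nodup.sublist (List.sublist_append_left [a, b, c] [a', b', c']) hn) h1 hy hreal
    (fun v => Subtype.ext (w4 v v.2)) hk hk').trans w2

theorem ar8 {a b c d e f g x y : ℕ}
    (h : 248 = a + 12 * b + 60 * c + 160 * d + 240 * e + 192 * f + 64 * g)
    (hx : x = a + 10 * b + 40 * c + 80 * d + 80 * e + 32 * f)
    (hy : y = a + 8 * b + 26 * c + 48 * d + 64 * e + 64 * f + 32 * g)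
    (h1 : x = 80 ∨ x = 86 ∨ x = 92 ∨ x = 134) (h2 : y = 80 ∨ y = 86 ∨ y = 92 ∨ y = 134) :
    x = 92 ∧ y = 134 := by
  have h3 : c ≤ 4 ∧ d ≤ 1 ∧ e ≤ 1 ∧ f ≤ 1 ∧ g ≤ 3 := by omega
  obtain ⟨h4, h5, h6, h7, h8⟩ := h3
  interval_cases d <;> interval_cases e <;> interval_cases f <;> interval_cases g <;>
    interval_cases c <;> omega

theorem core8 (h3 : (3 : K) ≠ 0) (π : H →* alternatingGroup (Fin 18))
    (hπ : Function.Surjective π) (hmin : ∀ M : Subgroup H, M.map π = ⊤ → M = ⊤)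
    (hι : Fintype.card ι = 248) (ρ : H →* GL ι K) (hT : TorRep K H 3 8)
    (hD : ∀ h : H, h ^ 3 = 1 → h ≠ 1 →
      fixd (ρ h) = 80 ∨ fixd (ρ h) = 86 ∨ fixd (ρ h) = 92 ∨ fixd (ρ h) = 134)
    (hW : ∀ y z : H, y * z = z * y → y ^ 3 = 1 → z ^ 3 = 1 → fixd (ρ y) = 92 → fixd (ρ z) = 92 →
      fixd (ρ (y * z)) = 134 → fixd (ρ (y * z ^ 2)) = 134 → SpinSub ρ y z 128) : False := by
  obtain ⟨ω, hω⟩ := TSys.exists_omega (K := K)
  have hc := cenK_of (K := K) (Or.inl rfl) π hπ hmin hT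
  obtain ⟨y, N, y1, y2, y3, ⟨h, -, y4⟩, y5⟩ := blocks bok6 π hπ hc (rl ρ) hω
  have F : ∀ {g c}, Act (rl ρ) ω y g c → ∀ v : Fin 7 → ℕ,
      (∀ i, sumW 6 (fun φ => if c φ = 0 ∧ bs 6 φ = i then 1 else 0) = v i) →
      fixd (ρ g) = ∑ i, v i * N i := fun hg v hv => by
    have := hg.eig hω h3 y2 y3 0
    rw [chi_zero] at this
    simp only [y5] at this
    exact this.trans (sum_fib _ _ _ _ hv)
  have T := nW_total (ρ := rl ρ) hω h3 y2 y3
  simp only [y5, finrank_fintype_fun_eq_card, hι] at T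
  replace T := T.trans (by simpa using (sum_fib (bs 6) N (fun _ => True)
    ![1, 12, 60, 160, 240, 192, 64] (by decide +kernel)))
  have a0 := act_y (ρ := rl ρ) (ω := ω) y2 0
  have a1 := act_y (ρ := rl ρ) (ω := ω) y2 1
  have F1 := F a0 ![1, 10, 40, 80, 80, 32, 0] (by decide +kernel)
  have F2 := F a1 ![1, 10, 40, 80, 80, 32, 0] (by decide +kernel)
  have F3 := F (a0.mul hω a1) ![1, 8, 26, 48, 64, 64, 32] (by decide +kernel)
  have F4 := F (a0.mul hω (a1.pow hω 2)) ![1, 8, 26, 48, 64, 64, 32] (by decide +kernel)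
  rw [← F1] at F2
  rw [← F3] at F4
  simp [Fin.sum_univ_seven, -map_mul] at T F1 F3
  have n0 : y 0 ≠ 1 := fun e => by
    have := y1 0
    rw [e, map_one] at this
    exact (by decide +kernel : (1 : Perm (Fin (3 * 6))) ≠ bx 6 0) this
  have n1 : y 0 * y 1 ≠ 1 := fun e => by
    have := congrArg (fun g => (π g).1) e
    simp only [map_mul, map_one, Subgroup.coe_mul] at this
    rw [y1, y1] at this
    exact (by decide +kernel : bx 6 0 * bx 6 1 ≠ (1 : Perm (Fin (3 * 6)))) this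
  have := ar8 T F1 F3 (hD _ (y3 0) n0)
    (hD _ (by rw [(show Commute _ _ from y2 0 1).mul_pow, y3, y3, one_mul]) n1)
  have := spin_sub (k := 8) (a := 0) (b := 1) (c := 2) (a' := 3) (b' := 4) (c' := 5) (by norm_num)
    h3 π hπ hmin hc ρ (y3 0) (y3 1) (by decide) (y1 0) (y1 1) ⟨h, y4 0⟩ rfl (by
      by_cases h2 : (2 : K) = 0
      · exact Or.inr ⟨h2, rfl⟩
      · exact Or.inl ⟨h2, fun e => mul_ne_zero h3 h3 (by push_cast at e; linear_combination e)⟩)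
    (hW _ _ (y2 0 1) (y3 0) (y3 1) this.1 (F2.trans this.1) this.2 (F4.trans this.2))
  exact absurd this (by norm_num)

theorem ar6 {a b c d e x y z : ℕ} (h : 78 = a + 8 * b + 24 * c + 32 * d + 16 * e)
    (hx : x = a + 6 * b + 12 * c + 8 * d) (hy : y = a + 4 * b + 6 * c + 8 * d + 8 * e)
    (hz : z = a + 2 * b + 6 * c + 14 * d + 4 * e)
    (h1 : x = 24 ∨ x = 28 ∨ x = 30 ∨ x = 36 ∨ x = 46)
    (h2 : y = 24 ∨ y = 28 ∨ y = 30 ∨ y = 36 ∨ y = 46)
    (h3 : z = 24 ∨ z = 28 ∨ z = 30 ∨ z = 36 ∨ z = 46) : x = 36 ∧ z = 24 ∨ x = 30 ∧ y = 36 := by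
  have h3 : c ≤ 3 ∧ d ≤ 2 ∧ e ≤ 4 := by omega
  obtain ⟨h4, h5, h6⟩ := h3
  interval_cases c <;> interval_cases d <;> interval_cases e <;> omega

theorem core6 (h2 : (2 : K) ≠ 0) (h3 : (3 : K) ≠ 0) (π : H →* alternatingGroup (Fin 12))
    (hπ : Function.Surjective π) (hmin : ∀ M : Subgroup H, M.map π = ⊤ → M = ⊤)
    (hι : Fintype.card ι = 78) (ρ : H →* GL ι K) (hT : TorRep K H 3 6)
    (hD : ∀ h : H, h ^ 3 = 1 → h ≠ 1 → fixd (ρ h) = 24 ∨ fixd (ρ h) = 28 ∨ fixd (ρ h) = 30 ∨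
      fixd (ρ h) = 36 ∨ fixd (ρ h) = 46)
    (hW : ∀ y z : H, y * z = z * y → y ^ 3 = 1 → z ^ 3 = 1 → fixd (ρ y) = 30 → fixd (ρ z) = 30 →
      fixd (ρ (y * z)) = 36 → fixd (ρ (y * z ^ 2)) = 36 → SpinSub ρ y z 16) : False := by
  obtain ⟨ω, hω⟩ := TSys.exists_omega (K := K)
  have hc := cenK_of (K := K) (Or.inr (Or.inl rfl)) π hπ hmin hT
  obtain ⟨y, N, y1, y2, y3, ⟨h, hh, y4⟩, y5⟩ := blocks bok4 π hπ hc (rl ρ) hω
  have F : ∀ {g c}, Act (rl ρ) ω y g c → ∀ v : Fin 5 → ℕ,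
      (∀ i, sumW 4 (fun φ => if c φ = 0 ∧ bs 4 φ = i then 1 else 0) = v i) →
      fixd (ρ g) = ∑ i, v i * N i := fun hg v hv => by
    have := hg.eig hω h3 y2 y3 0
    rw [chi_zero] at this
    simp only [y5] at this
    exact this.trans (sum_fib _ _ _ _ hv)
  have T := nW_total (ρ := rl ρ) hω h3 y2 y3
  simp only [y5, finrank_fintype_fun_eq_card, hι] at T
  replace T := T.trans (by simpa using (sum_fib (bs 4) N (fun _ => True)
    ![1, 8, 24, 32, 16] (by decide +kernel)))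
  have a := act_y (ρ := rl ρ) (ω := ω) y2
  have F1 := F (a 0) ![1, 6, 12, 8, 0] (by decide +kernel)
  have F2 := F (a 1) ![1, 6, 12, 8, 0] (by decide +kernel)
  have F3 := F ((a 0).mul hω (a 1)) ![1, 4, 6, 8, 8] (by decide +kernel)
  have F4 := F ((a 0).mul hω ((a 1).pow hω 2)) ![1, 4, 6, 8, 8] (by decide +kernel)
  have F5 := F (((a 1).mul hω (a 2)).mul hω (a 3)) ![1, 2, 6, 14, 4] (by decide +kernel)
  rw [← F1] at F2
  rw [← F3] at F4
  simp [Fin.sum_univ_five, -map_mul] at T F1 F3 F5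
  have c : ∀ i j, Commute (y i) (y j) := y2
  have hw : (π (y 1 * y 2 * y 3)).1 = fP 1 := by
    simp only [map_mul, Subgroup.coe_mul]
    rw [y1, y1, y1]
    rfl
  have hw3 : (y 1 * y 2 * y 3) ^ 3 = 1 := by
    rw [((c 1 3).mul_left (c 2 3)).mul_pow, (c 1 2).mul_pow, y3, y3, y3, one_mul, one_mul]
  have n0 : y 0 ≠ 1 := fun e => by
    have := y1 0
    rw [e, map_one] at this
    exact (by decide +kernel : (1 : Perm (Fin (3 * 4))) ≠ bx 4 0) this
  have n1 : y 0 * y 1 ≠ 1 := fun e => by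
    have := congrArg (fun g => (π g).1) e
    simp only [map_mul, map_one, Subgroup.coe_mul] at this
    rw [y1, y1] at this
    exact (by decide +kernel : bx 4 0 * bx 4 1 ≠ (1 : Perm (Fin (3 * 4)))) this
  have n2 : y 1 * y 2 * y 3 ≠ 1 := fun e => by
    rw [e, map_one] at hw
    exact (by decide +kernel : (1 : Perm (Fin 12)) ≠ fP 1) hw
  rcases ar6 T F1 F3 F5 (hD _ (y3 0) n0) (hD _ (by rw [(c 0 1).mul_pow, y3, y3, one_mul]) n1)
    (hD _ hw3 n2) with e | e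
  · refine excl6 h3 π hπ hc (rl ρ) (by rw [finrank_fintype_fun_eq_card, hι]) hω (y1 0) (y3 0) hw hw3
      hh (y4 0) ?_ e.1 e.2
    calc _ = h * y 1 * h⁻¹ * (h * y 2 * h⁻¹) * (h * y 3 * h⁻¹) := by group
      _ = _ := by
        rw [y4, y4, y4, ← _root_.mul_inv_rev, ← _root_.mul_inv_rev, y2 2 1,
          ((c 3 1).mul_right (c 3 2)).eq]
  have := spin_sub (k := 5) (a := 0) (b := 1) (c := 2) (a' := 3) (b' := 4) (c' := 5) (by norm_num)
    h3 π hπ hmin hc ρ (y3 0) (y3 1) (by decide) (y1 0) (y1 1) ⟨h, y4 0⟩ rfl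
    (Or.inl ⟨h2, fun e => mul_ne_zero h2 h3 (by push_cast at e; linear_combination e)⟩)
    (hW _ _ (y2 0 1) (y3 0) (y3 1) e.1 (F2.trans e.1) e.2 (F4.trans e.2))
  exact absurd this (by norm_num)

end CfsgAE
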