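/-
Alternating sections of `E₆`: finite facts.
-/
import Cfsg.Agent.AE.Asm

set_option autoImplicit false
set_option maxRecDepth 100000

namespace CfsgAE

open CfsgH8 CfsgH8.Chev Matrix CfsgH7 CfsgH5 Cfsg.Lie Equiv

theorem slE6 (K : Type*) [Field K] : SL (okE6.chev K) ⟨71, by decide⟩ :=
  sl_of okE6 K _ (by decide +kernel)

theorem qpE6 (K : Type*) [Field K] :
    Qp (okE6.chev K) (fun m => m ≠ 0 ∧ (3 = 3 ∨ m.Coprime 3)) 2 [] := fun e h1 h2 => by
  rw [← Nat.eq_of_beq_eq_true (qp_of (slE6 K) (P := Nat.beq 9) (pre := []) (by decide +kernel)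
    e h1 h2)]
  decide

/-- three times the minuscule weights, shifted -/
noncomputable def uN (a j : ℕ) : ℕ := ap 5 31 0xe629d09518a74254929d09525074254941d695250a425494290c5250a5a5494296c5256a5a5495a96c5316a5a5495b56c5316a5b1ac5a9695316d5b1ac5a96c531cd5b1ac5b56c531cd731ac7356c6b1cd731af7356c6bdcd731af8b5cc6be30731af8c1cf
  (Nat.add (Nat.mul 6 a) j)

/-- three times the minuscule weights -/
noncomputable def uZ (a j : ℕ) : ℤ := Int.subNatNat (uN a j) 11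

theorem uN_spec (a j : ℕ) : (uN a j : ZMod 11) = uZ a j := by
  rw [uZ, Int.subNatNat_eq_coe, Int.cast_sub, Int.cast_natCast, Int.cast_natCast,
    ZMod.natCast_self, sub_zero]

theorem winvE6 (K : Type*) [Field K] : WInv (okE6.chev K) fun a : Fin 27 => vec (uZ a) := by
  have h1 : ∀ a < 27, ∀ b < 27, (∀ j < 6, uZ a j = uZ b j) → a = b := by decide +kernel
  have h2 : ∀ i < 6, ∀ a < 27, ∃ b < 27, ∀ j < 6,
      uZ b j = uZ a j - pr tabE6 (uZ a) i * Tab.dl i j := by decide +kernel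
  refine winv_of _ (fun a b e => Fin.ext (h1 a a.2 b b.2 fun j hj => congrFun e ⟨j, hj⟩))
    fun i a => ?_
  obtain ⟨b, hb, e⟩ := h2 i i.2 a a.2
  refine ⟨⟨b, hb⟩, funext fun j => ?_⟩
  rw [sr_apply, A_vec, Pi.sub_apply, Pi.smul_apply, ← Tab.dl_eq]
  exact e j j.2

theorem kacE6_11 : kacB 27 6 11 (thN tabE6 71) uN (ratB 11 2 fun _ => false) = true := by
  decide +kernel

theorem kacE6_3 : kacB 72 6 3 (thN tabE6 71) (rN tabE6 3) (ratB 3 1 fun res => decide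
    ((res.map fun d : ℕ => ind 0 (d : ZMod 3)).sum ∈ [18, 22, 24, 30, 40])) = true := by
  decide +kernel

theorem kacE6_r : kacB 72 6 3 (thN tabE6 71) (rN tabE6 3) (rootB tabE6 3 30) = true := by
  decide +kernel

/-- weights vanishing on the killed roots -/
noncomputable def xB (b : ℕ) (e : ℤ) (a : ℕ) : Bool :=
  lin 72 fun r => bimp (ibeq (sd tabE6 71 b e r % 3) 0) (ibeq (bb tabE6 (uZ a) (tabE6.rtc r)) 0)

set_option synthInstance.maxSize 1024 in
theorem pairE6 : ∀ b < 72, (∀ i < 6, pr tabE6 (tabE6.rtc 71) i = 0 → 0 ≤ pr tabE6 (tabE6.rtc b) i) →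
    countLt 72 (fun r => ibeq (sd tabE6 71 b 1 r % 3) 0) = 24 →
    countLt 72 (fun r => ibeq (sd tabE6 71 b (-1) r % 3) 0) = 24 →
    countLt 27 (xB b 1) ≤ 3 ∧ countLt 27 (xB b (-1)) ≤ 3 ∧ ∃ a < 27, xB b 1 a = true ∧
      xB b (-1) a = true ∧ countLt 72 (fun r => ibeq (bb tabE6 (uZ a) (tabE6.rtc r)) 3) = 16 := by
  decide +kernel

theorem xB_iff (K : Type*) [Field K] {g : (Fin chevE6.rank → ℤ) →+ ℤ} {b : ℕ} {e : ℤ}
    (h : ∀ r : Fin chevE6.nroots, g ((okE6.chev K).rt r) = sd tabE6 71 b e r) (a : ℕ) :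
    (∀ r, (g ((okE6.chev K).rt r) : ZMod 3) = 0 →
      bf (okE6.chev K) (vec (uZ a)) ((okE6.chev K).rt r) = 0) ↔ xB b e a = true := by
  simp only [xB, lin_iff, bimp_eq, Bool.or_eq_true, Bool.not_eq_true', ← Bool.not_eq_true,
    ← imp_iff_not_or, ibeq_iff, h, ZMod.intCast_zmod_eq_zero_iff_dvd, Int.dvd_iff_emod_eq_zero]
  exact ⟨fun h r hr e => (bf_vec okE6 K _ _).symm.trans (h ⟨r, hr⟩ e),
    fun h r e => (bf_vec okE6 K _ (tabE6.rtc r)).trans (h r r.2 e)⟩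

end CfsgAE
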