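/-
Alternating sections of `E₆`.
-/
import Cfsg.Agent.AE.E6c
import Cfsg.Agent.AE.Core

set_option autoImplicit false
set_option maxRecDepth 100000

namespace CfsgAE

open CfsgH8 CfsgH8.Chev Matrix CfsgH7 CfsgH5 Cfsg.Lie Equiv

theorem boundE6 {F : Type*} [Field F] [Finite F] (p : ℕ) [Fact p.Prime] [CharP F p] (r : ℕ)
    {G : Subgroup (GL chevE6.Idx F)} (hG : G ≤ chevE6.group F)
    (H : Subgroup G) (N : Subgroup H) [N.Normal]
    (h : Nonempty (H ⧸ N ≃* alternatingGroup (Fin r))) :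
    r ≤ 11 + (if p = 2 ∨ p = 3 ∨ p = 5 then 1 else 0) := by
  have : Fact (Nat.Prime 3) := ⟨by decide⟩
  have : Fact (Nat.Prime 11) := ⟨by decide⟩
  have hF := lf_closure F chevE6.Idx
  have hS := slE6 (AlgebraicClosure F)
  have hE := extraE6 (AlgebraicClosure F)
  have hl : Fintype.card (Fin chevE6.rank) = 6 := Fintype.card_fin _
  by_cases hp : p = 2 ∨ p = 3
  · rw [if_pos (by omega)]
    refine assemble okE6 hG H N h fun M _ _ π hπ _ ρ hρ hG => ?_
    exact no_rat hS hE hF ρ hρ hG (cast_ne' p Fact.out (by omega)) (s := 11) (by rw [hl]; decide)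
      (winvE6 _) (kf_chk hS (fun a j => uN_spec a j) (th := thN tabE6 71) (by decide +kernel)
        (winvE6 _) (Q := fun _ => False) (fun _ => Bool.false_ne_true) kacE6_11) π hπ
      (a := ⟨swap 0 1 * swap 1 2 * swap 2 3 * swap 3 4 * swap 4 5 * swap 5 6 * swap 6 7 * swap 7 8 *
        swap 8 9 * swap 9 10, by simp [Perm.mem_alternatingGroup]⟩)
      (σ := ⟨swap 1 2 * swap 2 4 * swap 4 8 * swap 8 5 * swap 5 10 * swap 10 9 * swap 9 7 *
        swap 7 3 * swap 3 6 * swap 11 12, by simp [Perm.mem_alternatingGroup]⟩)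
      (Subtype.ext (Equiv.ext (by decide +kernel))) (fun e => by
        have := DFunLike.congr_fun (congrArg Subtype.val e) 0
        revert this
        decide +kernel) (Subtype.ext (Equiv.ext (by decide +kernel)))
  · refine le_trans (assemble okE6 hG H N h (s := 11) fun M _ _ π hπ hmin ρ hρ hG => ?_)
      (Nat.le_add_right _ _)
    have hs : ((3 : ℕ) : AlgebraicClosure F) ≠ 0 := cast_ne' p Fact.out (by omega)
    refine core6 (by exact_mod_cast cast_ne' (F := F) p Nat.prime_two (by omega))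
      (by exact_mod_cast hs) π hπ hmin (card_idx _) ρ
      (torRep hS hE hF hs (by decide) ρ hρ hG) (fun x h1 h2 => fixd_mem hS hE hF hs (qpE6 _)
        (P := fun d => d = 24 ∨ d = 28 ∨ d = 30 ∨ d = 36 ∨ d = 46) (fun g => ?_) (hG x)
        (by rw [← _root_.map_pow, h1, _root_.map_one]) fun e => h2 (hρ (e.trans ρ.map_one.symm)))
      fun y z a1 a2 a3 a4 a5 a6 a7 => spinSub hS hE hF hs (qpE6 _) (d := 30) (d' := 24)
        (kr_chk hS (th := thN tabE6 71) (by decide +kernel) (rN_spec okE6 _ 3) kacE6_r)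
        (fun b b1 b2 b3 => ?_) ρ hG y z a1 a2 a3 (hl ▸ a4) (hl ▸ a5) (hl ▸ a6) (hl ▸ a7)
    · refine (kf_chk hS (rN_spec okE6 _ 3) (th := thN tabE6 71) (by decide +kernel) (winv_rt _)
        (Q := fun c => c (ind 0) ∈ [18, 22, 24, 30, 40]) (fun _ => of_decide_eq_true) kacE6_3
        g).imp_right fun h => ?_
      have := h fun _ => by simp
      simp only [List.mem_cons, List.not_mem_nil, or_false] at this
      omega
    · have e1 := sd_add okE6 (AlgebraicClosure F) ⟨71, by decide⟩ b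
      have e2 := sd_sub okE6 (AlgebraicClosure F) ⟨71, by decide⟩ b
      obtain ⟨c1, c2, a, ha, c3, c4, c5⟩ := pairE6 b b.2 (fun i hi h =>
        A_rt okE6 (AlgebraicClosure F) ⟨i, hi⟩ b ▸ b1 _ ((A_rt okE6 _ _ _).trans h))
        ((cnt_bb okE6 _ e1).symm.trans b2) ((cnt_bb okE6 _ e2).symm.trans b3)
      have c6 := (ncard_fin {r | bf (okE6.chev (AlgebraicClosure F)) (vec (uZ a))
        ((okE6.chev (AlgebraicClosure F)).rt r) = 3} _ fun r => by
          rw [Set.mem_ofPred_eq, ibeq_iff, ← bf_vec okE6 (AlgebraicClosure F)]; rfl).trans c5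
      exact ⟨_, c6.trans_ne (by decide), c6.le, hS.good6 (winvE6 _) (a := ⟨a, ha⟩)
        ((ncard_fin _ _ fun a => xB_iff _ e1 a).trans_le c1) ((xB_iff _ e1 a).2 c3),
        hS.good6 (winvE6 _) (a := ⟨a, ha⟩) ((ncard_fin _ _ fun a => xB_iff _ e2 a).trans_le c2)
          ((xB_iff _ e2 a).2 c4)⟩

end CfsgAE
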