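/-
Alternating sections of `E₇`.
-/
import Cfsg.Agent.AE.Asm
import Cfsg.Agent.AE.Lift

set_option autoImplicit false
set_option maxRecDepth 100000

namespace CfsgAE

open CfsgH8 CfsgH8.Chev Matrix CfsgH7 CfsgH5 Cfsg.Lie

theorem slE7 (K : Type*) [Field K] : SL (okE7.chev K) ⟨125, by decide⟩ :=
  sl_of okE7 K _ (by decide +kernel)

theorem qpE7 (K : Type*) [Field K] (d m : ℕ) (h : ckQ tabE7 (Nat.beq m) d [] = true) :
    Qp (okE7.chev K) (· = m) d [] := fun e h1 h2 =>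
  (Nat.eq_of_beq_eq_true (qp_of (slE7 K) (pre := []) h e h1 h2)).symm

theorem kacE7_5 : kacB 126 7 5 (thN tabE7 125) (rN tabE7 5) (ratB 5 2 fun res => decide
    (∀ k : ZMod 5, (res.map fun d : ℕ => ind k (d : ZMod 5)).sum = if k = 0 then 26 else 25)) =
      true := by decide +kernel

theorem kacE7_7 : kacB 126 7 7 (thN tabE7 125) (rN tabE7 7) (ratB 7 3 fun res => decide
    ((res.map fun d : ℕ => ind 0 (d : ZMod 7)).sum ∈ [30, 24, 12])) = true := by decide +kernel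

theorem boundE7 {F : Type*} [Field F] [Finite F] (p : ℕ) [Fact p.Prime] [CharP F p] (r : ℕ)
    (H : Subgroup (chevE7.group F)) (N : Subgroup H) [N.Normal]
    (h : Nonempty (H ⧸ N ≃* alternatingGroup (Fin r))) : r ≤ 13 + (if p = 7 then 1 else 0) := by
  have : Fact (Nat.Prime 5) := ⟨by decide⟩
  have : Fact (Nat.Prime 7) := ⟨by decide⟩
  have hF := lf_closure F chevE7.Idx
  split_ifs with hp
  · refine assemble okE7 le_rfl H N h fun M _ _ π hπ hmin ρ hρ hG => ?_
    have hs : ((5 : ℕ) : AlgebraicClosure F) ≠ 0 := cast_ne' p Fact.out (by omega)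
    obtain ⟨x, y, z, a1, a2, a3, a4, a5, a6, a7⟩ := lift5 π hπ hmin
      (torRep (slE7 _) (extraE7 _) hF hs (by decide) ρ hρ hG)
    exact no5 (slE7 _) (extraE7 _) hF ρ hρ hG (Fintype.card_fin _) (qpE7 _ 1 32 (by decide +kernel))
      hs (FR_of (slE7 _) (extraE7 _) (.inr (.inl rfl)) fun e h1 h2 => by
        rw [qpE7 _ 4 4 (by decide +kernel) e h1 h2]; decide)
      (kf_chk (slE7 _) (rN_spec okE7 _ 5) (th := thN tabE7 125) (by decide +kernel) (winv_rt _)
        (Q := fun c => ∀ k, c (ind k) = if k = 0 then 26 else 25)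
        (fun _ => of_decide_eq_true) kacE7_5)
      a1 a2 a3 a4 a5 a6 a7
  · refine assemble okE7 le_rfl H N h fun M _ _ π hπ hmin ρ hρ hG => ?_
    have hs : ((7 : ℕ) : AlgebraicClosure F) ≠ 0 := cast_ne' p Fact.out hp
    obtain ⟨y, z, a1, a2, a3, a4, a5, a6, a7⟩ := lift7 π hπ hmin
      (torRep (slE7 _) (extraE7 _) hF hs (by decide) ρ hρ hG)
    exact no7 (slE7 _) (extraE7 _) hF ρ hρ hG (Fintype.card_fin _) (qpE7 _ 1 32 (by decide +kernel))
      hs (FR_of (slE7 _) (extraE7 _) (.inr (.inr rfl)) fun e h1 h2 => by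
        rw [qpE7 _ 6 1 (by decide +kernel) e h1 h2]; decide)
      (kf_chk (slE7 _) (rN_spec okE7 _ 7) (th := thN tabE7 125) (by decide +kernel) (winv_rt _)
        (Q := fun c => c (ind 0) ∈ [30, 24, 12]) (fun _ => of_decide_eq_true) kacE7_7)
      a1 a2 a3 a4 a5 a6 a7

end CfsgAE
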