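/-
Alternating sections of `E₈`: finite facts.
-/
import Cfsg.Agent.AE.Asm

set_option autoImplicit false
set_option maxRecDepth 100000

namespace CfsgAE

open CfsgH8 CfsgH8.Chev Matrix CfsgH7 CfsgH5 Cfsg.Lie Equiv

theorem slE8 (K : Type*) [Field K] : SL (okE8.chev K) ⟨239, by decide⟩ :=
  sl_of okE8 K _ (by decide +kernel)

theorem qpE8 (K : Type*) [Field K] :
    Qp (okE8.chev K) (fun m => m ≠ 0 ∧ (3 = 3 ∨ m.Coprime 3)) 2 [] := fun e h1 h2 => by
  rw [← Nat.eq_of_beq_eq_true (qp_of (slE8 K) (P := Nat.beq 27) (pre := []) (by decide +kernel)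
    e h1 h2)]
  decide

theorem kacE8_17 : kacB 240 8 17 (thN tabE8 239) (rN tabE8 17) (ratB 17 3 fun _ => false) = true := by
  decide +kernel

theorem kacE8_3 : kacB 240 8 3 (thN tabE8 239) (rN tabE8 3) (ratB 3 1 fun res => decide
    ((res.map fun d : ℕ => ind 0 (d : ZMod 3)).sum ∈ [72, 78, 84, 126])) = true := by decide +kernel

theorem kacE8_r : kacB 240 8 3 (thN tabE8 239) (rN tabE8 3) (rootB tabE8 3 126) = true := by
  decide +kernel

set_option synthInstance.maxSize 1024 in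
theorem pairE8 : ∀ b < 240, (∀ i < 8, pr tabE8 (tabE8.rtc 239) i = 0 → 0 ≤ pr tabE8 (tabE8.rtc b) i) →
    countLt 240 (fun r => ibeq (sd tabE8 239 b 1 r % 3) 0) = 84 →
    countLt 240 (fun r => ibeq (sd tabE8 239 b (-1) r % 3) 0) = 84 →
    countLt 240 (fun r => ibeq (sd tabE8 239 b 1 r % 2) 1) = 128 ∧
      ∀ r < 240, |sd tabE8 239 b 1 r| ≤ 2 ∧ |sd tabE8 239 b (-1) r| ≤ 2 := by decide +kernel

end CfsgAE
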