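/-
Alternating sections of `E₈`.
-/
import Cfsg.Agent.AE.E8c
import Cfsg.Agent.AE.Core

set_option autoImplicit false
set_option maxRecDepth 100000

namespace CfsgAE

open CfsgH8 CfsgH8.Chev Matrix CfsgH7 CfsgH5 Cfsg.Lie Equiv

theorem boundE8 {F : Type*} [Field F] [Finite F] (p : ℕ) [Fact p.Prime] [CharP F p] (r : ℕ)
    (H : Subgroup (chevE8.group F)) (N : Subgroup H) [N.Normal]
    (h : Nonempty (H ⧸ N ≃* alternatingGroup (Fin r))) : r ≤ 17 + (if p = 3 then 1 else 0) := by
  have : Fact (Nat.Prime 3) := ⟨by decide⟩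
  have : Fact (Nat.Prime 17) := ⟨by decide⟩
  have hF := lf_closure F chevE8.Idx
  have hS := slE8 (AlgebraicClosure F)
  have hE := extraE8 (AlgebraicClosure F)
  have hl : Fintype.card (Fin chevE8.rank) = 8 := Fintype.card_fin _
  split_ifs with hp
  · refine assemble okE8 le_rfl H N h fun M _ _ π hπ _ ρ hρ hG => ?_
    exact no_rat hS hE hF ρ hρ hG (cast_ne' p Fact.out (by omega)) (s := 17) (by rw [hl]; decide)
      (winv_rt _) (kf_chk hS (rN_spec okE8 _ 17) (th := thN tabE8 239) (by decide +kernel)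
        (winv_rt _) (Q := fun _ => False) (fun _ => Bool.false_ne_true) kacE8_17) π hπ
      (a := ⟨swap 0 1 * swap 1 2 * swap 2 3 * swap 3 4 * swap 4 5 * swap 5 6 * swap 6 7 * swap 7 8 *
        swap 8 9 * swap 9 10 * swap 10 11 * swap 11 12 * swap 12 13 * swap 13 14 * swap 14 15 *
        swap 15 16, by simp [Perm.mem_alternatingGroup]⟩)
      (σ := ⟨swap 1 3 * swap 3 9 * swap 9 10 * swap 10 13 * swap 13 5 * swap 5 15 * swap 15 11 *
        swap 11 16 * swap 16 14 * swap 14 8 * swap 8 7 * swap 7 4 * swap 4 12 * swap 12 2 *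
        swap 2 6 * swap 17 18, by simp [Perm.mem_alternatingGroup]⟩)
      (Subtype.ext (Equiv.ext (by decide +kernel))) (fun e => by
        have := DFunLike.congr_fun (congrArg Subtype.val e) 0
        revert this
        decide +kernel) (Subtype.ext (Equiv.ext (by decide +kernel)))
  · refine assemble okE8 le_rfl H N h fun M _ _ π hπ hmin ρ hρ hG => ?_
    have hs : ((3 : ℕ) : AlgebraicClosure F) ≠ 0 := cast_ne' p Fact.out hp
    refine core8 (by exact_mod_cast hs) π hπ hmin (card_idx _) ρ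
      (torRep hS hE hF hs (by decide) ρ hρ hG) (fun x h1 h2 => fixd_mem hS hE hF hs (qpE8 _)
        (P := fun d => d = 80 ∨ d = 86 ∨ d = 92 ∨ d = 134) (fun g => ?_) (hG x)
        (by rw [← _root_.map_pow, h1, _root_.map_one]) fun e => h2 (hρ (e.trans ρ.map_one.symm)))
      fun y z a1 a2 a3 a4 a5 a6 a7 => spinSub hS hE hF hs (qpE8 _) (d := 126) (d' := 84)
        (kr_chk hS (th := thN tabE8 239) (by decide +kernel) (rN_spec okE8 _ 3) kacE8_r)
        (fun b b1 b2 b3 => ?_) ρ hG y z a1 a2 a3 (hl ▸ a4) (hl ▸ a5) (hl ▸ a6) (hl ▸ a7)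
    · refine (kf_chk hS (rN_spec okE8 _ 3) (th := thN tabE8 239) (by decide +kernel) (winv_rt _)
        (Q := fun c => c (ind 0) ∈ [72, 78, 84, 126]) (fun _ => of_decide_eq_true) kacE8_3 g).imp_right
        fun h => ?_
      have := h fun _ => by simp
      simp only [List.mem_cons, List.not_mem_nil, or_false] at this
      omega
    · have e1 := sd_add okE8 (AlgebraicClosure F) ⟨239, by decide⟩ b
      have e2 := sd_sub okE8 (AlgebraicClosure F) ⟨239, by decide⟩ b
      obtain ⟨c1, c2⟩ := pairE8 b b.2 (fun i hi h => A_rt okE8 (AlgebraicClosure F) ⟨i, hi⟩ b ▸ b1 _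
        ((A_rt okE8 _ _ _).trans h)) ((cnt_bb okE8 _ e1).symm.trans b2)
        ((cnt_bb okE8 _ e2).symm.trans b3)
      have hθ : ∀ i, 2 ≤ (okE8.chev (AlgebraicClosure F)).rt ⟨239, by decide⟩ i := fun i =>
        (by decide +kernel : ∀ i < 8, 2 ≤ tabE8.rtc 239 i) i i.2
      have c3 := (ncard_fin {r : Fin chevE8.nroots | Odd (sd tabE8 239 b 1 r)} _ fun r => by
        rw [Set.mem_ofPred_eq, Int.odd_iff, ← ibeq_iff]).trans c1
      refine ⟨_, c3.trans_ne (by decide), c3.le, hS.good8 hθ (fun r => e1 r ▸ (c2 r r.2).1)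
        fun r => by rw [e1]; rfl, hS.good8 hθ (fun r => e2 r ▸ (c2 r r.2).2) fun r => ?_⟩
      rw [Set.mem_ofPred_eq, ← e1, AddMonoidHom.add_apply, AddMonoidHom.sub_apply, Int.odd_iff,
        Int.odd_iff]
      omega

end CfsgAE
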